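import Mathlib
import Cfsg.Agent.Lib.Orth12.Asch1

/-!
Aschbacher classes for orthogonal groups, part 2: types of subspaces and of decompositions.
-/

set_option autoImplicit false
set_option linter.unusedSectionVars false

namespace H12.A

open Matrix Cfsg Cfsg.Geo H10.Asch H28.AF Module QuadraticMap
open scoped MatrixGroups Kronecker

variable {ι : Type} [Fintype ι] [DecidableEq ι] {F : Type*} [Field F]
  {S : SF ι F} {Q : QuadraticForm F (ι → F)}

/-- orthogonal subspaces -/
abbrev Orth (Q : QuadraticForm F (ι → F)) (W U : Submodule F (ι → F)) : Prop :=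
  AreOrthogonalFor (polar Q) W U

/-- non-degenerate subspaces -/
abbrev ND (Q : QuadraticForm F (ι → F)) (W : Submodule F (ι → F)) : Prop :=
  IsNondegenerateOn (polar Q) W

/-- subspaces of plus type -/
abbrev Plus (Q : QuadraticForm F (ι → F)) (W : Submodule F (ι → F)) : Prop := IsPlusTypeOn Q W

theorem Orth.symm {W U : Submodule F (ι → F)} (h : Orth Q W U) : Orth Q U W :=
  fun u hu w hw => by rw [polar_comm, h w hw u hu]

theorem Orth.sup {W W' U : Submodule F (ι → F)} (h : Orth Q W U) (h' : Orth Q W' U) :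
    Orth Q (W ⊔ W') U := fun x hx u hu => by
  obtain ⟨a, ha, b, hb, rfl⟩ := Submodule.mem_sup.1 hx
  rw [polar_add_left, h a ha u hu, h' b hb u hu, add_zero]

theorem Orth.finsup {α : Type*} {D : α → Submodule F (ι → F)} {U : Submodule F (ι → F)}
    {s : Finset α} (h : ∀ i ∈ s, Orth Q (D i) U) : Orth Q (s.sup D) U :=
  Finset.sup_induction (p := fun W => Orth Q W U) (fun x hx u _ => by
    rw [(Submodule.mem_bot F).1 hx, polar_zero_left]) (fun _ h1 _ h2 => h1.sup h2) h

theorem ND.eq_zero {W : Submodule F (ι → F)} (hW : ND Q W) {w : ι → F} (hw : w ∈ W)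
    (h : ∀ x ∈ W, polar Q w x = 0) : w = 0 := by
  by_contra h0
  obtain ⟨x, hx, hx0⟩ := (hW w hw h0).2
  exact hx0 (h x hx)

theorem nd_of {W : Submodule F (ι → F)} (h : ∀ w ∈ W, (∀ x ∈ W, polar Q w x = 0) → w = 0) :
    ND Q W := fun w hw h0 => by
  have : ∃ x ∈ W, polar Q w x ≠ 0 := by
    by_contra hn
    push Not at hn
    exact h0 (h w hw hn)
  obtain ⟨x, hx, hx0⟩ := this
  exact ⟨⟨x, hx, by rwa [polar_comm]⟩, x, hx, hx0⟩

theorem ND.disjoint {W U : Submodule F (ι → F)} (hW : ND Q W) (h : Orth Q W U) : Disjoint W U :=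
  Submodule.disjoint_def.2 fun x hx hx' => hW.eq_zero hx fun y hy => h.symm x hx' y hy

theorem ND.sup {W U : Submodule F (ι → F)} (hW : ND Q W) (hU : ND Q U) (h : Orth Q W U) :
    ND Q (W ⊔ U) := nd_of fun x hx hx0 => by
  obtain ⟨a, ha, b, hb, rfl⟩ := Submodule.mem_sup.1 hx
  have h1 : a = 0 := hW.eq_zero ha fun y hy => by
    have := hx0 y (Submodule.mem_sup_left hy)
    rwa [polar_add_left, h.symm b hb y hy, add_zero] at this
  have h2 : b = 0 := hU.eq_zero hb fun y hy => by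
    have := hx0 y (Submodule.mem_sup_right hy)
    rwa [polar_add_left, h a ha y hy, zero_add] at this
  rw [h1, h2, add_zero]

theorem polar_restrict (W : Submodule F (ι → F)) (x y : W) :
    polar (Q.restrict W) x y = polar Q (x : ι → F) y := rfl

theorem ND.nondeg {W : Submodule F (ι → F)} (hW : ND Q W) : Nondeg (Q.restrict W) :=
  fun v hv => Subtype.ext (hW.eq_zero v.2 fun x hx => hv ⟨x, hx⟩)

theorem ND.restrict {W : Submodule F (ι → F)} (hW : ND Q W) :
    (polarBilin (Q.restrict W)).Nondegenerate := nondeg_iff.1 hW.nondeg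

theorem plus_iff {W : Submodule F (ι → F)} : Plus Q W ↔ H66.IsPlusType (Q.restrict W) := by
  constructor
  · rintro ⟨U, hU, hs, hd⟩
    refine ⟨U.comap W.subtype, fun u hu => hs _ hu, ?_⟩
    rw [(Submodule.comapSubtypeEquivOfLe hU).finrank_eq, hd]
  · rintro ⟨U, hs, hd⟩
    refine ⟨U.map W.subtype, Submodule.map_subtype_le _ _, ?_, ?_⟩
    · rintro _ ⟨u, hu, rfl⟩
      exact hs u hu
    · rw [Submodule.finrank_map_subtype_eq, hd]

theorem plus_top_iff : Plus Q ⊤ ↔ H66.IsPlusType Q :=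
  ⟨fun ⟨U, _, hs, hd⟩ => ⟨U, hs, by rw [hd, finrank_top]⟩,
    fun ⟨U, hs, hd⟩ => ⟨U, le_top, hs, by rw [hd, finrank_top]⟩⟩

theorem Plus.of_iso {W U : Submodule F (ι → F)} (h : Plus Q W) (hi : AreIsometricFor Q W U) :
    Plus Q U := by
  obtain ⟨e, he⟩ := hi
  exact plus_iff.2 ((plus_iff.1 h).of_equiv e fun v hv => (he v).trans hv)

theorem Plus.even {W : Submodule F (ι → F)} (h : Plus Q W) : Even (finrank F W) := by
  obtain ⟨U, -, -, hd⟩ := h
  exact ⟨_, by rw [← hd, two_mul]⟩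

theorem plus_bot : Plus Q ⊥ :=
  ⟨⊥, le_rfl, fun w hw => by rw [(Submodule.mem_bot F).1 hw, map_zero], by simp⟩

theorem Plus.sup {W U : Submodule F (ι → F)} (hW : Plus Q W) (hU : Plus Q U) (h : Orth Q W U)
    (hd : Disjoint W U) : Plus Q (W ⊔ U) := by
  obtain ⟨X, hX, hXs, hXd⟩ := hW
  obtain ⟨Y, hY, hYs, hYd⟩ := hU
  refine ⟨X ⊔ Y, sup_le_sup hX hY, fun x hx => ?_, ?_⟩
  · obtain ⟨a, ha, b, hb, rfl⟩ := Submodule.mem_sup.1 hx
    rw [Q_add, hXs a ha, hYs b hb, h a (hX ha) b (hY hb), add_zero, add_zero]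
  · have h1 := Submodule.finrank_sup_add_finrank_inf_eq X Y
    have h2 := Submodule.finrank_sup_add_finrank_inf_eq W U
    rw [(hd.mono hX hY).eq_bot, finrank_bot] at h1
    rw [hd.eq_bot, finrank_bot] at h2
    omega

theorem plus_graph {W U : Submodule F (ι → F)} (h : Orth Q W U) (hd : Disjoint W U)
    (φ : W ≃ₗ[F] U) (hφ : ∀ w, Q (φ w : ι → F) = -Q (w : ι → F)) : Plus Q (W ⊔ U) := by
  refine ⟨LinearMap.range (W.subtype + U.subtype.comp φ.toLinearMap), ?_, ?_, ?_⟩
  · rintro _ ⟨w, rfl⟩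
    exact Submodule.add_mem_sup w.2 (φ w).2
  · rintro _ ⟨w, rfl⟩
    change Q ((w : ι → F) + φ w) = 0
    rw [Q_add, hφ, h _ w.2 _ (φ w).2, add_neg_cancel, add_zero]
  · rw [LinearMap.finrank_range_of_inj]
    · have h2 := Submodule.finrank_sup_add_finrank_inf_eq W U
      rw [hd.eq_bot, finrank_bot, ← φ.finrank_eq] at h2
      omega
    · rw [← LinearMap.ker_eq_bot, LinearMap.ker_eq_bot']
      intro w hw
      change (w : ι → F) + φ w = 0 at hw
      exact Subtype.ext (Submodule.disjoint_def.1 hd _ w.2 (by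
        rw [eq_neg_of_add_eq_zero_left hw]; exact U.neg_mem (φ w).2))

theorem OQ.nd_perp (h : OQ S Q) {W : Submodule F (ι → F)} (hW : ND Q W) : ND Q (S.perp W) := by
  have := S.nondeg_perp (W := W) (by rwa [h.hf])
  rwa [h.hf] at this

theorem OQ.orth_perp (h : OQ S Q) (W : Submodule F (ι → F)) : Orth Q (S.perp W) W :=
  fun _ hu => h.mem_perp.1 hu

theorem OQ.isCompl_perp (h : OQ S Q) {W : Submodule F (ι → F)} (hW : ND Q W) :
    IsCompl W (S.perp W) := S.isCompl_perp (by rwa [h.hf])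

theorem OQ.plus_perp (h : OQ S Q) (hV : Plus Q ⊤) {W : Submodule F (ι → F)} (hW : ND Q W)
    (hp : Plus Q W) : Plus Q (S.perp W) := by
  obtain ⟨E, -, hE, hEd⟩ := hV
  obtain ⟨U, hU, hUs, hUd⟩ := hp
  rw [finrank_top] at hEd
  have hE' := H30.IsTS.isTS_sup h.nd' hEd.symm ⟨rfl, hE⟩ hUs
  set E' := (E ⊓ H30.qperp Q U) ⊔ U
  have h1 : E' ⊔ S.perp W ≤ S.perp U := by
    refine sup_le ?_ (S.perp_anti hU)
    rw [h.perp_eq]
    exact (H30.le_qperp_of_sing hE'.2).trans (H30.qperp_anti le_sup_right)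
  refine ⟨E' ⊓ S.perp W, inf_le_right, fun w hw => hE'.2 w hw.1, ?_⟩
  have h2 := Submodule.finrank_sup_add_finrank_inf_eq E' (S.perp W)
  have h3 := Submodule.finrank_mono h1
  have h4 := S.finrank_perp_add W
  have h5 := S.finrank_perp_add U
  have h6 := hE'.1
  have h7 := H66.two_mul_finrank_le_of_singular (h.nd_perp hW).restrict
    ((E' ⊓ S.perp W).comap (S.perp W).subtype) fun u hu => hE'.2 _ hu.1
  rw [(Submodule.comapSubtypeEquivOfLe inf_le_right).finrank_eq] at h7
  rw [finrank_V] at hEd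
  omega

theorem OQ.plus_top_of_perp (h : OQ S Q) {W : Submodule F (ι → F)} (hW : ND Q W)
    (hp : Plus Q W) (hp' : Plus Q (S.perp W)) : Plus Q ⊤ := by
  rw [← (h.isCompl_perp hW).sup_eq_top]
  exact hp.sup hp' (h.orth_perp W).symm (h.isCompl_perp hW).disjoint

theorem iso_of_plus_iff [Finite F] {W U : Submodule F (ι → F)} (hW : ND Q W) (hU : ND Q U)
    {m : ℕ} (h1 : finrank F W = 2 * m) (h2 : finrank F U = 2 * m) (h : Plus Q W ↔ Plus Q U) :
    AreIsometricFor Q W U :=
  H66.exists_equiv_of_isPlusType_iff hW.restrict hU.restrict h1 h2 (by rwa [← plus_iff, ← plus_iff])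

theorem exists_anti_iso [Finite F] {W U : Submodule F (ι → F)} (hW : ND Q W) (hU : ND Q U)
    {m : ℕ} (h1 : finrank F W = 2 * m) (h2 : finrank F U = 2 * m) (h : Plus Q W ↔ Plus Q U) :
    ∃ φ : W ≃ₗ[F] U, ∀ w, Q (φ w : ι → F) = -Q (w : ι → F) := by
  have hW' : ND (-Q) W := nd_of fun w hw h0 => hW.eq_zero hw fun x hx => by
    have := h0 x hx
    rwa [FunLike.coe_neg, polar_neg, neg_eq_zero] at this
  refine H66.exists_equiv_of_isPlusType_iff hW'.restrict hU.restrict h1 h2 ?_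
  rw [← plus_iff, ← plus_iff, ← h]
  simp only [IsPlusTypeOn, IsTotallySingularQuad, _root_.neg_apply, neg_eq_zero]

section Decomp

variable {t k : ℕ} {D : Fin t → Submodule F (ι → F)}

theorem univ_sup_eq_top (hD : IsMDecomposition k D) : Finset.univ.sup D = ⊤ := by
  rw [Finset.sup_univ_eq_iSup, hD.iSup_eq_top]

theorem plus_finsup (hD : IsNondegenerateMDecomposition (polar Q) k D) (s : Finset (Fin t))
    (h : ∀ i ∈ s, Plus Q (D i)) : Plus Q (s.sup D) := by
  induction s using Finset.induction_on with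
  | empty => exact plus_bot
  | insert a s ha ih =>
    rw [Finset.sup_insert]
    have ho : Orth Q (D a) (s.sup D) :=
      (Orth.finsup fun i hi => hD.orthogonal i a (ne_of_mem_of_not_mem hi ha)).symm
    exact (h a (Finset.mem_insert_self _ _)).sup (ih fun i hi => h i (Finset.mem_insert_of_mem hi))
      ho (ND.disjoint (hD.nondegenerate a) ho)

theorem plus_top_of_all (hD : IsNondegenerateMDecomposition (polar Q) k D)
    (h : ∀ i, Plus Q (D i)) : Plus Q ⊤ := by
  rw [← univ_sup_eq_top hD.decomp]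
  exact plus_finsup hD _ fun i _ => h i

theorem plus_finsup_even [Finite F] (hD : IsOrthogonalMDecomposition Q k D) (hk : Even k)
    (s : Finset (Fin t)) (hs : Even s.card) : Plus Q (s.sup D) := by
  obtain ⟨m, hm⟩ := hs
  obtain ⟨l, hl⟩ := hk
  induction m generalizing s with
  | zero =>
    rw [Finset.card_eq_zero.1 hm]
    exact plus_bot
  | succ m ih =>
    obtain ⟨a, ha, b, hb, hab⟩ := Finset.one_lt_card.1 (show 1 < s.card by omega)
    have hb' : b ∈ s.erase a := Finset.mem_erase.2 ⟨hab.symm, hb⟩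
    have h1 : s.sup D = (D a ⊔ D b) ⊔ ((s.erase a).erase b).sup D := by
      conv_lhs => rw [← Finset.insert_erase ha, ← Finset.insert_erase hb']
      rw [Finset.sup_insert, Finset.sup_insert, sup_assoc]
    have hn := hD.decomp.nondegenerate
    have ho := hD.decomp.orthogonal
    have h2 : Orth Q (D a ⊔ D b) (((s.erase a).erase b).sup D) :=
      Orth.sup (Orth.finsup fun i hi => ho i a (Finset.ne_of_mem_erase (Finset.mem_of_mem_erase hi))).symm
        (Orth.finsup fun i hi => ho i b (Finset.ne_of_mem_erase hi)).symm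
    obtain ⟨φ, hφ⟩ := exists_anti_iso (hn a) (hn b) (m := l)
      (by rw [hD.decomp.decomp.finrank_eq, hl, two_mul])
      (by rw [hD.decomp.decomp.finrank_eq, hl, two_mul])
      ⟨fun h => h.of_iso (hD.isometric a b), fun h => h.of_iso (hD.isometric b a)⟩
    rw [h1]
    refine (plus_graph (ho a b hab) (ND.disjoint (hn a) (ho a b hab)) φ hφ).sup (ih _ ?_) h2
      ((ND.sup (hn a) (hn b) (ho a b hab)).disjoint h2)
    rw [Finset.card_erase_of_mem hb', Finset.card_erase_of_mem ha]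
    omega

theorem plus_top_of_even [Finite F] (hD : IsOrthogonalMDecomposition Q k D) (hk : Even k)
    (ht : Even t) : Plus Q ⊤ := by
  rw [← univ_sup_eq_top hD.decomp.decomp]
  exact plus_finsup_even hD hk _ (by simpa using ht)

theorem OQ.perp_eq_sup (h : OQ S Q) (hD : IsNondegenerateMDecomposition (polar Q) k D)
    (i : Fin t) : S.perp (D i) = (Finset.univ.erase i).sup D := by
  have ho : (Finset.univ.erase i).sup D ≤ S.perp (D i) := fun x hx =>
    h.mem_perp.2 (Orth.finsup (fun j hj => hD.orthogonal j i (Finset.ne_of_mem_erase hj)) x hx)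
  refine le_antisymm (fun v hv => ?_) ho
  have h1 : v ∈ D i ⊔ (Finset.univ.erase i).sup D := by
    rw [← Finset.sup_insert, Finset.insert_erase (Finset.mem_univ i), univ_sup_eq_top hD.decomp]
    trivial
  obtain ⟨a, ha, b, hb, rfl⟩ := Submodule.mem_sup.1 h1
  have h2 : a = 0 := Submodule.disjoint_def.1 (h.isCompl_perp (hD.nondegenerate i)).disjoint a ha
    ((Submodule.add_mem_iff_left _ (ho hb)).1 hv)
  rwa [h2, zero_add]

theorem OQ.plus_iff_of_odd [Finite F] (h : OQ S Q) (hD : IsOrthogonalMDecomposition Q k D)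
    (hk : Even k) (ht : Odd t) (i : Fin t) : Plus Q ⊤ ↔ Plus Q (D i) := by
  refine ⟨fun hV => ?_, fun hi => plus_top_of_all hD.decomp fun j => hi.of_iso (hD.isometric i j)⟩
  rw [← S.perp_perp (D i)]
  refine h.plus_perp hV (h.nd_perp (hD.decomp.nondegenerate i)) ?_
  rw [h.perp_eq_sup hD.decomp]
  refine plus_finsup_even hD hk _ ?_
  rw [Finset.card_erase_of_mem (Finset.mem_univ i), Finset.card_univ, Fintype.card_fin]
  exact Nat.Odd.sub_odd ht odd_one

end Decomp

section Disc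

variable {V : Type*} [AddCommGroup V] [Module F V]

theorem linearIndependent_of_gramDet {q : QuadraticForm F V} {κ : Type*} [Fintype κ]
    [DecidableEq κ] {v : κ → V} (h : H66.gramDet q v ≠ 0) : LinearIndependent F v := by
  rw [Fintype.linearIndependent_iff]
  intro c hc
  have : (Matrix.of fun i j => polar q (v i) (v j)) *ᵥ c = 0 := by
    ext i
    have := congrArg (polar q (v i)) hc
    rw [B_sum_right, polar_zero_right] at this
    simp only [mulVec, dotProduct, of_apply, Pi.zero_apply]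
    rw [← this]
    exact Finset.sum_congr rfl fun j _ => by rw [B_smul_right, mul_comm]
  exact congrFun (Matrix.eq_zero_of_mulVec_eq_zero h this)

theorem exists_basis_of_gramDet [FiniteDimensional F V] {q : QuadraticForm F V} {κ : Type*}
    [Fintype κ] [DecidableEq κ] {v : κ → V} (h : H66.gramDet q v ≠ 0)
    (hc : Fintype.card κ = finrank F V) : ∃ b : Basis κ F V, ⇑b = v :=
  ⟨basisOfLinearIndependentOfCardEqFinrank' v (linearIndependent_of_gramDet h) hc,
    coe_basisOfLinearIndependentOfCardEqFinrank' _ _ _⟩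

theorem OQ.plus_iff_family [Finite F] (h : OQ S Q) (h2 : (2 : F) ≠ 0) {m : ℕ}
    (hm : Fintype.card ι = 2 * m) {κ : Type*} [Fintype κ] [DecidableEq κ] {v : κ → ι → F}
    (hv : H66.gramDet Q v ≠ 0) (hc : Fintype.card κ = Fintype.card ι) :
    Plus Q ⊤ ↔ IsSquare ((-1) ^ m * H66.gramDet Q v) := by
  obtain ⟨b, rfl⟩ := exists_basis_of_gramDet hv (by rw [hc, finrank_V])
  rw [plus_top_iff, H66.isPlusType_iff_isSquare h2 h.nd' (by rw [finrank_V, hm]) b]

theorem OQ.disc_decomp [Finite F] (h : OQ S Q) (h2 : (2 : F) ≠ 0) {m : ℕ}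
    (hm : Fintype.card ι = 2 * m) {t k : ℕ} {D : Fin t → Submodule F (ι → F)}
    (hD : IsNondegenerateMDecomposition (polar Q) k D) :
    ∃ d : Fin t → F, (∀ i, d i ≠ 0) ∧
      (∀ i j, AreIsometricFor Q (D i) (D j) ↔ IsSquare (d i * d j)) ∧
      (Plus Q ⊤ ↔ IsSquare ((-1) ^ m * ∏ i, d i)) := by
  let b : ∀ i, Basis (Fin k) F (D i) := fun i => finBasisOfFinrankEq F (D i) (hD.decomp.finrank_eq i)
  have hn := hD.nondegenerate
  have hd : ∀ i, H66.gramDet (Q.restrict (D i)) (b i) ≠ 0 := fun i =>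
    H66.gramDet_ne_zero (ND.restrict (hn i)) (b i)
  refine ⟨fun i => H66.gramDet (Q.restrict (D i)) (b i), hd, fun i j => ⟨?_, fun hs => ?_⟩, ?_⟩
  · rintro ⟨e, he⟩
    obtain ⟨c, -, hc⟩ := H66.gramDet_of_equiv (Q := Q.restrict (D i)) (Q' := Q.restrict (D j)) e he
      (b i) (b j)
    beta_reduce
    rw [hc]
    exact ⟨c * H66.gramDet (Q.restrict (D i)) (b i), by ring⟩
  · exact H66.exists_equiv_of_isSquare_gramDet h2 (ND.restrict (hn i)) (ND.restrict (hn j))
      (by rw [hD.decomp.finrank_eq, hD.decomp.finrank_eq]) (b i) (b j) hs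
  · have hg : H66.gramDet Q (fun p : Fin k × Fin t => (b p.2 p.1 : ι → F)) =
        ∏ i, H66.gramDet (Q.restrict (D i)) (b i) := by
      simp only [H66.gramDet]
      rw [← Matrix.det_blockDiagonal]
      congr 1
      ext ⟨a, i⟩ ⟨a', j⟩
      rw [Matrix.blockDiagonal_apply, of_apply]
      split_ifs with hij
      · dsimp only at hij
        subst hij
        rfl
      · exact hD.orthogonal i j hij _ (b i a).2 _ (b j a').2
    rw [← hg]
    refine h.plus_iff_family h2 hm (by rw [hg]; exact Finset.prod_ne_zero_iff.2 fun i _ => hd i) ?_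
    rw [← IsMDecomposition.mul_eq_card hD.decomp]
    simp [mul_comm]

theorem OQ.plus_iff_of_even [Finite F] (h : OQ S Q) (h2 : (2 : F) ≠ 0) {m : ℕ}
    (hm : Fintype.card ι = 2 * m) {t k : ℕ} {D : Fin t → Submodule F (ι → F)}
    (hD : IsOrthogonalMDecomposition Q k D) (ht : Even t) :
    Plus Q ⊤ ↔ IsSquare ((-1 : F) ^ m) := by
  obtain ⟨d, hd0, hd, hp⟩ := h.disc_decomp h2 hm hD.decomp
  let i₀ : Fin t := ⟨0, by have := hD.decomp.decomp.two_le; omega⟩
  have h1 : IsSquare (∏ i, (d i * d i₀)) :=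
    Finset.prod_induction _ IsSquare (fun _ _ => IsSquare.mul) IsSquare.one
      fun i _ => (hd i i₀).1 (hD.isometric i i₀)
  obtain ⟨l, hl⟩ := ht
  rw [Finset.prod_mul_distrib, Finset.prod_const, Finset.card_univ, Fintype.card_fin, mul_comm,
    show d i₀ ^ t = (d i₀ ^ l) ^ 2 by rw [← pow_mul, mul_two, ← hl],
    H66.isSquare_sq_mul_iff (pow_ne_zero _ (hd0 _))] at h1
  obtain ⟨c, hc⟩ := h1
  have hc0 : c ≠ 0 := fun h0 =>
    Finset.prod_ne_zero_iff.2 (fun i _ => hd0 i) (by rw [hc, h0, mul_zero])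
  rw [hp, hc, ← pow_two, mul_comm, H66.isSquare_sq_mul_iff hc0]

theorem OQ.plus_iff_of_not_iso [Finite F] (h : OQ S Q) (h2 : (2 : F) ≠ 0) {m : ℕ}
    (hm : Fintype.card ι = 2 * m) {k : ℕ} {D : Fin 2 → Submodule F (ι → F)}
    (hD : IsNondegenerateMDecomposition (polar Q) k D) (hi : ¬ AreIsometricFor Q (D 0) (D 1)) :
    Plus Q ⊤ ↔ ¬ IsSquare ((-1 : F) ^ m) := by
  obtain ⟨d, hd0, hd, hp⟩ := h.disc_decomp h2 hm hD
  rw [hp, Fin.prod_univ_two, H66.isSquare_mul_iff_of_not (by simp) (mt (hd 0 1).2 hi)]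

theorem two_ne_zero_of_odd_nd [Finite F] {W : Submodule F (ι → F)} (hW : ND Q W)
    (hd : Odd (finrank F W)) : (2 : F) ≠ 0 := by
  obtain ⟨m, hm⟩ := hd
  obtain ⟨-, -, h2, -⟩ := H66.exists_equiv_odd hW.restrict hm
  exact h2

end Disc

end H12.A
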