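import Mathlib
import Cfsg.Agent.Lib.Orth12.Asch2

/-!
Aschbacher classes for orthogonal groups, part 3: subfield structures.
-/

set_option autoImplicit false
set_option linter.unusedSectionVars false

namespace H12.A

open Matrix Cfsg Cfsg.Geo H10.Asch H28.AF Module QuadraticMap
open scoped MatrixGroups Kronecker

variable {ι : Type} [Fintype ι] [DecidableEq ι] {F : Type*} [Field F]
  {S : SF ι F} {Q : QuadraticForm F (ι → F)}

theorem exists_lift {F₀ : Subfield F} {M : Matrix ι ι F} (hM : ∀ i j, M i j ∈ F₀) :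
    ∃ M₀ : Matrix ι ι F₀, M₀.map F₀.subtype = M := ⟨fun i j => ⟨M i j, hM i j⟩, rfl⟩

theorem det_mem {F₀ : Subfield F} {M : Matrix ι ι F} (hM : ∀ i j, M i j ∈ F₀) : M.det ∈ F₀ := by
  obtain ⟨M₀, rfl⟩ := exists_lift hM
  have := F₀.subtype.map_det M₀
  rw [RingHom.mapMatrix_apply] at this
  rw [← this]
  exact M₀.det.2

theorem mem_of_mulVec_mem {F₀ : Subfield F} {M : Matrix ι ι F} (hM : ∀ i j, M i j ∈ F₀)
    (hd : M.det ≠ 0) {x : ι → F} (hx : ∀ i, (M *ᵥ x) i ∈ F₀) (i : ι) : x i ∈ F₀ := by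
  have h1 : M.det • x = M.adjugate *ᵥ (M *ᵥ x) := by
    rw [mulVec_mulVec, adjugate_mul, smul_mulVec, one_mulVec]
  have h2 : ∀ i j, M.adjugate i j ∈ F₀ := fun i j => by
    rw [adjugate_apply]
    refine det_mem fun a b => ?_
    rw [updateRow_apply, Pi.single_apply]
    split_ifs
    exacts [one_mem _, zero_mem _, hM a b]
  have h3 : M.det * x i ∈ F₀ := by
    have := congrFun h1 i
    rw [Pi.smul_apply, smul_eq_mul] at this
    rw [this]
    exact sum_mem fun j _ => mul_mem (h2 i j) (hx j)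
  have := F₀.div_mem h3 (det_mem hM)
  rwa [mul_div_cancel_left₀ _ hd] at this

theorem Q_sum_mem {V : Type*} [AddCommGroup V] [Module F V] {q : QuadraticForm F V}
    {F₀ : Subfield F} {ζ : F} {α : Type*} {c : α → V} (h1 : ∀ i, ζ * q (c i) ∈ F₀)
    (h2 : ∀ i j, ζ * polar q (c i) (c j) ∈ F₀) {u : α → F} (hu : ∀ i, u i ∈ F₀) (s : Finset α) :
    ζ * q (∑ i ∈ s, u i • c i) ∈ F₀ := by
  classical
  induction s using Finset.induction_on with
  | empty => simp
  | insert a s ha ih =>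
    rw [Finset.sum_insert ha, Q_add, Q_smul, B_sum_right, mul_add, mul_add, Finset.mul_sum]
    refine add_mem (add_mem ?_ ih) (sum_mem fun j _ => ?_)
    · rw [mul_left_comm]; exact mul_mem (pow_mem (hu a) 2) (h1 a)
    · rw [B_smul_left, B_smul_right, mul_left_comm, mul_left_comm ζ]
      exact mul_mem (hu a) (mul_mem (hu j) (h2 a j))

theorem mulVec_eq_sum_col (P : Matrix ι ι F) (u : ι → F) :
    P *ᵥ u = ∑ i, u i • (P *ᵥ Pi.single i 1) := by
  conv_lhs => rw [pi_eq_sum_univ' u, mulVec_sum]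
  exact Finset.sum_congr rfl fun i _ => mulVec_smul _ _ _

/-- class 5 for a multiple of `Q` -/
def Sub [Fintype F] (Q : QuadraticForm F (ι → F)) (H : Subgroup (GL ι F)) : Prop :=
  ∃ (F₀ : Subfield F) (r : ℕ) (P : GL ι F) (ζ : F), r.Prime ∧ Fintype.card F = Nat.card F₀ ^ r ∧
    ζ ≠ 0 ∧ IsQuadFormRationalStructure (fun v => ζ * Q v) F₀ P ∧ H ≤ subfieldSubgroup F₀ P

theorem sub_of_cols [Fintype F] [Nonempty ι] {H : Subgroup (GL ι F)} {F₀ : Subfield F}
    (hF : F₀ ≠ ⊤) {ζ : F} (hζ : ζ ≠ 0) {P : GL ι F}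
    (h1 : ∀ i, ζ * Q ((P : Matrix ι ι F) *ᵥ Pi.single i 1) ∈ F₀)
    (h2 : ∀ i j, ζ * polar Q ((P : Matrix ι ι F) *ᵥ Pi.single i 1)
      ((P : Matrix ι ι F) *ᵥ Pi.single j 1) ∈ F₀) (hH : H ≤ subfieldSubgroup F₀ P) : Sub Q H := by
  obtain ⟨F₁, r, hr, hle, hc⟩ := exists_subfield_prime_index hF
  refine ⟨F₁, r, P, ζ, hr, hc, hζ, fun u hu => ?_, hH.trans (subfieldSubgroup_mono hle P)⟩
  rw [mulVec_eq_sum_col]
  exact Q_sum_mem (fun i => hle (h1 i)) (fun i j => hle (h2 i j)) hu _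

theorem OQ.gr_apply (h : OQ S Q) (P : GL ι F) (i j : ι) :
    S.gr P i j = polar Q ((P : Matrix ι ι F) *ᵥ Pi.single i 1)
      ((P : Matrix ι ι F) *ᵥ Pi.single j 1) := by
  rw [← h.hf, S.f_gr, gform_single]

theorem OQ.gr_mulVec (h : OQ S Q) (P : GL ι F) (x : ι → F) (i : ι) :
    (S.gr P *ᵥ x) i = polar Q ((P : Matrix ι ι F) *ᵥ Pi.single i 1) ((P : Matrix ι ι F) *ᵥ x) := by
  rw [← h.hf, S.f_gr, gform, single_one_dotProduct, h.hσ']
  rfl

theorem det_gr_ne_zero (P : GL ι F) : (S.gr P).det ≠ 0 :=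
  ((isUnit_iff_isUnit_det _).1 (S.isUnit_gr P)).ne_zero

theorem span_eq_top {H : Subgroup (GL ι F)} (hI : Irr H) {T : Set (ι → F)}
    (hT : ∀ g ∈ H, ∀ s ∈ T, (g : Matrix ι ι F) *ᵥ s ∈ T) {s : ι → F} (hs : s ∈ T) (h0 : s ≠ 0) :
    Submodule.span F T = ⊤ := by
  refine (hI _ fun g hg v hv => ?_).resolve_left fun h =>
    h0 ((Submodule.eq_bot_iff _).1 h s (Submodule.subset_span hs))
  have : Submodule.span F T ≤ (Submodule.span F T).comap (Matrix.toLin' (g : Matrix ι ι F)) :=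
    Submodule.span_le.2 fun x hx => Submodule.subset_span (hT g hg x hx)
  exact this hv

/-- An invariant set of vectors with rational values gives a subfield structure. -/
theorem OQ.sub_of_set [Fintype F] (h : OQ S Q) {H : Subgroup (GL ι F)} (hI : Irr H)
    {T : Set (ι → F)} (hT : ∀ g ∈ H, ∀ s ∈ T, (g : Matrix ι ι F) *ᵥ s ∈ T) {s : ι → F}
    (hs : s ∈ T) (h0 : s ≠ 0) {F₀ : Subfield F} (hF : F₀ ≠ ⊤) {ζ : F} (hζ : ζ ≠ 0)
    (h1 : ∀ s ∈ T, ζ * Q s ∈ F₀) (h2 : ∀ s ∈ T, ∀ t ∈ T, ζ * polar Q s t ∈ F₀) : Sub Q H := by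
  have : Nonempty ι := by
    by_contra hn
    exact h0 (funext fun i => (hn ⟨i⟩).elim)
  have hsp := (span_eq_top hI hT hs h0).ge
  let b₀ := Basis.ofSpan hsp
  let b := b₀.reindex (b₀.indexEquiv (Pi.basisFun F ι))
  have hb : ∀ i, b i ∈ T := fun i => Basis.ofSpan_subset hsp
    ⟨(b₀.indexEquiv (Pi.basisFun F ι)).symm i, (b₀.reindex_apply _ i).symm⟩
  have hu : IsUnit (Matrix.of b)ᵀ := linearIndependent_cols_iff_isUnit.1 b.linearIndependent
  have hP : ∀ i, (hu.unit : Matrix ι ι F) *ᵥ Pi.single i 1 = b i := fun i => by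
    rw [mulVec_single_one]; rfl
  refine sub_of_cols hF hζ (P := hu.unit) (fun i => hP i ▸ h1 _ (hb i))
    (fun i j => by rw [hP, hP]; exact h2 _ (hb i) _ (hb j)) fun g hg => ?_
  refine mem_subfieldSubgroup_iff.2 ⟨1, one_ne_zero, fun i j => ?_⟩
  have h3 : cj hu.unit⁻¹ (g : Matrix ι ι F) *ᵥ Pi.single j 1 =
      ((hu.unit⁻¹ : GL ι F) : Matrix ι ι F) *ᵥ ((g : Matrix ι ι F) *ᵥ b j) := by
    rw [← cj_mulVec, ← hP, gl_inv_mulVec]
  rw [one_mul, show cj hu.unit⁻¹ (g : Matrix ι ι F) i j =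
    (cj hu.unit⁻¹ (g : Matrix ι ι F) *ᵥ Pi.single j 1) i by rw [mulVec_single_one]; rfl, h3]
  refine mem_of_mulVec_mem (M := ζ • S.gr hu.unit) (fun i j => ?_) ?_ (fun i => ?_) i
  · rw [Matrix.smul_apply, h.gr_apply, hP, hP]
    exact h2 _ (hb i) _ (hb j)
  · rw [det_smul]
    exact mul_ne_zero (pow_ne_zero _ hζ) (det_gr_ne_zero _)
  · rw [smul_mulVec, Pi.smul_apply, h.gr_mulVec, gl_mulVec_inv, hP]
    exact h2 _ (hb i) _ (hT g hg _ (hb j))

theorem OQ.sub_of_realisable [Fintype F] (h : OQ S Q) (hn : 2 ≤ Fintype.card ι)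
    {H N : Subgroup (GL ι F)} (hH : FixQ N Q) (hnrm : NrmS H N) (hN : spanA F N = ⊤)
    {F₀ : Subfield F} (hF : F₀ ≠ ⊤) (hR : RealisableOver F₀ (matrixSet N)) : Sub Q H := by
  have : Nonempty ι := Fintype.card_pos_iff.1 (by omega)
  obtain ⟨B, hB⟩ := realisableOver_iff.1 hR
  obtain ⟨ζ, hζ, hG⟩ := S.exists_gr hN (fun c hc => by rwa [h.hσ]) hB
    (S.st_eq_of_isom (h.le_isom hH) F₀)
  have hG' := hG
  simp only [h.gr_apply] at hG'
  refine sub_of_cols hF hζ (fun i => ?_) hG' fun g hg =>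
    mem_subfieldSubgroup_of_nrm hN hB (hnrm g hg)
  by_cases h2 : (2 : F) = 0
  swap
  · have := F₀.div_mem (hG' i i) (ofNat_mem F₀ 2)
    rwa [B_self, mul_left_comm, mul_div_cancel_left₀ _ h2] at this
  have hI := irr_of_spanA_eq_top hN
  obtain ⟨x, hx⟩ := (IsGalois.mem_range_algebraMap_iff_fixed (F := F₀)
    (ζ * Q (((B⁻¹ : GL ι F) : Matrix ι ι F) *ᵥ Pi.single i 1))).2 fun τ => by
    have hτ : ∀ c ∈ F₀, τ c = c := fun c hc => τ.commutes ⟨c, hc⟩
    have hτ' : ∀ c ∈ F₀, τ.symm c = c := fun c hc => τ.symm.commutes ⟨c, hc⟩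
    let Φ : (ι → F) → ι → F := fun v => ((B⁻¹ : GL ι F) : Matrix ι ι F) *ᵥ
      (((τ.symm : F →+* F) : F → F) ∘ ((B : Matrix ι ι F) *ᵥ v))
    have hadd : ∀ u v, Φ (u + v) = Φ u + Φ v := fun u v => by
      simp only [Φ]
      rw [← mulVec_add, mulVec_add (B : Matrix ι ι F)]
      exact congrArg _ (funext fun j => by simp)
    have hq : S.IsQ fun v => ζ⁻¹ * τ (ζ * Q (Φ v)) := by
      refine ⟨fun c v => ?_, fun u v => ?_⟩
      · have : Φ (c • v) = τ.symm c • Φ v := by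
          simp only [Φ]
          rw [← mulVec_smul, mulVec_smul (B : Matrix ι ι F)]
          exact congrArg _ (funext fun j => by simp)
        simp only [this, Q_smul, map_mul, map_pow, AlgEquiv.apply_symm_apply]
        ring
      · have e1 : τ (ζ * polar Q (Φ u) (Φ v)) = ζ * S.f u v := by
          conv_rhs => rw [← gl_inv_mulVec B u, ← gl_inv_mulVec B v]
          rw [← h.hf, S.f_gr, S.f_gr, ← gform_smul_mat, ← gform_smul_mat, gform_eq_sum,
            gform_eq_sum]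
          simp only [map_sum, map_mul, h.hσ, Matrix.smul_apply, smul_eq_mul]
          refine Finset.sum_congr rfl fun a _ => Finset.sum_congr rfl fun b _ => ?_
          rw [← map_mul τ ζ, hτ _ (hG a b)]
          simp
        rw [polar, hadd, Q_add, mul_add, mul_add, map_add, map_add, e1]
        field_simp
        ring
    have := SF.IsQ.unique h2 hI (nrmS_self N) (exists_ne_one_of_irr' hI hn) (h.le_isom hH) hq h.isQ
      (fun g hg v => by
        have e1 : Φ ((g : Matrix ι ι F) *ᵥ v) = (g : Matrix ι ι F) *ᵥ Φ v := by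
          have e2 : (cj B (g : Matrix ι ι F)).map (τ.symm : F →+* F) = cj B (g : Matrix ι ι F) := by
            ext a b
            exact hτ' _ (hB g hg a b)
          simp only [Φ]
          rw [← cj_mulVec, comp_mulVec, e2, ← cj_mulVec, cj_inv_cj]
        simp only [e1, hH g hg]) hH
    have h3 := congrFun this (((B⁻¹ : GL ι F) : Matrix ι ι F) *ᵥ Pi.single i 1)
    simp only [Φ, gl_mulVec_inv, comp_single] at h3
    exact (inv_mul_eq_iff_eq_mul₀ hζ).1 h3
  rw [← hx]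
  exact x.2

theorem rational_polar {F₀ : Subfield F} {ζ : F} {P : GL ι F}
    (hr : IsQuadFormRationalStructure (fun v => ζ * Q v) F₀ P) {u v : ι → F} (hu : ∀ i, u i ∈ F₀)
    (hv : ∀ i, v i ∈ F₀) :
    ζ * polar Q ((P : Matrix ι ι F) *ᵥ u) ((P : Matrix ι ι F) *ᵥ v) ∈ F₀ := by
  rw [polar, ← mulVec_add, mul_sub, mul_sub]
  exact sub_mem (sub_mem (hr _ fun i => add_mem (hu i) (hv i)) (hr u hu)) (hr v hv)

theorem single_mem (F₀ : Subfield F) (i j : ι) : (Pi.single i 1 : ι → F) j ∈ F₀ := by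
  rw [Pi.single_apply]
  split_ifs
  exacts [one_mem _, zero_mem _]

theorem OQ.gr_eq (h : OQ S Q) (P : GL ι F) :
    S.gr P = (P : Matrix ι ι F)ᵀ * (S.G : Matrix ι ι F) * (P : Matrix ι ι F) := by
  apply gform_inj (σ := S.σ)
  intro u v
  rw [← S.f_gr, SF.f, gform_mulVec, h.hσ']
  rfl

theorem OQ.det_G (h : OQ S Q) :
    (S.G : Matrix ι ι F).det = H66.gramDet Q (Pi.basisFun F ι) := by
  rw [H66.gramDet, ← S.gram, h.hf]
  congr 1
  ext i j
  simp [gramMatrix]

/-- In odd dimension the multiple can be removed. -/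
theorem OQ.sub_odd [Fintype F] (h : OQ S Q) (hn : Odd (Fintype.card ι))
    (hd : ∀ F₀ : Subfield F, H66.gramDet Q (Pi.basisFun F ι) ∈ F₀) {H : Subgroup (GL ι F)}
    (hs : Sub Q H) : ∃ (F₀ : Subfield F) (r : ℕ) (P : GL ι F), r.Prime ∧
      Fintype.card F = Nat.card F₀ ^ r ∧ IsQuadFormRationalStructure Q F₀ P ∧
      H ≤ subfieldSubgroup F₀ P := by
  obtain ⟨F₀, r, P, ζ, hr, hc, hζ, hq, hle⟩ := hs
  obtain ⟨m, hm⟩ := hn
  have : Nonempty ι := Fintype.card_pos_iff.1 (by omega)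
  have h1 : (ζ • S.gr P).det ∈ F₀ := det_mem fun i j => by
    rw [Matrix.smul_apply, h.gr_apply]
    exact rational_polar hq (single_mem F₀ i) (single_mem F₀ j)
  rw [det_smul, h.gr_eq, det_mul, det_mul, det_transpose, h.det_G, hm] at h1
  have hd0 := H66.gramDet_ne_zero h.nd' (Pi.basisFun F ι)
  have hP : (P : Matrix ι ι F).det ≠ 0 := ((isUnit_iff_isUnit_det _).1 P.isUnit).ne_zero
  have h2 := F₀.div_mem h1 (hd F₀)
  refine ⟨F₀, r, sc ι F (Units.mk0 _ (mul_ne_zero (pow_ne_zero (m + 1) hζ) hP)) * P, hr, hc,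
    fun u hu => ?_, by rwa [subfieldSubgroup_sc_mul]⟩
  rw [coe_sc_mul, smul_mulVec, Q_smul, Units.val_mk0]
  convert mul_mem h2 (hq u hu) using 1
  field_simp
  ring

theorem comp_single' (F₀ : Subfield F) (i : ι) :
    (fun j => ((Pi.single i 1 : ι → F₀) j : F)) = Pi.single i 1 := by
  ext j
  rw [Pi.single_apply, Pi.single_apply]
  split_ifs <;> rfl

open Polynomial in
theorem exists_root_of_index_two [Finite F] {F₀ : Subfield F} (h : finrank F₀ F = 2) (a b : F₀)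
    {c : F₀} (hc : c ≠ 0) : ∃ t : F, (a : F) + b * t + c * t ^ 2 = 0 := by
  let p : F₀[X] := C c * X ^ 2 + C b * X + C a
  have hp : p.natDegree = 2 := natDegree_quadratic hc
  suffices ∃ t : F, aeval t p = 0 by
    obtain ⟨t, ht⟩ := this
    refine ⟨t, ?_⟩
    simp only [p, map_add, map_mul, aeval_C, aeval_X, map_pow] at ht
    change (c : F) * t ^ 2 + b * t + a = 0 at ht
    linear_combination ht
  by_cases hr : ∃ x, IsRoot p x
  · obtain ⟨x, hx⟩ := hr
    exact ⟨algebraMap F₀ F x, by rw [aeval_algebraMap_apply, coe_aeval_eq_eval, hx, map_zero]⟩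
  · push Not at hr
    have : Fact (Irreducible p) :=
      ⟨irreducible_of_degree_le_three_of_not_isRoot (by rw [hp]; decide) hr⟩
    obtain ⟨φ⟩ := FiniteField.nonempty_algHom_of_finrank_dvd (F := F₀) (K := AdjoinRoot p) (L := F)
      (by rw [h, (AdjoinRoot.powerBasis this.out.ne_zero).finrank, AdjoinRoot.powerBasis_dim, hp])
    exact ⟨φ (AdjoinRoot.root p), by rw [aeval_algHom_apply, AdjoinRoot.aeval_eq,
      AdjoinRoot.mk_self, map_zero]⟩

/-- A form defined over a subfield of index two is of plus type. -/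
theorem OQ.plus_of_index_two [Fintype F] (h : OQ S Q) {m : ℕ} (hm : Fintype.card ι = 2 * m)
    {F₀ : Subfield F} (hc : Fintype.card F = Nat.card F₀ ^ 2) {ζ : F} (hζ : ζ ≠ 0) {P : GL ι F}
    (hq : IsQuadFormRationalStructure (fun v => ζ * Q v) F₀ P) : Plus Q ⊤ := by
  let L : (ι → F₀) → ι → F := fun u => (P : Matrix ι ι F) *ᵥ fun i => (u i : F)
  have hadd : ∀ u v, L (u + v) = L u + L v := fun u v => by
    simp only [L]; rw [← mulVec_add]; rfl
  have hsmul : ∀ (c : F₀) u, L (c • u) = (c : F) • L u := fun c u => by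
    simp only [L]; rw [← mulVec_smul]; rfl
  let q₀ : (ι → F₀) → F₀ := fun u => ⟨ζ * Q (L u), hq _ fun i => (u i).2⟩
  have hp : ∀ u v, ((polar q₀ u v : F₀) : F) = ζ * polar Q (L u) (L v) := fun u v => by
    simp only [polar, q₀, hadd, Subfield.coe_sub]
    ring
  let Q₀ : QuadraticForm F₀ (ι → F₀) := QuadraticMap.ofPolar q₀
    (fun c u => Subtype.ext (by
      simp only [q₀, hsmul, Q_smul, smul_eq_mul, Subfield.coe_mul]; ring))
    (fun u v w => Subtype.ext (by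
      rw [Subfield.coe_add, hp, hp, hp, hadd, polar_add_left, mul_add]))
    (fun c u v => Subtype.ext (by
      rw [smul_eq_mul, Subfield.coe_mul, hp, hp, hsmul, B_smul_left]; ring))
  have hQ : ∀ u, ((Q₀ u : F₀) : F) = (ζ • Q) (L u) := fun _ => rfl
  have hB : ∀ u v, ((polar Q₀ u v : F₀) : F) = polar (ζ • Q) (L u) (L v) := fun u v => by
    rw [show polar (ζ • Q) (L u) (L v) = ζ * polar Q (L u) (L v) from polar_smul Q ζ _ _]
    exact hp u v
  have hnd : (polarBilin Q₀).Nondegenerate := by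
    refine nondeg_iff.1 fun u hu => ?_
    have h1 : L u = 0 := h.nd _ fun w => by
      rw [← gl_mulVec_inv P w, mulVec_eq_sum_col, B_sum_right]
      refine Finset.sum_eq_zero fun i _ => ?_
      have := hp u (Pi.single i 1)
      rw [show polar q₀ u (Pi.single i 1) = 0 from hu _, Subfield.coe_zero] at this
      have e : L (Pi.single i 1) = (P : Matrix ι ι F) *ᵥ Pi.single i 1 := by
        simp only [L]
        congr 1
        exact comp_single' F₀ i
      rw [B_smul_right, ← e, (mul_eq_zero.1 this.symm).resolve_left hζ, mul_zero]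
    have h2 := gl_inv_mulVec P fun i => (u i : F)
    rw [show (P : Matrix ι ι F) *ᵥ (fun i => (u i : F)) = 0 from h1, mulVec_zero] at h2
    ext i
    exact (congrFun h2 i).symm
  obtain ⟨k, H₀, hH₀⟩ := H66.exists_hypFamily_anisotropic hnd
  let H₁ : H66.HypFamily (ζ • Q) k :=
    { e := fun i => L (H₀.e i)
      f := fun i => L (H₀.f i)
      qe := fun i => by rw [← hQ, H₀.qe]; rfl
      qf := fun i => by rw [← hQ, H₀.qf]; rfl
      ee := fun i j => by rw [← hB, H₀.ee]; rfl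
      ff := fun i j => by rw [← hB, H₀.ff]; rfl
      ef := fun i j => by rw [← hB, H₀.ef]; split_ifs <;> rfl }
  have h1 := H₀.finrank_perp
  have h2 := H66.finrank_le_two_of_anisotropic Q₀ _ hH₀
  have h3 : finrank F (Submodule.span F (Set.range H₁.e)) = k := by
    rw [finrank_span_eq_card H₁.linearIndependent_e, Fintype.card_fin]
  rw [finrank_V, hm] at h1
  suffices ∃ U : Submodule F (ι → F), (∀ u ∈ U, (ζ • Q) u = 0) ∧ finrank F U = m by
    obtain ⟨U, hU, hd⟩ := this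
    exact ⟨U, le_top, fun u hu => (mul_eq_zero.1 (hU u hu)).resolve_left hζ, by
      rw [finrank_top, finrank_V, hd, hm]⟩
  by_cases hk : k = m
  · refine ⟨_, fun u hu => H66.quad_eq_zero_of_mem_span ?_ ?_ hu, h3.trans hk⟩
    · rintro _ ⟨i, rfl⟩; exact H₁.qe i
    · rintro _ ⟨i, rfl⟩ _ ⟨j, rfl⟩; exact H₁.ee i j
  let b := finBasisOfFinrankEq F₀ H₀.perp (show _ = 2 by omega)
  have hg := H66.gramDet_ne_zero (H₀.perp_nd hnd) b
  obtain ⟨t, ht⟩ := exists_root_of_index_two (eq_finrank_of_card hc).symm (Q₀ (b 0))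
    (polar Q₀ (b 0) (b 1)) (c := Q₀ (b 1))
    fun h0 => b.ne_zero 1 (Subtype.ext (hH₀ _ (b 1).2 h0))
  have hb : ∀ j, L (b j) ∈ H₁.perp := fun j i =>
    ⟨by rw [← hB, ((b j).2 i).1]; rfl, by rw [← hB, ((b j).2 i).2]; rfl⟩
  have hx : L (b 0) + t • L (b 1) ∈ H₁.perp := add_mem (hb 0) (Submodule.smul_mem _ _ (hb 1))
  have hx0 : L (b 0) + t • L (b 1) ≠ 0 := fun h0 => hg (by
    have e1 := congrArg (polar (ζ • Q) (L (b 0))) h0
    have e2 := congrArg (polar (ζ • Q) (L (b 1))) h0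
    rw [polar_add_right, B_smul_right, polar_zero_right, ← hB, ← hB] at e1 e2
    rw [H66.gramDet, det_fin_two]
    apply Subtype.ext
    change ((polar Q₀ (b 0) (b 0) : F₀) : F) * (polar Q₀ (b 1) (b 1) : F₀) -
      ((polar Q₀ (b 0) (b 1) : F₀) : F) * (polar Q₀ (b 1) (b 0) : F₀) = 0
    linear_combination ((polar Q₀ (b 1) (b 1) : F₀) : F) * e1 -
      ((polar Q₀ (b 0) (b 1) : F₀) : F) * e2)
  refine ⟨Submodule.span F (Set.range H₁.e) ⊔ Submodule.span F {L (b 0) + t • L (b 1)},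
    fun u hu => ?_, by
      rw [Submodule.finrank_sup_span_singleton (H₁.notMem_span_e hx hx0), h3]; omega⟩
  have hxq : (ζ • Q) (L (b 0) + t • L (b 1)) = 0 := by
    rw [Q_add, Q_smul, B_smul_right, ← hQ, ← hQ, ← hB]
    linear_combination ht
  rw [← Submodule.span_union] at hu
  refine H66.quad_eq_zero_of_mem_span ?_ ?_ hu
  · rintro _ (⟨i, rfl⟩ | rfl)
    exacts [H₁.qe i, hxq]
  · rintro _ (⟨i, rfl⟩ | rfl) _ (⟨j, rfl⟩ | rfl)
    · exact H₁.ee i j
    · exact (hx i).1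
    · rw [polar_comm]; exact (hx j).1
    · rw [B_self, hxq, mul_zero]

theorem OQ.sub_minus [Fintype F] (h : OQ S Q) {m : ℕ} (hm : Fintype.card ι = 2 * m)
    (hp : ¬ Plus Q ⊤) {H : Subgroup (GL ι F)} (hs : Sub Q H) :
    ∃ (F₀ : Subfield F) (r : ℕ) (P : GL ι F) (ζ : F), r.Prime ∧ Odd r ∧
      Fintype.card F = Nat.card F₀ ^ r ∧ ζ ≠ 0 ∧
      IsQuadFormRationalStructure (fun v => ζ * Q v) F₀ P ∧ H ≤ subfieldSubgroup F₀ P := by
  obtain ⟨F₀, r, P, ζ, hr, hc, hζ, hq, hle⟩ := hs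
  refine ⟨F₀, r, P, ζ, hr, hr.eq_two_or_odd'.resolve_left ?_, hc, hζ, hq, hle⟩
  rintro rfl
  exact hp (h.plus_of_index_two hm hc hζ hq)

end H12.A
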