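import Mathlib
import Cfsg.Agent.Lib.Orth12.Asch3

/-!
Aschbacher classes for orthogonal groups, part 4: orthogonal decompositions.
-/

set_option autoImplicit false
set_option linter.unusedSectionVars false

namespace H12.A

open Matrix Cfsg Cfsg.Geo H10.Asch H28.AF Module QuadraticMap
open scoped MatrixGroups Kronecker

variable {ι : Type} [Fintype ι] [DecidableEq ι] {F : Type*} [Field F]
  {S : SF ι F} {Q : QuadraticForm F (ι → F)} {H : Subgroup (GL ι F)}

theorem iso_of_map (hH : FixQ H Q) {g : GL ι F} (hg : g ∈ H) {W U : Submodule F (ι → F)}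
    (h : W.map (Matrix.toLin' (g : Matrix ι ι F)) = U) : AreIsometricFor Q W U := by
  subst h
  exact ⟨Submodule.equivMapOfInjective _ (fun u v huv => by
    rw [← gl_inv_mulVec g u, ← gl_inv_mulVec g v]
    exact congrArg _ huv) W, fun w => hH g hg w⟩

theorem OQ.dec_of_trans (h : OQ S Q) (hH : FixQ H Q) {t k : ℕ} {D : Fin t → Submodule F (ι → F)}
    (hD : IsNondegenerateMDecomposition S.f k D)
    (ht : ∀ i j, ∃ g ∈ H, (D i).map (Matrix.toLin' (g : Matrix ι ι F)) = D j) :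
    IsOrthogonalMDecomposition Q k D :=
  ⟨h.hf ▸ hD, fun i j => by obtain ⟨g, hg, e⟩ := ht i j; exact iso_of_map hH hg e⟩

theorem OQ.exists_proj (h : OQ S Q) {W : Submodule F (ι → F)} (hW : ND Q W) :
    ∃ e : Matrix ι ι F, e * e = e ∧ S.st e = e ∧ im e = W := by
  have hc := h.isCompl_perp hW
  let p := W.projection _ hc
  have hp : ∀ v, LinearMap.toMatrix' p *ᵥ v = p v := fun v => by
    rw [← toLin'_apply, toLin'_toMatrix']
  have h1 : ∀ u v, polar Q (p u) v = polar Q (p u) (p v) := fun u v => by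
    have : v - p v ∈ S.perp W := by
      rw [← Submodule.projection_apply_eq_zero_iff hc, map_sub,
        Submodule.projection_apply_of_mem_left hc (Submodule.projection_apply_mem hc v), sub_self]
    have := h.mem_perp.1 this _ (Submodule.projection_apply_mem hc u)
    rw [polar_sub_left, sub_eq_zero] at this
    rw [polar_comm, this, polar_comm]
  refine ⟨LinearMap.toMatrix' p, ext_mulVec fun v => ?_, (S.eq_st fun u v => ?_).symm, ?_⟩
  · rw [← mulVec_mulVec, hp, hp]
    exact Submodule.projection_apply_of_mem_left hc (Submodule.projection_apply_mem hc v)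
  · rw [h.hf, hp, hp, h1 u v, polar_comm _ u, h1 v u, polar_comm]
  · rw [im, toLin'_toMatrix', Submodule.range_projection]

/-- An invariant family of non-degenerate, pairwise orthogonal subspaces. -/
theorem OQ.dec_of_family [Finite F] (h : OQ S Q) (hH : FixQ H Q) (hI : Irr H)
    (𝓕 : Set (Submodule F (ι → F))) (hnd : ∀ W ∈ 𝓕, ND Q W)
    (horth : ∀ W ∈ 𝓕, ∀ U ∈ 𝓕, W = U ∨ Orth Q W U)
    (hinv : ∀ g ∈ H, ∀ W ∈ 𝓕, W.map (Matrix.toLin' (g : Matrix ι ι F)) ∈ 𝓕)
    {W₀ : Submodule F (ι → F)} (h₀ : W₀ ∈ 𝓕) (hb : W₀ ≠ ⊥) (ht : W₀ ≠ ⊤) :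
    ∃ (t k : ℕ) (D : Fin t → Submodule F (ι → F)), IsOrthogonalMDecomposition Q k D ∧
      H ≤ decompositionStabilizer D ∧ ∀ i, D i ∈ 𝓕 := by
  let T : Set (Matrix ι ι F) := {e | e * e = e ∧ S.st e = e ∧ (e = 0 ∨ im e ∈ 𝓕)}
  have key : ∀ e ∈ T, ∀ f ∈ T, e * f = 0 ∨ e = f := by
    rintro e ⟨he, hes, rfl | he'⟩ f ⟨hf, hfs, rfl | hf'⟩
    · exact Or.inr rfl
    · exact Or.inl (zero_mul _)
    · exact Or.inl (mul_zero _)
    rcases horth _ he' _ hf' with h1 | h1
    · right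
      have h2 : e * f = f := ext_mulVec fun v => by
        rw [← mulVec_mulVec, ← mem_im_idem he, h1]; exact mulVec_mem_im f v
      have h3 : f * e = e := ext_mulVec fun v => by
        rw [← mulVec_mulVec, ← mem_im_idem hf, ← h1]; exact mulVec_mem_im e v
      have h4 := congrArg S.st h2
      rw [S.st_mul, hes, hfs, h3] at h4
      exact h4
    · left
      refine ext_mulVec fun v => S.ext_right fun u => ?_
      rw [← mulVec_mulVec, S.adj_right, hes, zero_mulVec, S.zero_right, h.hf]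
      exact h1 _ (mulVec_mem_im e u) _ (mulVec_mem_im f v)
  have h0T : (0 : Matrix ι ι F) ∈ T := ⟨mul_zero _, S.st_zero, Or.inl rfl⟩
  obtain ⟨e₀, he₀, hs₀, hi₀⟩ := h.exists_proj (hnd _ h₀)
  obtain ⟨t, k, D, hD, hle, htr, hT⟩ := S.decomp_of_idem hI T (fun e he => he.1) (fun e he => he.2.1)
    (fun e he f hf => by
      rcases key e he f hf with h1 | rfl
      · rcases key f hf e he with h2 | rfl
        · rw [h1, h2]
        · rfl
      · rfl)
    (fun e he f hf => by
      rcases key e he f hf with h1 | rfl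
      · rwa [h1]
      · rwa [he.1])
    (fun g hg e he => ⟨by rw [← map_mul, he.1], by rw [S.st_cj (h.le_isom hH hg), he.2.1],
      he.2.2.imp (fun h0 => by rw [h0, map_zero]) fun h1 => map_im g e ▸ hinv g hg _ h1⟩)
    (e₀ := e₀) ⟨he₀, hs₀, Or.inr (hi₀ ▸ h₀)⟩ (fun h0 => hb (by rw [← hi₀, im_eq_bot, h0]))
    (fun h1 => ht (by
      rw [← hi₀, h1, eq_top_iff]; exact fun v _ => mem_im.2 ⟨v, one_mulVec v⟩))
  refine ⟨t, k, D, h.dec_of_trans hH hD htr, hle, fun i => ?_⟩
  obtain ⟨e, he, hi⟩ := hT i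
  rw [hi]
  refine he.2.2.resolve_left fun h0 => ?_
  have := hD.decomp.finrank_eq i
  rw [hi, h0, im_eq_bot.2 rfl, finrank_bot] at this
  exact hD.decomp.pos.ne this

theorem nd_line {u : ι → F} (hu : polar Q u u ≠ 0) : ND Q (Submodule.span F {u}) :=
  nd_of fun w hw h0 => by
    obtain ⟨c, rfl⟩ := Submodule.mem_span_singleton.1 hw
    have := h0 u (Submodule.mem_span_singleton_self u)
    rw [B_smul_left] at this
    rw [(mul_eq_zero.1 this).resolve_right hu, zero_smul]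

theorem orth_span {A B : Set (ι → F)} (h : ∀ a ∈ A, ∀ b ∈ B, polar Q a b = 0) :
    Orth Q (Submodule.span F A) (Submodule.span F B) := fun u hu v hv => by
  have h1 : ∀ a ∈ A, polar Q a v = 0 := fun a ha =>
    (Submodule.span_le (p := LinearMap.ker (polarBilin Q a))).2 (h a ha) hv
  exact (Submodule.span_le (p := LinearMap.ker ((polarBilin Q).flip v))).2 h1 hu

theorem mem_of_stab {t : ℕ} {D : Fin t → Submodule F (ι → F)} (hle : H ≤ decompositionStabilizer D)
    {g : GL ι F} (hg : g ∈ H) (i : Fin t) : ∃ j, ∀ v ∈ D i, (g : Matrix ι ι F) *ᵥ v ∈ D j := by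
  obtain ⟨σ, hσ⟩ := hle hg
  exact ⟨σ i, fun v hv => hσ i ▸ Submodule.mem_map_of_mem hv⟩

/-- the vectors of norm `c` in the members of a decomposition -/
def vecs (Q : QuadraticForm F (ι → F)) {t : ℕ} (D : Fin t → Submodule F (ι → F)) (c : F) :
    Set (ι → F) := {v | (∃ i, v ∈ D i) ∧ Q v = c}

theorem vecs_inv (hH : FixQ H Q) {t : ℕ} {D : Fin t → Submodule F (ι → F)}
    (hle : H ≤ decompositionStabilizer D) (c : F) :
    ∀ g ∈ H, ∀ s ∈ vecs Q D c, (g : Matrix ι ι F) *ᵥ s ∈ vecs Q D c := by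
  rintro g hg s ⟨⟨i, hi⟩, hs⟩
  obtain ⟨j, hj⟩ := mem_of_stab hle hg i
  exact ⟨⟨j, hj s hi⟩, by rw [hH g hg, hs]⟩

theorem vecs_pair {t k : ℕ} {D : Fin t → Submodule F (ι → F)}
    (hD : IsOrthogonalMDecomposition Q k D) {c : F} {p : (ι → F) → (ι → F) → Prop}
    (h0 : ∀ u v, polar Q u v = 0 → p u v)
    (h1 : ∀ i, ∀ u ∈ D i, ∀ v ∈ D i, Q u = c → Q v = c → p u v) :
    ∀ u ∈ vecs Q D c, ∀ v ∈ vecs Q D c, p u v := by
  rintro u ⟨⟨i, hi⟩, hu⟩ v ⟨⟨j, hj⟩, hv⟩
  by_cases hij : i = j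
  · subst hij; exact h1 i u hi v hj hu hv
  · exact h0 u v (hD.decomp.orthogonal i j hij u hi v hj)

theorem two_le_card {t k : ℕ} {D : Fin t → Submodule F (ι → F)} (hD : IsMDecomposition k D) :
    2 * k ≤ Fintype.card ι := IsMDecomposition.mul_eq_card hD ▸ Nat.mul_le_mul_right k hD.two_le

theorem ne_top_of_finrank {W : Submodule F (ι → F)} (h : finrank F W < Fintype.card ι) : W ≠ ⊤ := by
  rintro rfl
  rw [finrank_top, finrank_V] at h
  exact lt_irrefl _ h

theorem OQ.frame_of_dec [Finite F] (h : OQ S Q) (hH : FixQ H Q) (hI : Irr H) {t k : ℕ}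
    {D : Fin t → Submodule F (ι → F)} (hD : IsOrthogonalMDecomposition Q k D)
    (hle : H ≤ decompositionStabilizer D) (h2 : (2 : F) ≠ 0) {c : F} (hc : c ≠ 0) {s : ι → F}
    (hs : s ∈ vecs Q D c)
    (h1 : ∀ i, ∀ u ∈ D i, ∀ v ∈ D i, Q u = c → Q v = c → v = u ∨ v = -u ∨ polar Q u v = 0) :
    ∃ (t : ℕ) (D : Fin t → Submodule F (ι → F)), IsOrthogonalMDecomposition Q 1 D ∧
      H ≤ decompositionStabilizer D := by
  have hne : ∀ v ∈ vecs Q D c, v ≠ 0 := fun v hv => ne_zero_of_Q_ne (by rw [hv.2]; exact hc)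
  obtain ⟨t', k', D', hD', hle', hmem⟩ := h.dec_of_family hH hI
    {W | ∃ v ∈ vecs Q D c, W = Submodule.span F {v}}
    (by
      rintro _ ⟨v, hv, rfl⟩
      exact nd_line (by rw [B_self, hv.2]; exact mul_ne_zero h2 hc))
    (by
      rintro _ ⟨u, hu, rfl⟩ _ ⟨v, hv, rfl⟩
      rcases vecs_pair hD (p := fun u v => v = u ∨ v = -u ∨ polar Q u v = 0)
        (fun _ _ h0 => Or.inr (Or.inr h0)) h1 u hu v hv with rfl | rfl | h0
      · exact Or.inl rfl
      · exact Or.inl (by rw [← Set.neg_singleton, Submodule.span_neg])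
      · exact Or.inr (orth_span (by rintro _ rfl _ rfl; exact h0)))
    (by
      rintro g hg _ ⟨v, hv, rfl⟩
      exact ⟨_, vecs_inv hH hle c g hg v hv, by rw [Submodule.map_span, Set.image_singleton]; rfl⟩)
    ⟨s, hs, rfl⟩ (by rw [Ne, Submodule.span_singleton_eq_bot]; exact hne s hs)
    (ne_top_of_finrank (by
      have := two_le_card hD.decomp.decomp
      have := hD.decomp.decomp.pos
      have := finrank_span_one_le s
      omega))
  obtain ⟨v, hv, hi⟩ := hmem ⟨0, by have := hD'.decomp.decomp.two_le; omega⟩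
  have := hD'.decomp.decomp.finrank_eq ⟨0, by have := hD'.decomp.decomp.two_le; omega⟩
  rw [hi, finrank_span_singleton (hne v hv)] at this
  subst this
  exact ⟨t', D', hD', hle'⟩

theorem bot_ne_top [Fintype F] (h : ¬ (Fintype.card F).Prime) : (⊥ : Subfield F) ≠ ⊤ := by
  intro hb
  obtain ⟨p, hp⟩ := CharP.exists F
  have hp' : p.Prime := CharP.char_is_prime F p
  have := Fact.mk hp'
  have h1 := Subfield.card_bot F p
  rw [hb, Nat.card_congr Subfield.topEquiv.toEquiv, Nat.card_eq_fintype_card] at h1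
  exact h (h1 ▸ hp')

theorem OQ.frame_cases [Fintype F] (h : OQ S Q) (hH : FixQ H Q) (hI : Irr H) {t : ℕ}
    {D : Fin t → Submodule F (ι → F)} (hD : IsOrthogonalMDecomposition Q 1 D)
    (hle : H ≤ decompositionStabilizer D) : (Fintype.card F).Prime ∨ Sub Q H := by
  refine (em _).imp_right fun hp => ?_
  have hl : ∀ i, ∀ u ∈ D i, u ≠ 0 → ∀ v ∈ D i, ∃ a : F, a • u = v := fun i u hu h0 v hv => by
    obtain ⟨a, ha⟩ := (finrank_eq_one_iff_of_nonzero' (⟨u, hu⟩ : D i)
      fun h1 => h0 (congrArg Subtype.val h1)).1 (hD.decomp.decomp.finrank_eq i) ⟨v, hv⟩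
    exact ⟨a, congrArg Subtype.val ha⟩
  let i₀ : Fin t := ⟨0, by have := hD.decomp.decomp.two_le; omega⟩
  obtain ⟨s, hs⟩ := (ND.nondeg (hD.decomp.nondegenerate i₀)).exists_Q_ne
    ((finBasisOfFinrankEq F _ (hD.decomp.decomp.finrank_eq i₀)).ne_zero 0)
  change Q s ≠ 0 at hs
  refine h.sub_of_set hI (vecs_inv hH hle (Q s)) (s := s) ⟨⟨i₀, s.2⟩, rfl⟩ (ne_zero_of_Q_ne hs)
    (bot_ne_top hp) (inv_ne_zero hs) (fun u hu => by rw [hu.2, inv_mul_cancel₀ hs]; exact one_mem _)
    (vecs_pair hD (fun u v h0 => by rw [h0, mul_zero]; exact zero_mem _) fun i u hu v hv h1 h2 => ?_)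
  obtain ⟨a, rfl⟩ := hl i u hu (ne_zero_of_Q_ne (by rwa [h1])) v hv
  rw [Q_smul, h1, mul_eq_right₀ hs, sq_eq_one_iff] at h2
  rw [B_smul_right, B_self, h1, show (Q s)⁻¹ * (a * (2 * Q s)) = a * 2 by field_simp]
  refine mul_mem ?_ (ofNat_mem _ 2)
  rcases h2 with rfl | rfl
  exacts [one_mem _, neg_mem (one_mem _)]

section Plane

theorem exists_hyp_plane {W : Submodule F (ι → F)} (hW : ND Q W) (hd : finrank F W = 2)
    (hp : Plus Q W) : ∃ e f, IsHyp Q e f ∧ W = Submodule.span F {e, f} := by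
  obtain ⟨U, hU, hs, hUd⟩ := hp
  obtain ⟨e, he, he0⟩ := U.exists_mem_ne_zero_of_ne_bot (by
    rintro rfl; rw [finrank_bot] at hUd; omega)
  obtain ⟨w, hw, hew⟩ := (hW e (hU he) he0).2
  obtain ⟨a, b, -, hab⟩ := exists_hyp_of_B_ne (hs e he) hew
  refine ⟨e, _, hab, (Submodule.eq_of_le_of_finrank_eq (Submodule.span_le.2 ?_) ?_).symm⟩
  · rintro _ (rfl | rfl)
    exacts [hU he, add_mem (W.smul_mem _ hw) (W.smul_mem _ (hU he))]
  · have := finrank_span_eq_card hab.linInd
    rw [Matrix.range_cons_cons_empty] at this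
    rw [this, hd, Fintype.card_fin]

theorem plane_exists {W : Submodule F (ι → F)} (hW : ND Q W) (hd : finrank F W = 2)
    (hp : Plus Q W) : ∃ u ∈ W, Q u = 1 := by
  obtain ⟨e, f, h, rfl⟩ := exists_hyp_plane hW hd hp
  exact ⟨_, Submodule.mem_span_pair.2 ⟨1, 1, rfl⟩, by rw [h.Q_comb, mul_one]⟩

theorem plane_pair {W : Submodule F (ι → F)} (hW : ND Q W) (hd : finrank F W = 2)
    (hp : Plus Q W) {u v : ι → F} (hu : u ∈ W) (hv : v ∈ W) (h1 : Q u = 1) (h2 : Q v = 1) :
    ∃ t : F, t ≠ 0 ∧ polar Q u v = t + t⁻¹ ∧ (t = 1 → v = u) ∧ (t = -1 → v = -u) := by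
  obtain ⟨e, f, h, rfl⟩ := exists_hyp_plane hW hd hp
  obtain ⟨a, b, rfl⟩ := Submodule.mem_span_pair.1 hu
  obtain ⟨c, d, rfl⟩ := Submodule.mem_span_pair.1 hv
  rw [h.Q_comb] at h1 h2
  have ha : a ≠ 0 := left_ne_zero_of_mul_eq_one h1
  have hd : d ≠ 0 := right_ne_zero_of_mul_eq_one h2
  obtain rfl : b = a⁻¹ := eq_inv_of_mul_eq_one_right h1
  obtain rfl : c = d⁻¹ := eq_inv_of_mul_eq_one_left h2
  refine ⟨a * d, mul_ne_zero ha hd, ?_, fun ht => ?_, fun ht => ?_⟩
  · simp only [polar_add_left, polar_add_right, B_smul_left, B_smul_right, h.hee, h.hef, h.hfe,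
      h.hff]
    field_simp
    ring
  · obtain rfl : d = a⁻¹ := eq_inv_of_mul_eq_one_right ht
    rw [inv_inv]
  · obtain rfl : d = -a⁻¹ := by field_simp; linear_combination ht
    rw [inv_neg, inv_inv, neg_smul, neg_smul, neg_add]

theorem pow_card_sub_one [Fintype F] {q : ℕ} (hF : Fintype.card F = q + 1) {t : F} (ht : t ≠ 0) :
    t ^ q = 1 := by
  simpa [hF] using FiniteField.pow_card_sub_one_eq_one t ht

theorem plane_small [Fintype F] (hF : Fintype.card F ≤ 3) {W : Submodule F (ι → F)} (hW : ND Q W)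
    (hd : finrank F W = 2) (hp : Plus Q W) {u v : ι → F} (hu : u ∈ W) (hv : v ∈ W) (h1 : Q u = 1)
    (h2 : Q v = 1) : v = u ∨ v = -u := by
  obtain ⟨t, ht, -, h3, h4⟩ := plane_pair hW hd hp hu hv h1 h2
  have := Fintype.one_lt_card (α := F)
  by_cases hF' : Fintype.card F = 2
  · exact Or.inl (h3 (by simpa using pow_card_sub_one (q := 1) hF' ht))
  · exact (sq_eq_one_iff.1 (pow_card_sub_one (q := 2) (by omega) ht)).imp h3 h4

end Plane

section Three

variable [Fintype F] {V : Type*} [AddCommGroup V] [Module F V] [FiniteDimensional F V]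
  {q : QuadraticForm F V}

theorem three_eq_zero (hF : Fintype.card F = 3) : (3 : F) = 0 := by
  simpa [hF] using FiniteField.cast_card_eq_zero F

theorem two_ne_zero_of_three (hF : Fintype.card F = 3) : (2 : F) ≠ 0 :=
  two_ne_zero_of_odd (by rw [hF]; decide)

theorem three_core (hF : Fintype.card F = 3) (hq : Nondeg q) {c : F} (hc : c ≠ 0) {u v : V}
    (hu : q u = c) (hv : q v = c) : v = u ∨ v = -u ∨ polar q u v = 0 ∨
      ∃ b : Fin 3 → V, H66.gramDet q b = c := by
  have h3 := three_eq_zero hF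
  have key : ∀ v, q v = c → polar q u v = 2 * c → v = u ∨ ∃ b : Fin 3 → V, H66.gramDet q b = c := by
    intro v hv hb
    refine (em _).imp_right fun hne => ?_
    obtain ⟨x, hx⟩ := hq.exists_B_eq (sub_ne_zero.2 hne) 1
    have h1 : polar q u (v - u) = 0 := by rw [polar_sub_right, hb, B_self, hu, sub_self]
    have h2 : polar q (v - u) (v - u) = 0 := by
      rw [B_self, Q_sub, polar_comm, hb, hu, hv]; ring
    refine ⟨![u, v - u, x], ?_⟩
    rw [H66.gramDet, det_fin_three]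
    simp only [of_apply, cons_val_zero, cons_val_one, cons_val]
    rw [h1, h2, hx, polar_comm _ (v - u) u, h1, polar_comm _ x (v - u), hx, B_self, hu]
    linear_combination (-c) * h3
  by_cases h0 : polar q u v = 0
  · exact Or.inr (Or.inr (Or.inl h0))
  have h1 := pow_card_sub_one (q := 2) hF h0
  have h2 := pow_card_sub_one (q := 2) hF hc
  rcases sq_eq_sq_iff_eq_or_eq_neg.1 (show polar q u v ^ 2 = (2 * c) ^ 2 by
    linear_combination h1 - 4 * h2 - h3) with h | h
  · exact (key v hv h).imp_right fun h => Or.inr (Or.inr h)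
  · rcases key (-v) (by rw [QuadraticMap.map_neg, hv]) (by rw [polar_neg_right, h, neg_neg])
      with h | h
    · exact Or.inr (Or.inl (neg_eq_iff_eq_neg.1 h))
    · exact Or.inr (Or.inr (Or.inr h))

theorem fr_two (hF : Fintype.card F = 3) (hq : Nondeg q) (hV : finrank F V = 2) {c : F}
    (hc : c ≠ 0) {u v : V} (hu : q u = c) (hv : q v = c) : v = u ∨ v = -u ∨ polar q u v = 0 := by
  rcases three_core hF hq hc hu hv with h | h | h | ⟨b, hb⟩
  exacts [Or.inl h, Or.inr (Or.inl h), Or.inr (Or.inr h), by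
    have := (linearIndependent_of_gramDet (hb ▸ hc)).fintype_card_le_finrank
    rw [hV, Fintype.card_fin] at this
    omega]

theorem fr_three (hF : Fintype.card F = 3) (hq : Nondeg q) (hV : finrank F V = 3) :
    ∃ c : F, c ≠ 0 ∧ ∀ u v : V, q u = c → q v = c → v = u ∨ v = -u ∨ polar q u v = 0 := by
  let b₀ := finBasisOfFinrankEq F V hV
  have hd := H66.gramDet_ne_zero (nondeg_iff.1 hq) b₀
  refine ⟨-H66.gramDet q b₀, neg_ne_zero.2 hd, fun u v hu hv => ?_⟩
  rcases three_core hF hq (neg_ne_zero.2 hd) hu hv with h | h | h | ⟨b, hb⟩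
  exacts [Or.inl h, Or.inr (Or.inl h), Or.inr (Or.inr h), by
    obtain ⟨b, rfl⟩ := exists_basis_of_gramDet (hb ▸ neg_ne_zero.2 hd) (by rw [hV, Fintype.card_fin])
    obtain ⟨t, ht, h⟩ := H66.gramDet_eq q b₀ b
    rw [pow_card_sub_one (q := 2) hF ht, hb] at h
    exact absurd (show 2 * H66.gramDet q b₀ = 0 by linear_combination -h)
      (mul_ne_zero (two_ne_zero_of_three hF) hd)]

end Three

theorem OQ.frame_of_three [Fintype F] (h : OQ S Q) (hH : FixQ H Q) (hI : Irr H) {t k : ℕ}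
    {D : Fin t → Submodule F (ι → F)} (hD : IsOrthogonalMDecomposition Q k D)
    (hle : H ≤ decompositionStabilizer D) (hF : Fintype.card F = 3) (hk : k = 2 ∨ k = 3) :
    ∃ (t : ℕ) (D : Fin t → Submodule F (ι → F)), IsOrthogonalMDecomposition Q 1 D ∧
      H ≤ decompositionStabilizer D := by
  let i₀ : Fin t := ⟨0, by have := hD.decomp.decomp.two_le; omega⟩
  have hn := ND.nondeg (hD.decomp.nondegenerate i₀)
  have hd := hD.decomp.decomp.finrank_eq i₀
  obtain ⟨c, hc, hcc⟩ : ∃ c : F, c ≠ 0 ∧ ∀ u v : D i₀, Q.restrict _ u = c → Q.restrict _ v = c →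
      v = u ∨ v = -u ∨ polar (Q.restrict _) u v = 0 := by
    rcases hk with rfl | rfl
    · exact ⟨1, one_ne_zero, fun u v => fr_two hF hn hd one_ne_zero⟩
    · exact fr_three hF hn hd
  obtain ⟨s, hs⟩ := hn.universal (by omega) c
  refine h.frame_of_dec hH hI hD hle (two_ne_zero_of_three hF) hc (s := s) ⟨⟨i₀, s.2⟩, hs⟩
    fun i u hu v hv h1 h2 => ?_
  obtain ⟨e, he⟩ := hD.isometric i i₀
  rcases hcc (e ⟨u, hu⟩) (e ⟨v, hv⟩) ((he _).trans h1) ((he _).trans h2) with h3 | h3 | h3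
  · exact Or.inl (congrArg Subtype.val (e.injective h3))
  · rw [← map_neg] at h3
    exact Or.inr (Or.inl (congrArg Subtype.val (e.injective h3)))
  · exact Or.inr (Or.inr ((polar_congr (Q := Q.restrict _) (Q' := Q.restrict _) e.toLinearMap he
      ⟨u, hu⟩ ⟨v, hv⟩).symm.trans h3))

theorem card_ne_six [Fintype F] : Fintype.card F ≠ 6 := by
  intro h
  obtain ⟨p, hp⟩ := CharP.exists F
  obtain ⟨n, hp', hn⟩ := FiniteField.card F p
  rw [h] at hn
  have h2 := (Nat.prime_dvd_prime_iff_eq Nat.prime_two hp').1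
    (Nat.prime_two.dvd_of_dvd_pow (hn ▸ (by decide : 2 ∣ 6)))
  have h3 := (Nat.prime_dvd_prime_iff_eq Nat.prime_three hp').1
    (Nat.prime_three.dvd_of_dvd_pow (hn ▸ (by decide : 3 ∣ 6)))
  omega

theorem two_eq_zero_of_even [Fintype F] (h : ¬ Odd (Fintype.card F)) : (2 : F) = 0 := by
  by_contra h2
  exact h (two_ne_zero_iff_odd_card.1 h2)

theorem OQ.plus_planes [Fintype F] (h : OQ S Q) (hH : FixQ H Q) (hI : Irr H) {t : ℕ}
    {D : Fin t → Submodule F (ι → F)} (hD : IsOrthogonalMDecomposition Q 2 D)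
    (hle : H ≤ decompositionStabilizer D) (hp : ∀ i, Plus Q (D i)) (hF : Fintype.card F ≠ 3) :
    7 ≤ Fintype.card F ∨ Sub Q H ∨ ∃ (t : ℕ) (D : Fin t → Submodule F (ι → F)),
      IsOrthogonalMDecomposition Q 1 D ∧ H ≤ decompositionStabilizer D := by
  let i₀ : Fin t := ⟨0, by have := hD.decomp.decomp.two_le; omega⟩
  have hn := hD.decomp.nondegenerate
  have hd := hD.decomp.decomp.finrank_eq
  obtain ⟨s, hs, hs1⟩ := plane_exists (hn i₀) (hd i₀) (hp i₀)
  have hs' : s ∈ vecs Q D 1 := ⟨⟨i₀, hs⟩, hs1⟩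
  have hs0 : s ≠ 0 := ne_zero_of_Q_ne (by rw [hs1]; exact one_ne_zero)
  have h1 := Fintype.one_lt_card (α := F)
  have h6 := card_ne_six (F := F)
  rcases (by omega : 7 ≤ Fintype.card F ∨ Fintype.card F = 2 ∨ Fintype.card F = 4 ∨
    Fintype.card F = 5) with h7 | h2 | h4 | h5
  · exact Or.inl h7
  · refine absurd (h.nd s fun w => ?_) hs0
    have h3 := orth_span (vecs_pair hD (p := fun u v => polar Q u v = 0) (fun _ _ h0 => h0)
      fun i u hu v hv h1 h1' => by
        have h20 : (2 : F) = 0 := two_eq_zero_of_even (by rw [h2]; decide)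
        rcases plane_small (by omega) (hn i) (hd i) (hp i) hu hv h1 h1' with rfl | rfl
        · rw [B_self, h20, zero_mul]
        · rw [polar_neg_right, B_self, h20, zero_mul, neg_zero])
    rw [span_eq_top hI (vecs_inv hH hle 1) hs' hs0] at h3
    exact h3 s trivial w trivial
  · refine Or.inr (Or.inl (h.sub_of_set hI (vecs_inv hH hle 1) hs' hs0
      (bot_ne_top (by rw [h4]; decide)) one_ne_zero
      (fun u hu => by rw [hu.2, mul_one]; exact one_mem _)
      (vecs_pair hD (fun u v h0 => by rw [h0, mul_zero]; exact zero_mem _)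
        fun i u hu v hv h1 h1' => ?_)))
    obtain ⟨x, hx, hb, -⟩ := plane_pair (hn i) (hd i) (hp i) hu hv h1 h1'
    have h3 := pow_card_sub_one (q := 3) h4 hx
    rw [hb, one_mul]
    by_cases hx1 : x = 1
    · rw [hx1, inv_one]; exact add_mem (one_mem _) (one_mem _)
    · rw [show x + x⁻¹ = -1 by
        field_simp
        apply mul_left_cancel₀ (sub_ne_zero.2 hx1)
        linear_combination h3]
      exact neg_mem (one_mem _)
  · refine Or.inr (Or.inr (h.frame_of_dec hH hI hD hle (two_ne_zero_of_odd (by rw [h5]; decide))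
      one_ne_zero hs' fun i u hu v hv h1 h1' => ?_))
    obtain ⟨x, hx, hb, h3, h4⟩ := plane_pair (hn i) (hd i) (hp i) hu hv h1 h1'
    have h6 := pow_card_sub_one (q := 4) h5 hx
    rcases sq_eq_one_iff.1 (show (x ^ 2) ^ 2 = 1 by rw [← pow_mul]; exact h6) with h7 | h7
    · rcases sq_eq_one_iff.1 h7 with h8 | h8
      exacts [Or.inl (h3 h8), Or.inr (Or.inl (h4 h8))]
    · refine Or.inr (Or.inr ?_)
      rw [hb]
      field_simp
      linear_combination h7

section Four

set_option synthInstance.maxSize 4096 in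
set_option synthInstance.maxHeartbeats 400000 in
theorem zmod_two_four : ∀ a b c d e f g h i j k l : ZMod 2, a * c + b * d = 1 → e * g + f * h = 1 →
    i * k + j * l = 1 → a * g + c * e + (b * h + d * f) = 1 →
    (i = a ∧ j = b ∧ k = c ∧ l = d) ∨ (i = e ∧ j = f ∧ k = g ∧ l = h) ∨
    (i = a + e ∧ j = b + f ∧ k = c + g ∧ l = d + h) ∨
    (a * k + c * i + (b * l + d * j) = 0 ∧ e * k + g * i + (f * l + h * j) = 0) := by
  decide +kernel

theorem field_two_four [Fintype F] (hF : Fintype.card F = 2) (a b c d e f g h i j k l : F) :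
    a * c + b * d = 1 → e * g + f * h = 1 →
    i * k + j * l = 1 → a * g + c * e + (b * h + d * f) = 1 →
    (i = a ∧ j = b ∧ k = c ∧ l = d) ∨ (i = e ∧ j = f ∧ k = g ∧ l = h) ∨
    (i = a + e ∧ j = b + f ∧ k = c + g ∧ l = d + h) ∨
    (a * k + c * i + (b * l + d * j) = 0 ∧ e * k + g * i + (f * l + h * j) = 0) := by
  let φ := (ZMod.ringEquivOfPrime F Nat.prime_two hF).symm
  have := zmod_two_four (φ a) (φ b) (φ c) (φ d) (φ e) (φ f) (φ g) (φ h) (φ i) (φ j) (φ k) (φ l)
  simpa only [← map_mul, ← map_add, φ.injective.eq_iff, map_eq_one_iff φ φ.injective,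
    map_eq_zero] using this

theorem four_plus [Fintype F] (hF : Fintype.card F = 2) {W : Submodule F (ι → F)} (hW : ND Q W)
    (hd : finrank F W = 4) (hp : Plus Q W) :
    (∃ u ∈ W, ∃ v ∈ W, Q u = 1 ∧ Q v = 1 ∧ polar Q u v = 1) ∧
    ∀ u ∈ W, ∀ v ∈ W, ∀ w ∈ W, Q u = 1 → Q v = 1 → Q w = 1 → polar Q u v = 1 →
      w ∈ Submodule.span F {u, v} ∨ (polar Q u w = 0 ∧ polar Q v w = 0) := by
  obtain ⟨Φ, hΦ⟩ := (plus_iff.1 hp).exists_equiv hW.restrict (m := 2) hd
  have hQ : ∀ x, Q (Φ x) = x (.inl 0) * x (.inr 0) + x (.inl 1) * x (.inr 1) := fun x => by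
    rw [← Fin.sum_univ_two (fun i => x (.inl i) * x (.inr i))]; exact hΦ x
  have hB : ∀ x y, polar Q (Φ x : ι → F) (Φ y) =
      x (.inl 0) * y (.inr 0) + x (.inr 0) * y (.inl 0) +
        (x (.inl 1) * y (.inr 1) + x (.inr 1) * y (.inl 1)) := fun x y => by
    rw [polar, ← Submodule.coe_add, ← map_add, hQ, hQ, hQ]
    simp only [Pi.add_apply]
    ring
  have h2 : (2 : F) = 0 := two_eq_zero_of_even (by rw [hF]; decide)
  constructor
  · refine ⟨_, (Φ (Sum.elim ![1, 0] ![1, 0])).2, _, (Φ (Sum.elim ![1, 1] ![0, 1])).2, ?_, ?_, ?_⟩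
    · rw [hQ]; simp
    · rw [hQ]; simp
    · rw [hB]; simp
  · intro u hu v hv w hw h1 h3 h4 h5
    obtain ⟨x, hx⟩ := Φ.surjective ⟨u, hu⟩
    obtain ⟨y, hy⟩ := Φ.surjective ⟨v, hv⟩
    obtain ⟨z, hz⟩ := Φ.surjective ⟨w, hw⟩
    obtain rfl : (Φ x : ι → F) = u := congrArg Subtype.val hx
    obtain rfl : (Φ y : ι → F) = v := congrArg Subtype.val hy
    obtain rfl : (Φ z : ι → F) = w := congrArg Subtype.val hz
    rw [hQ] at h1 h3 h4
    rw [hB] at h5
    rw [hB, hB]
    have ext4 : ∀ x y : Fin 2 ⊕ Fin 2 → F, (x (.inl 0) = y (.inl 0) ∧ x (.inl 1) = y (.inl 1) ∧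
        x (.inr 0) = y (.inr 0) ∧ x (.inr 1) = y (.inr 1)) → x = y := fun x y h => by
      ext (i | i) <;> fin_cases i
      exacts [h.1, h.2.1, h.2.2.1, h.2.2.2]
    rcases field_two_four hF _ _ _ _ _ _ _ _ _ _ _ _ h1 h3 h4 h5 with h | h | h | h
    · rw [ext4 z x h]; exact Or.inl (Submodule.subset_span (by simp))
    · rw [ext4 z y h]; exact Or.inl (Submodule.subset_span (by simp))
    · rw [ext4 z (x + y) h, map_add]
      exact Or.inl (add_mem (Submodule.subset_span (by simp)) (Submodule.subset_span (by simp)))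
    · exact Or.inr h

theorem aniso_plane [Fintype F] (hF : Fintype.card F = 2) {u v : ι → F} (hu : Q u = 1)
    (hv : Q v = 1) (huv : polar Q u v = 1) : ND Q (Submodule.span F {u, v}) ∧
      finrank F (Submodule.span F {u, v}) = 2 ∧ ¬ Plus Q (Submodule.span F {u, v}) := by
  have h2 : (2 : F) = 0 := two_eq_zero_of_even (by rw [hF]; decide)
  have hd : finrank F (Submodule.span F {u, v}) = 2 := by
    have := finrank_span_eq_card (linearIndependent_of_gramDet (q := Q) (v := ![u, v]) (by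
      rw [H66.gramDet, det_fin_two]
      simp only [of_apply, cons_val_zero, cons_val_one]
      rw [B_self, h2, polar_comm _ v u, huv]
      simp))
    rw [Matrix.range_cons_cons_empty] at this
    rw [this, Fintype.card_fin]
  refine ⟨nd_of fun w hw h0 => ?_, hd, ?_⟩
  · obtain ⟨a, b, rfl⟩ := Submodule.mem_span_pair.1 hw
    have e1 := h0 u (Submodule.subset_span (by simp))
    have e2 := h0 v (Submodule.subset_span (by simp))
    rw [polar_add_left, B_smul_left, B_smul_left, B_self, h2] at e1 e2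
    rw [polar_comm _ v u, huv] at e1
    rw [huv] at e2
    simp only [zero_mul, mul_zero, mul_one, zero_add, add_zero] at e1 e2
    rw [e1, e2, zero_smul, zero_smul, add_zero]
  · rintro ⟨U, hU, hs, hUd⟩
    obtain ⟨w, hw, hw0⟩ := U.exists_mem_ne_zero_of_ne_bot (by
      rintro rfl; rw [finrank_bot] at hUd; omega)
    obtain ⟨a, b, rfl⟩ := Submodule.mem_span_pair.1 (hU hw)
    have e1 := hs _ hw
    rw [Q_add, Q_smul, Q_smul, B_smul_left, B_smul_right, hu, hv, huv] at e1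
    have h01 : ∀ a : F, a = 0 ∨ a = 1 := fun a => (em _).imp_right fun h => by
      simpa using pow_card_sub_one (q := 1) hF h
    rcases h01 a with rfl | rfl <;> rcases h01 b with rfl | rfl
    · simp at hw0
    · simp at e1
    · simp at e1
    · exact one_ne_zero (show (1 : F) = 0 by linear_combination e1 - h2)

theorem OQ.planes_of_four [Fintype F] (h : OQ S Q) (hH : FixQ H Q) (hI : Irr H) {t : ℕ}
    {D : Fin t → Submodule F (ι → F)} (hD : IsOrthogonalMDecomposition Q 4 D)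
    (hle : H ≤ decompositionStabilizer D) (hp : ∀ i, Plus Q (D i)) (hF : Fintype.card F = 2) :
    ∃ (t : ℕ) (D : Fin t → Submodule F (ι → F)), IsOrthogonalMDecomposition Q 2 D ∧
      H ≤ decompositionStabilizer D ∧ ∀ i, ¬ Plus Q (D i) := by
  let i₀ : Fin t := ⟨0, by have := hD.decomp.decomp.two_le; omega⟩
  have h4 := fun i => four_plus hF (hD.decomp.nondegenerate i) (hD.decomp.decomp.finrank_eq i) (hp i)
  obtain ⟨u₀, hu₀, v₀, hv₀, h1, h2, h3⟩ := (h4 i₀).1
  obtain ⟨t', k', D', hD', hle', hmem⟩ := h.dec_of_family hH hI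
    {W | ∃ i, ∃ u ∈ D i, ∃ v ∈ D i, Q u = 1 ∧ Q v = 1 ∧ polar Q u v = 1 ∧
      W = Submodule.span F {u, v}}
    (by
      rintro _ ⟨i, u, -, v, -, h1, h2, h3, rfl⟩
      exact (aniso_plane hF h1 h2 h3).1)
    (by
      rintro _ ⟨i, u, hu, v, hv, h1, h2, h3, rfl⟩ _ ⟨j, u', hu', v', hv', h1', h2', h3', rfl⟩
      by_cases hij : i = j
      swap
      · refine Or.inr (orth_span ?_)
        rintro _ (rfl | rfl) _ (rfl | rfl) <;> exact hD.decomp.orthogonal i j hij _ ‹_› _ ‹_›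
      subst hij
      have e : ∀ w, polar Q u w = 0 ∧ polar Q v w = 0 → ∀ x ∈ Submodule.span F {u, v},
          polar Q x w = 0 := fun w hw x hx => orth_span (B := {w}) (by
        rintro _ (rfl | rfl) _ rfl
        exacts [hw.1, hw.2]) x hx w (Submodule.mem_span_singleton_self w)
      rcases (h4 i).2 u hu v hv u' hu' h1 h2 h1' h3 with e1 | e1 <;>
        rcases (h4 i).2 u hu v hv v' hv' h1 h2 h2' h3 with e2 | e2
      · refine Or.inl (Submodule.eq_of_le_of_finrank_eq (Submodule.span_le.2 ?_) ?_).symm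
        · rintro _ (rfl | rfl)
          exacts [e1, e2]
        · rw [(aniso_plane hF h1 h2 h3).2.1, (aniso_plane hF h1' h2' h3').2.1]
      · exact absurd (h3'.symm.trans (e _ e2 _ e1)) one_ne_zero
      · rw [polar_comm] at h3'
        exact absurd (h3'.symm.trans (e _ e1 _ e2)) one_ne_zero
      · refine Or.inr (orth_span ?_)
        rintro _ (rfl | rfl) _ (rfl | rfl)
        exacts [e1.1, e2.1, e1.2, e2.2])
    (by
      rintro g hg _ ⟨i, u, hu, v, hv, h1, h2, h3, rfl⟩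
      obtain ⟨j, hj⟩ := mem_of_stab hle hg i
      exact ⟨j, _, hj u hu, _, hj v hv, by rw [hH g hg, h1], by rw [hH g hg, h2],
        by rw [B_mulVec hH hg, h3], by rw [Submodule.map_span, Set.image_pair]; rfl⟩)
    ⟨i₀, u₀, hu₀, v₀, hv₀, h1, h2, h3, rfl⟩
    (fun h0 => by
      have := (aniso_plane hF h1 h2 h3).2.1
      rw [h0, finrank_bot] at this
      omega)
    (ne_top_of_finrank (by
      have := two_le_card hD.decomp.decomp
      rw [(aniso_plane hF h1 h2 h3).2.1]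
      omega))
  have h5 : ∀ i, finrank F (D' i) = 2 ∧ ¬ Plus Q (D' i) := fun i => by
    obtain ⟨j, u, -, v, -, h1, h2, h3, e⟩ := hmem i
    exact e ▸ (aniso_plane hF h1 h2 h3).2
  have := hD'.decomp.decomp.finrank_eq ⟨0, by have := hD'.decomp.decomp.two_le; omega⟩
  rw [(h5 _).1] at this
  subst this
  exact ⟨t', D', hD', hle', fun i => (h5 i).2⟩

end Four

/-- the decompositions that are listed -/
structure Dec [Fintype F] (Q : QuadraticForm F (ι → F)) (H : Subgroup (GL ι F)) {t : ℕ} (k : ℕ)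
    (D : Fin t → Submodule F (ι → F)) : Prop where
  dec : IsOrthogonalMDecomposition Q k D
  le : H ≤ decompositionStabilizer D
  one : k = 1 → (Fintype.card F).Prime
  two : k = 2 → Fintype.card F ≠ 3 ∧ ((∀ i, Plus Q (D i)) → 7 ≤ Fintype.card F)
  three : k = 3 → 5 ≤ Fintype.card F
  four : k = 4 → (∀ i, Plus Q (D i)) → 3 ≤ Fintype.card F

theorem Dec.two_ne [Fintype F] {t k : ℕ} {D : Fin t → Submodule F (ι → F)}
    (hD : IsOrthogonalMDecomposition Q k D) (hk : Odd k) : (2 : F) ≠ 0 :=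
  two_ne_zero_of_odd_nd (hD.decomp.nondegenerate ⟨0, by have := hD.decomp.decomp.two_le; omega⟩)
    (by rwa [hD.decomp.decomp.finrank_eq])

theorem OQ.dec_cases [Fintype F] (h : OQ S Q) (hH : FixQ H Q) (hI : Irr H) {t k : ℕ}
    {D : Fin t → Submodule F (ι → F)} (hD : IsOrthogonalMDecomposition Q k D)
    (hle : H ≤ decompositionStabilizer D) :
    Sub Q H ∨ ∃ (t k : ℕ) (D : Fin t → Submodule F (ι → F)), Dec Q H k D := by
  have hfr : (∃ (t : ℕ) (D : Fin t → Submodule F (ι → F)), IsOrthogonalMDecomposition Q 1 D ∧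
      H ≤ decompositionStabilizer D) →
      Sub Q H ∨ ∃ (t k : ℕ) (D : Fin t → Submodule F (ι → F)), Dec Q H k D := by
    rintro ⟨t, D, hD, hle⟩
    exact (h.frame_cases hH hI hD hle).symm.imp_right fun hp =>
      ⟨t, 1, D, hD, hle, fun _ => hp, by simp, by simp, by simp⟩
  have h1 := Fintype.one_lt_card (α := F)
  by_cases hk1 : k = 1
  · subst hk1; exact hfr ⟨t, D, hD, hle⟩
  by_cases hk : Fintype.card F = 3 ∧ (k = 2 ∨ k = 3)
  · exact hfr (h.frame_of_three hH hI hD hle hk.1 hk.2)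
  by_cases hk2 : k = 2
  · subst hk2
    have h3 : Fintype.card F ≠ 3 := fun h3 => hk ⟨h3, Or.inl rfl⟩
    by_cases hp : ∀ i, Plus Q (D i)
    · rcases h.plus_planes hH hI hD hle hp h3 with h7 | h7 | h7
      · exact Or.inr ⟨t, 2, D, hD, hle, by simp, fun _ => ⟨h3, fun _ => h7⟩, by simp, by simp⟩
      · exact Or.inl h7
      · exact hfr h7
    · exact Or.inr ⟨t, 2, D, hD, hle, by simp, fun _ => ⟨h3, fun h => absurd h hp⟩, by simp, by simp⟩
  by_cases hk4 : k = 4 ∧ (∀ i, Plus Q (D i)) ∧ Fintype.card F = 2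
  · obtain ⟨rfl, hp, h2⟩ := hk4
    obtain ⟨t, D, hD, hle, hp⟩ := h.planes_of_four hH hI hD hle hp h2
    exact Or.inr ⟨t, 2, D, hD, hle, by simp, fun _ => ⟨by omega, fun h =>
      absurd (h ⟨0, by have := hD.decomp.decomp.two_le; omega⟩) (hp _)⟩, by simp, by simp⟩
  refine Or.inr ⟨t, k, D, hD, hle, fun h => absurd h hk1, fun h => absurd h hk2, fun h3 => ?_,
    fun h4 hp => ?_⟩
  · have := two_ne_zero_iff_odd_card.1 (Dec.two_ne hD (h3 ▸ by decide))
    rw [Nat.odd_iff] at this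
    have : Fintype.card F ≠ 3 := fun h => hk ⟨h, Or.inr h3⟩
    omega
  · have : Fintype.card F ≠ 2 := fun h => hk4 ⟨h4, hp, h⟩
    omega

end H12.A
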