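import Mathlib
import Cfsg.Agent.Lib.Orth12.Asch4

/-!
Aschbacher classes for orthogonal groups, part 5: reducible groups and commutative algebras.
-/

set_option autoImplicit false
set_option linter.unusedSectionVars false

namespace H12.A

open Matrix Cfsg Cfsg.Geo H10.Asch H28.AF Module QuadraticMap
open scoped MatrixGroups Kronecker

variable {ι : Type} [Fintype ι] [DecidableEq ι] {F : Type*} [Field F]
  {S : SF ι F} {Q : QuadraticForm F (ι → F)} {H : Subgroup (GL ι F)}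

section Red

theorem inv_line {u : ι → F} (h : ∀ g ∈ H, ∃ c : F, c • u = (g : Matrix ι ι F) *ᵥ u) :
    Inv H (Submodule.span F {u}) := fun g hg v hv => by
  obtain ⟨a, rfl⟩ := Submodule.mem_span_singleton.1 hv
  rw [mulVec_smul]
  exact Submodule.smul_mem _ _ (Submodule.mem_span_singleton.2 (h g hg))

theorem OQ.red_cases [Fintype F] (h : OQ S Q) (hH : FixQ H Q) (hI : ¬ Irr H) :
    (∃ W, W ≠ ⊥ ∧ IsTotallySingularQuad Q W ∧ Inv H W) ∨
    ((2 : F) = 0 ∧ ∃ v, Q v ≠ 0 ∧ Inv H (Submodule.span F {v})) ∨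
    (∃ W, W ≠ ⊥ ∧ ND Q W ∧ Inv H W ∧ 2 * finrank F W ≤ Fintype.card ι ∧
      ¬ (Fintype.card F ≤ 3 ∧ finrank F W = 2 ∧ Plus Q W)) := by
  obtain ⟨W, h0, h1, hW, hmin, hc | hc⟩ := S.reducible (h.le_sim hH) hI
  · rw [h.hf] at hc
    by_cases h2 : (2 : F) = 0
    swap
    · exact Or.inl ⟨W, h0, fun w hw =>
        (mul_eq_zero.1 ((B_self Q w).symm.trans (hc w hw w hw))).resolve_left h2, hW⟩
    let Z : Submodule F (ι → F) :=
      { carrier := {w | w ∈ W ∧ Q w = 0}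
        add_mem' := fun {a b} ha hb => ⟨W.add_mem ha.1 hb.1, by
          rw [Q_add, ha.2, hb.2, hc a ha.1 b hb.1, add_zero, add_zero]⟩
        zero_mem' := ⟨W.zero_mem, map_zero Q⟩
        smul_mem' := fun c a ha => ⟨W.smul_mem c ha.1, by rw [Q_smul, ha.2, mul_zero]⟩ }
    rcases hmin Z (fun g hg v hv => ⟨hW g hg v hv.1, by rw [hH g hg, hv.2]⟩) (fun v hv => hv.1)
      with hZ | hZ
    · obtain ⟨v, hv, hv0⟩ := W.exists_mem_ne_zero_of_ne_bot h0
      rw [Submodule.eq_bot_iff] at hZ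
      have hq : Q v ≠ 0 := fun hq => hv0 (hZ v ⟨hv, hq⟩)
      refine Or.inr (Or.inl ⟨h2, v, hq, inv_line fun g hg => ⟨1, ?_⟩⟩)
      have := hZ _ ⟨W.sub_mem hv (hW g hg v hv), by
        rw [Q_sub, hH g hg, hc v hv _ (hW g hg v hv)]; linear_combination Q v * h2⟩
      rw [one_smul]
      exact sub_eq_zero.1 this
    · exact Or.inl ⟨W, h0, fun w hw => (hZ.ge hw).2, hW⟩
  · rw [h.hf] at hc
    obtain ⟨U, hU0, hU, hUI, hUd⟩ : ∃ U, U ≠ ⊥ ∧ ND Q U ∧ Inv H U ∧
        2 * finrank F U ≤ Fintype.card ι := by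
      have := S.finrank_perp_add W
      by_cases hd : 2 * finrank F W ≤ Fintype.card ι
      · exact ⟨W, h0, hc, hW, hd⟩
      · exact ⟨S.perp W, fun h2 => h1 (S.perp_eq_bot.1 h2), h.nd_perp hc,
          S.inv_perp (h.le_sim hH) hW, by omega⟩
    by_cases hp : Fintype.card F ≤ 3 ∧ finrank F U = 2 ∧ Plus Q U
    swap
    · exact Or.inr (Or.inr ⟨U, hU0, hU, hUI, hUd, hp⟩)
    obtain ⟨u, hu, hu1⟩ := plane_exists hU hp.2.1 hp.2.2
    have hu0 : Q u ≠ 0 := by rw [hu1]; exact one_ne_zero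
    have hl : Inv H (Submodule.span F {u}) := inv_line fun g hg => by
      rcases plane_small hp.1 hU hp.2.1 hp.2.2 hu (hUI g hg u hu) hu1 (by rw [hH g hg, hu1])
        with h3 | h3
      exacts [⟨1, by rw [h3, one_smul]⟩, ⟨-1, by rw [h3, neg_one_smul]⟩]
    by_cases h2 : (2 : F) = 0
    · exact Or.inr (Or.inl ⟨h2, u, hu0, hl⟩)
    · have := finrank_span_singleton (K := F) (ne_zero_of_Q_ne hu0)
      exact Or.inr (Or.inr ⟨_, by
        rw [Ne, Submodule.span_singleton_eq_bot]; exact ne_zero_of_Q_ne hu0,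
        nd_line (by rw [B_self]; exact mul_ne_zero h2 hu0), hl, by omega, fun h => by omega⟩)

theorem dk_eq_one (hQ : Nondeg Q) (hG : Good Q) {k : O Q} (hk : k ∈ Om Q) : dk hQ hG k = 1 :=
  Abelianization.commutator_subset_ker (dk hQ hG) hk

theorem OQ.even_inf (h : OQ S Q) {m : ℕ} (hm : Fintype.card ι = 2 * m) (hm2 : m ≠ 2) {g : GL ι F}
    (hg : g ∈ omegaGL Q) {U : Submodule F (ι → F)} (hU : H30.IsTS Q m U) :
    Even (m - finrank F ↥(U ⊓ U.map (Matrix.toLin' (g : Matrix ι ι F)))) := by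
  obtain ⟨k, hk, hkg⟩ := exists_O_of_mem hg
  have hG := good_of_finrank_ne h.nd (by rw [finrank_V]; omega)
  have := (H66.dk_eq_one_iff_even h.nd hG (by rw [finrank_V, hm]) hU k).1 (dk_eq_one h.nd hG hk)
  rwa [H66.mapO, show (k.1 : (ι → F) →ₗ[F] ι → F) = Matrix.toLin' (g : Matrix ι ι F) from
    LinearMap.ext hkg] at this

theorem OQ.exists_max_ts (h : OQ S Q) {m : ℕ} (hm : Fintype.card ι = 2 * m) (hp : Plus Q ⊤)
    {W : Submodule F (ι → F)} (hW : IsTotallySingularQuad Q W) :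
    ∃ U, W ≤ U ∧ H30.IsTS Q m U := by
  obtain ⟨E, -, hE, hEd⟩ := hp
  rw [finrank_top, finrank_V] at hEd
  exact ⟨_, le_sup_right,
    H30.IsTS.isTS_sup h.nd' (by rw [finrank_V, hm]) (E := E) ⟨by omega, hE⟩ hW⟩

theorem OQ.ts_plus (h : OQ S Q) (hH : H ≤ omegaGL Q) {m : ℕ} (hm : Fintype.card ι = 2 * m)
    (hm2 : m ≠ 2) (hp : Plus Q ⊤) {W : Submodule F (ι → F)} (h0 : W ≠ ⊥)
    (hW : IsTotallySingularQuad Q W) (hI : Inv H W) :
    ∃ W, W ≠ ⊥ ∧ IsTotallySingularQuad Q W ∧ finrank F W + 1 ≠ m ∧ Inv H W := by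
  by_cases hd : finrank F W + 1 = m
  swap
  · exact ⟨W, h0, hW, hd, hI⟩
  obtain ⟨U, hWU, hU⟩ := h.exists_max_ts hm hp hW
  refine ⟨U, fun hb => h0 (le_bot_iff.1 (hb ▸ hWU)), hU.2, by rw [hU.1]; omega, fun g hg v hv => ?_⟩
  have h1 := h.even_inf hm hm2 (hH hg) hU
  have h2 := Submodule.finrank_mono (show W ≤ U ⊓ U.map (Matrix.toLin' (g : Matrix ι ι F)) from
    le_inf hWU (by rw [← hI.map_eq hg]; exact Submodule.map_mono hWU))
  have h3 := Submodule.finrank_mono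
    (show U ⊓ U.map (Matrix.toLin' (g : Matrix ι ι F)) ≤ _ from inf_le_right)
  rw [Nat.even_iff] at h1
  rw [finrank_map_gl, hU.1] at h3
  have h4 := Submodule.eq_of_le_of_finrank_eq
    (show U ⊓ U.map (Matrix.toLin' (g : Matrix ι ι F)) ≤ _ from inf_le_right)
    (by rw [finrank_map_gl, hU.1]; omega)
  exact (h4.ge (Submodule.mem_map_of_mem hv)).1

end Red

section Pair

/-- an invariant pair of complementary totally singular subspaces -/
def Pair (Q : QuadraticForm F (ι → F)) (H : Subgroup (GL ι F)) (k : ℕ) : Prop :=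
  ∃ D : Fin 2 → Submodule F (ι → F), IsMDecomposition k D ∧
    (∀ i, IsTotallySingularQuad Q (D i)) ∧ H ≤ decompositionStabilizer D

theorem OQ.eq_of_add_st [Finite F] (h : OQ S Q) (hH : FixQ H Q) (hI : Irr H)
    (hn : 2 ≤ Fintype.card ι) (h2 : (2 : F) = 0) {a : Matrix ι ι F} (ha : a + S.st a = 1)
    (hc : ∀ g ∈ H, ∃ c : F, cj g a - a = c • (1 : Matrix ι ι F)) (v : ι → F) :
    Q v = polar Q (a *ᵥ v) v := by
  rw [← h.hf]
  refine congrFun (SF.IsQ.unique h2 hI (nrmS_self H) (exists_ne_one_of_irr' hI hn) (h.le_isom hH)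
    h.isQ (S.isQ_of_add_st h2 h.hσ ha) hH (S.fixQ_of_cj (h.le_isom hH) fun g hg v => ?_)) v
  obtain ⟨c, hc⟩ := hc g hg
  rw [hc, smul_mulVec, one_mulVec, h.hf, B_smul_left, B_self, h2, zero_mul, mul_zero]

theorem OQ.pair_of_idem [Finite F] (h : OQ S Q) (hH : FixQ H Q) (hI : Irr H)
    (hn : 2 ≤ Fintype.card ι) {e : Matrix ι ι F} (he : e * e = e) (hs : S.st e = 1 - e)
    (hN : ∀ g ∈ H, cj g e = e ∨ cj g e = 1 - e) : ∃ k, Pair Q H k := by
  have : Nonempty ι := Fintype.card_pos_iff.1 (by omega)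
  obtain ⟨k, -, hD, hs', hle⟩ := S.pair_of_idem hI he hs hN
  refine ⟨k, _, hD, fun i w hw => ?_, hle⟩
  have h1 := hs' i w hw w hw
  rw [h.hf] at h1
  by_cases h2 : (2 : F) = 0
  swap
  · exact (mul_eq_zero.1 ((B_self Q w).symm.trans h1)).resolve_left h2
  rw [h.eq_of_add_st hH hI hn h2 (a := e) (by rw [hs, add_sub_cancel]) (fun g hg => by
    rcases hN g hg with h3 | h3
    · exact ⟨0, by rw [h3, sub_self, zero_smul]⟩
    · exact ⟨1, by rw [h3, sub_sub, ← two_smul F e, h2, zero_smul, sub_zero, one_smul]⟩)]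
  fin_cases i
  · rw [(mem_im_idem he).1 hw, h1]
  · obtain ⟨x, rfl⟩ := mem_im.1 hw
    rw [mulVec_mulVec, mul_sub, he, mul_one, sub_self, zero_mulVec, polar_zero_left]

theorem Pair.card {k : ℕ} (h : Pair Q H k) : Fintype.card ι = 2 * k := by
  obtain ⟨D, hD, -⟩ := h
  exact (IsMDecomposition.mul_eq_card hD).symm

theorem Pair.plus {k : ℕ} (h : Pair Q H k) : Plus Q ⊤ := by
  have h1 := h.card
  obtain ⟨D, hD, hs, -⟩ := h
  exact ⟨D 0, le_top, hs 0, by rw [hD.finrank_eq, finrank_top, finrank_V, h1]⟩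

theorem OQ.not_pair (h : OQ S Q) (hH : H ≤ omegaGL Q) (hI : Irr H) {k : ℕ} (hk : Odd k) :
    ¬ Pair Q H k := by
  intro hp
  have h1 := hp.card
  obtain ⟨D, hD, hs, hle⟩ := hp
  have h0 := hD.finrank_eq 0
  have hpos := hD.pos
  rw [Nat.odd_iff] at hk
  rcases hI (D 0) (fun g hg v hv => by
    obtain ⟨σ, hσ⟩ := hle hg
    have h2 := h.even_inf h1 (by omega) (hH hg) ⟨h0, hs 0⟩
    by_cases h3 : σ 0 = 0
    · rw [← h3, ← hσ]; exact Submodule.mem_map_of_mem hv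
    · rw [hσ, (hD.indep.pairwiseDisjoint (Ne.symm h3)).eq_bot, finrank_bot, Nat.even_iff] at h2
      omega) with h2 | h2
  · rw [h2, finrank_bot] at h0; omega
  · rw [h2, finrank_top, finrank_V] at h0; omega

end Pair

section Fields

variable {r : ℕ} {K : Subalgebra F (Matrix ι ι F)}

/-- invariance of a subspace under a subalgebra -/
def KInv (K : Subalgebra F (Matrix ι ι F)) (U : Submodule F (ι → F)) : Prop :=
  ∀ k ∈ K, ∀ x ∈ U, k *ᵥ x ∈ U

theorem KInv.dvd [Nonempty ι] (hK : IsFieldSubalgebra r K) {U : Submodule F (ι → F)}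
    (hU : KInv K U) : r ∣ finrank F U := by
  let : Field K := (isField_subalgebra hK.comm hK.inv).toField
  let : Module K (ι → F) := Module.compHom (ι → F)
    ((Matrix.toLinAlgEquiv' (R := F) (n := ι)).toAlgHom.comp K.val).toRingHom
  have hst : IsScalarTower F K (ι → F) := ⟨fun c x v => by
    change ((c • x : K) : Matrix ι ι F) *ᵥ v = c • ((x : Matrix ι ι F) *ᵥ v)
    rw [Subalgebra.coe_smul, Matrix.smul_mulVec]⟩
  let U' : Submodule K (ι → F) :=
    { U.toAddSubmonoid with smul_mem' := fun k x hx => hU k.1 k.2 x hx }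
  have hst' : IsScalarTower F K U' := ⟨fun c x v => Subtype.ext (hst.smul_assoc c x v.1)⟩
  have := @Module.finrank_mul_finrank F K U' _ _ _ _ _ _ hst' _ _ _
    (Module.Free.of_divisionRing K U')
  rw [hK.finrank_eq] at this
  exact ⟨_, this.symm⟩

theorem kinv_orb (x : ι → F) : KInv K (orb K x) := by
  rintro k hk _ ⟨l, hl, rfl⟩
  exact mem_orb.2 ⟨k * l, K.mul_mem hk hl, (mulVec_mulVec _ _ _).symm⟩

theorem KInv.sup {U W : Submodule F (ι → F)} (hU : KInv K U) (hW : KInv K W) : KInv K (U ⊔ W) :=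
  fun k hk x hx => by
    obtain ⟨a, ha, b, hb, rfl⟩ := Submodule.mem_sup.1 hx
    rw [mulVec_add]
    exact Submodule.add_mem_sup (hU k hk a ha) (hW k hk b hb)

theorem self_mem_orb (x : ι → F) : x ∈ orb K x := mem_orb.2 ⟨1, K.one_mem, one_mulVec x⟩

theorem finrank_orb (hK : IsFieldSubalgebra r K) {x : ι → F} (hx : x ≠ 0) :
    finrank F (orb K x) = r := by
  rw [← hK.finrank_eq, orb, ← LinearMap.range_domRestrict, LinearMap.finrank_range_of_inj]
  · rfl
  · rw [← LinearMap.ker_eq_bot, LinearMap.ker_eq_bot']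
    exact fun k hk => Subtype.ext (IsFieldSubalgebra.eq_zero hK k.2 hx hk)

theorem exists_sq_mem [Finite F] [Nonempty ι] (hK : IsFieldSubalgebra r K) (h2 : (2 : F) = 0)
    {k : Matrix ι ι F} (hk : k ∈ K) : ∃ l ∈ K, l * l = k := by
  let : Field K := (isField_subalgebra hK.comm hK.inv).toField
  have : Finite K := by have := finite_matrix (ι := ι) (F := F); infer_instance
  obtain ⟨l, hl⟩ := exists_sq_eq_of_two_eq_zero (F := K)
    (by rw [← map_ofNat (algebraMap F K) 2, h2, map_zero]) ⟨k, hk⟩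
  exact ⟨l, l.2, by rw [← pow_two]; exact congrArg Subtype.val hl⟩

theorem OQ.two_mul_dvd [Finite F] [Nonempty ι] (h : OQ S Q) (hK : IsFieldSubalgebra r K)
    (h2 : (2 : F) = 0) (hs : ∀ x ∈ K, S.st x = x) : 2 * r ∣ Fintype.card ι := by
  obtain ⟨U, ⟨hU, hO⟩, hmax⟩ := exists_maximal_of_wellFoundedGT
    (fun U : Submodule F (ι → F) => KInv K U ∧ Orth Q U U)
    ⟨⊥, fun k _ x hx => by rw [(Submodule.mem_bot F).1 hx, mulVec_zero]; exact zero_mem _,
      fun x hx y _ => by rw [(Submodule.mem_bot F).1 hx, polar_zero_left]⟩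
  have h1 : S.perp U = U := by
    refine le_antisymm (fun u hu => ?_) fun u hu => h.mem_perp.2 (hO u hu)
    have h3 : Orth Q (orb K u) U := by
      rintro _ ⟨k, hk, rfl⟩ x hx
      exact (h.adj k u x).trans (h.mem_perp.1 hu _ (by rw [hs k hk]; exact hU k hk x hx))
    have h4 : Orth Q (orb K u) (orb K u) := by
      rintro _ ⟨k, hk, rfl⟩ _ ⟨l, hl, rfl⟩
      obtain ⟨a, ha, hal⟩ := exists_sq_mem hK h2 (K.mul_mem hk hl)
      change polar Q (k *ᵥ u) (l *ᵥ u) = 0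
      rw [h.adj, hs k hk, mulVec_mulVec, ← hal, ← mulVec_mulVec, h.adj', hs a ha, B_self, h2,
        zero_mul]
    exact hmax ⟨hU.sup (kinv_orb u), (hO.sup h3).symm.sup (h3.symm.sup h4).symm⟩ le_sup_left
      (Submodule.mem_sup_right (self_mem_orb u))
  have h3 := S.finrank_perp_add U
  rw [h1, ← two_mul] at h3
  exact h3 ▸ Nat.mul_dvd_mul_left 2 (hU.dvd hK)

theorem OQ.dvd_of_plus [Nonempty ι] (h : OQ S Q) (hK : IsFieldSubalgebra r K)
    (hC : S.Cl (K : Set (Matrix ι ι F))) (hs : ∀ k ∈ K, ∃ c : F, ∀ v, Q (k *ᵥ v) = c * Q v)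
    {m : ℕ} (hm : Fintype.card ι = 2 * m) (hp : Plus Q ⊤) : r ∣ m := by
  obtain ⟨U, ⟨hU, hO⟩, hmax⟩ := exists_maximal_of_wellFoundedGT
    (fun U : Submodule F (ι → F) => KInv K U ∧ IsTotallySingularQuad Q U)
    ⟨⊥, fun k _ x hx => by rw [(Submodule.mem_bot F).1 hx, mulVec_zero]; exact zero_mem _,
      fun x hx => by rw [(Submodule.mem_bot F).1 hx, map_zero]⟩
  obtain ⟨E, hUE, hE⟩ := h.exists_max_ts hm hp hO
  have h1 : E = U := by
    refine le_antisymm (fun u hu => hmax ⟨hU.sup (kinv_orb u), fun x hx => ?_⟩ le_sup_left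
      (Submodule.mem_sup_right (self_mem_orb u))) hUE
    obtain ⟨a, ha, _, ⟨k, hk, rfl⟩, rfl⟩ := Submodule.mem_sup.1 hx
    obtain ⟨c, hc⟩ := hs k hk
    change Q (a + k *ᵥ u) = 0
    rw [Q_add, hO a ha, hc, hE.2 u hu, h.adj',
      H66.polar_eq_zero_of_forall hE.2 (hUE (hU _ (hC k hk) a ha)) hu]
    simp
  rw [← hE.1, h1]
  exact hU.dvd hK

theorem exists_comb [Nonempty ι] (hK : IsFieldSubalgebra 2 K) {x : Matrix ι ι F} (hx : x ∈ K)
    (hns : ∀ c : F, c • (1 : Matrix ι ι F) ≠ x) {y : Matrix ι ι F} (hy : y ∈ K) :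
    ∃ a b : F, a • (1 : Matrix ι ι F) + b • x = y := by
  have h1 := finrank_span_eq_card ((LinearIndependent.pair_iff' one_ne_zero).2 hns)
  rw [Matrix.range_cons_cons_empty, Fintype.card_fin] at h1
  have h2 : Submodule.span F {1, x} = Subalgebra.toSubmodule K :=
    Submodule.eq_of_le_of_finrank_eq (Submodule.span_le.2 (by
      rintro _ (rfl | rfl)
      exacts [K.one_mem, hx])) (by rw [h1, Subalgebra.finrank_toSubmodule, hK.finrank_eq])
  exact Submodule.mem_span_pair.1 (h2.ge hy)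

theorem OQ.similarity [Finite F] (h : OQ S Q) (hH : FixQ H Q) (hI : Irr H)
    (hn : 2 ≤ Fintype.card ι) (hK : IsFieldSubalgebra 2 K) (hN : Nrm H (K : Set (Matrix ι ι F)))
    (hC : S.Cl (K : Set (Matrix ι ι F))) (hs : ¬ ∀ x ∈ K, S.st x = x) :
    ∀ k ∈ K, ∃ c : F, ∀ v, Q (k *ᵥ v) = c * Q v := by
  have : Nonempty ι := Fintype.card_pos_iff.1 (by omega)
  have hfix : ∀ x ∈ K, S.st x = x → ∃ c : F, x = c • (1 : Matrix ι ι F) := fun x hx hsx => by
    by_contra hne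
    refine hs fun y hy => ?_
    obtain ⟨a, b, rfl⟩ := exists_comb hK hx (fun c hc => hne ⟨c, hc.symm⟩) hy
    rw [S.st_add, h.st_smul, h.st_smul, S.st_one, hsx]
  intro k hk
  obtain ⟨c, hc⟩ := hfix (S.st k * k) (K.mul_mem (hC k hk) hk) (by rw [S.st_mul, S.st_st])
  have hB : ∀ u v, polar Q (k *ᵥ u) (k *ᵥ v) = c * polar Q u v := fun u v => by
    rw [h.adj, mulVec_mulVec, hc, smul_mulVec, one_mulVec, B_smul_right]
  refine ⟨c, fun v => ?_⟩
  by_cases h2 : (2 : F) = 0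
  swap
  · apply mul_left_cancel₀ h2
    rw [← B_self, hB, B_self]
    ring
  push Not at hs
  obtain ⟨x, hx, hsx⟩ := hs
  have hneg : ∀ y : Matrix ι ι F, -y = y := fun y => by
    rw [neg_eq_iff_add_eq_zero, ← two_smul F y, h2, zero_smul]
  obtain ⟨t, ht⟩ := hfix (x + S.st x) (K.add_mem hx (hC x hx)) (by rw [S.st_add, S.st_st, add_comm])
  have ht0 : t ≠ 0 := fun h0 => hsx (by
    rw [h0, zero_smul] at ht
    rw [eq_neg_of_add_eq_zero_right ht, hneg])
  have hw : t⁻¹ • x + S.st (t⁻¹ • x) = 1 := by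
    rw [h.st_smul, ← smul_add, ht, smul_smul, inv_mul_cancel₀ ht0, one_smul]
  have hwK : t⁻¹ • x ∈ K := K.smul_mem hx _
  have key := h.eq_of_add_st hH hI hn h2 hw fun g hg =>
    hfix _ (K.sub_mem (hN g hg _ hwK) hwK) (by
      rw [S.st_sub, S.st_cj (h.le_isom hH hg), eq_sub_of_add_eq' hw, map_sub, map_one,
        ← hneg (cj g _ - _)]
      abel)
  rw [key, key v, mulVec_mulVec, hK.comm _ hwK _ hk, ← mulVec_mulVec, hB]

theorem exists_abelian [Finite F] (hI : Irr H) (hn : 2 ≤ Fintype.card ι)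
    (hK : IsFieldSubalgebra r K) (hN : Nrm H (K : Set (Matrix ι ι F)))
    (hc : ∀ g ∈ H, ∀ g' ∈ H, (∀ k ∈ K, cj g k = k) → (∀ k ∈ K, cj g' k = k) → g * g' = g' * g) :
    ∃ A, A ≤ H ∧ NrmS H A ∧ (∀ x ∈ A, ∀ y ∈ A, x * y = y * x) ∧ ¬ A ≤ scalars ι F := by
  have : Nonempty ι := Fintype.card_pos_iff.1 (by omega)
  let C : Subgroup (GL ι F) :=
    { carrier := {g | g ∈ H ∧ ∀ k ∈ K, cj g k = k}
      mul_mem' := fun {a b} ha hb => ⟨H.mul_mem ha.1 hb.1, fun k hk => by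
        rw [cj_mul, hb.2 k hk, ha.2 k hk]⟩
      one_mem' := ⟨H.one_mem, fun k _ => cj_one k⟩
      inv_mem' := fun {a} ha => ⟨H.inv_mem ha.1, fun k hk => by
        conv_lhs => rw [← ha.2 k hk, cj_inv_cj]⟩ }
  by_cases hC : C ≤ scalars ι F
  swap
  · exact ⟨C, fun g hg => hg.1, fun g hg x hx => ⟨H.mul_mem (H.mul_mem hg hx.1) (H.inv_mem hg),
      fun k hk => by rw [cj_mul, cj_mul, hx.2 _ (hN _ (H.inv_mem hg) k hk), cj_cj_inv]⟩,
      fun x hx y hy => hc x hx.1 y hy.1 hx.2 hy.2, hC⟩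
  obtain ⟨g, hg, hgs⟩ := exists_ne_one_of_irr hI hn
  refine ⟨H, le_rfl, nrmS_self H, fun x hx y hy => ?_, fun h => hgs (h hg)⟩
  let : Field K := (isField_subalgebra hK.comm hK.inv).toField
  have : Finite K := by have := finite_matrix (ι := ι) (F := F); infer_instance
  let f : H →* (K ≃ₐ[F] K) :=
    { toFun := fun g => AlgEquiv.ofRingEquiv (f := cjSub K g (hN g g.2) (hN _ (H.inv_mem g.2)))
        fun c => Subtype.ext ((cj g.1).commutes c)
      map_one' := AlgEquiv.ext fun k => Subtype.ext (cj_one _)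
      map_mul' := fun a b => AlgEquiv.ext fun k => Subtype.ext (cj_mul _ _ _) }
  exact congrArg Subtype.val ((f.isMulCommutative_of_isCyclic_of_ker_le_center fun z hz =>
    Subgroup.mem_center_iff.2 fun w => Subtype.ext (comm_of_mem_scalars (hC ⟨z.2, fun k hk =>
      congrArg Subtype.val (AlgEquiv.congr_fun hz ⟨k, hk⟩)⟩) w).symm).is_comm.comm ⟨x, hx⟩ ⟨y, hy⟩)

theorem comm_of_cj {g : GL ι F} {k : Matrix ι ι F} (h : cj g k = k) :
    Commute (g : Matrix ι ι F) k := (cj_eq_iff g k k).1 h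

theorem cent_comm_of_eq (hK : IsFieldSubalgebra (Fintype.card ι) K) {g g' : GL ι F}
    (hg : ∀ k ∈ K, cj g k = k) (hg' : ∀ k ∈ K, cj g' k = k) : g * g' = g' * g := by
  rcases isEmpty_or_nonempty ι with hι | hι
  · exact Subsingleton.elim _ _
  let x : ι → F := fun _ => 1
  have hx : x ≠ 0 := fun h0 => one_ne_zero (congrFun h0 (Classical.arbitrary ι))
  have ht : orb K x = ⊤ := Submodule.eq_top_of_finrank_eq (by rw [finrank_orb hK hx, finrank_V])
  obtain ⟨k, hk, hkx⟩ := mem_orb.1 (ht.ge (Submodule.mem_top (x := (g' : Matrix ι ι F) *ᵥ x)))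
  have : (g' : Matrix ι ι F) = k := ext_mulVec fun v => by
    obtain ⟨l, hl, rfl⟩ := mem_orb.1 (ht.ge (Submodule.mem_top (x := v)))
    rw [mulVec_mulVec, (comm_of_cj (hg' l hl)).eq, ← mulVec_mulVec, ← hkx, mulVec_mulVec,
      mulVec_mulVec, hK.comm l hl k hk]
  exact Units.ext (by rw [Units.val_mul, Units.val_mul, this, (comm_of_cj (hg k hk)).eq])

/-- `K`-linear maps `s` with `B (s u, u) = 0` -/
structure Skew (Q : QuadraticForm F (ι → F)) (K : Subalgebra F (Matrix ι ι F))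
    (s : Matrix ι ι F) : Prop where
  comm : ∀ k ∈ K, Commute s k
  alt : ∀ u, polar Q (s *ᵥ u) u = 0

theorem Skew.skew {s : Matrix ι ι F} (hs : Skew Q K s) (u v : ι → F) :
    polar Q (s *ᵥ u) v = -polar Q (s *ᵥ v) u := by
  have := hs.alt (u + v)
  rw [mulVec_add, polar_add_left, polar_add_right, polar_add_right, hs.alt, hs.alt] at this
  linear_combination this

theorem Skew.orth [Finite F] [Nonempty ι] (h : OQ S Q) (hK : IsFieldSubalgebra r K)
    (hsa : ∀ x ∈ K, S.st x = x) {s : Matrix ι ι F} (hs : Skew Q K s) (u : ι → F) :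
    s *ᵥ u ∈ S.perp (orb K u) := by
  rw [h.mem_perp]
  rintro _ ⟨k, hk, rfl⟩
  change polar Q (s *ᵥ u) (k *ᵥ u) = 0
  by_cases h2 : (2 : F) = 0
  · obtain ⟨l, hl, rfl⟩ := exists_sq_mem hK h2 hk
    rw [← mulVec_mulVec, h.adj', hsa l hl, mulVec_mulVec, ← (hs.comm l hl).eq, ← mulVec_mulVec,
      hs.alt]
  · have := hs.skew u (k *ᵥ u)
    rw [mulVec_mulVec, (hs.comm k hk).eq, ← mulVec_mulVec, h.adj k, hsa k hk] at this
    exact (mul_eq_zero.1 (show (2 : F) * _ = 0 by linear_combination this)).resolve_left h2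

theorem Skew.eq_zero [Finite F] (h : OQ S Q) (hK : IsFieldSubalgebra r K)
    (hn : Fintype.card ι = 2 * r) (hsa : ∀ x ∈ K, S.st x = x) {s : Matrix ι ι F} (hs : Skew Q K s)
    {w : ι → F} (hw : w ≠ 0) (h0 : s *ᵥ w = 0) : s = 0 := by
  have : Nonempty ι := by
    by_contra hn
    exact hw (funext fun i => (hn ⟨i⟩).elim)
  have h1 : ∀ u ∈ orb K w, s *ᵥ u = 0 := by
    rintro _ ⟨k, hk, rfl⟩
    change s *ᵥ (k *ᵥ w) = 0
    rw [mulVec_mulVec, (hs.comm k hk).eq, ← mulVec_mulVec, h0, mulVec_zero]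
  refine ext_mulVec fun u => ?_
  rw [zero_mulVec]
  by_cases hu : u ∈ orb K w
  · exact h1 u hu
  have hu0 : u ≠ 0 := by rintro rfl; exact hu (zero_mem _)
  have h2 : orb K u ⊓ orb K w = ⊥ := by
    rw [Submodule.eq_bot_iff]
    rintro _ ⟨⟨k, hk, rfl⟩, hx⟩
    by_contra hne
    obtain ⟨l, hl, hkl⟩ := hK.inv k hk (by rintro rfl; exact hne (zero_mulVec u))
    have := kinv_orb w l hl _ hx
    change l *ᵥ (k *ᵥ u) ∈ _ at this
    rw [mulVec_mulVec, hK.comm l hl k hk, hkl, one_mulVec] at this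
    exact hu this
  have h3 := Submodule.finrank_sup_add_finrank_inf_eq (orb K u) (orb K w)
  rw [h2, finrank_bot, finrank_orb hK hu0, finrank_orb hK hw] at h3
  have h4 : orb K u ⊔ orb K w = ⊤ := Submodule.eq_top_of_finrank_eq (by rw [finrank_V]; omega)
  refine h.nd _ fun x => ?_
  obtain ⟨a, ha, b, hb, rfl⟩ := Submodule.mem_sup.1 (h4.ge (Submodule.mem_top (x := x)))
  rw [polar_add_right, h.mem_perp.1 (hs.orth h hK hsa u) a ha, hs.skew, h1 b hb, polar_zero_left,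
    neg_zero, add_zero]

theorem Skew.exists_mul [Finite F] [Nonempty ι] (h : OQ S Q) (hK : IsFieldSubalgebra r K)
    (hn : Fintype.card ι = 2 * r) (hsa : ∀ x ∈ K, S.st x = x) {s s' : Matrix ι ι F}
    (hs : Skew Q K s) (h0 : s ≠ 0) (hs' : Skew Q K s') : ∃ k ∈ K, s' = k * s := by
  let x : ι → F := fun _ => 1
  have hx : x ≠ 0 := fun h0 => one_ne_zero (congrFun h0 (Classical.arbitrary ι))
  have h1 : orb K (s *ᵥ x) = S.perp (orb K x) := by
    refine Submodule.eq_of_le_of_finrank_eq ?_ ?_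
    · rintro _ ⟨k, hk, rfl⟩
      exact S.mulVec_mem_perp (fun w hw => kinv_orb x _ (by rwa [hsa k hk]) w hw)
        (hs.orth h hK hsa x)
    · have := S.finrank_perp_add (orb K x)
      rw [finrank_orb hK hx] at this
      rw [finrank_orb hK fun h1 => h0 (hs.eq_zero h hK hn hsa hx h1)]
      omega
  obtain ⟨k, hk, hkx⟩ := mem_orb.1 (h1.ge (hs'.orth h hK hsa x))
  refine ⟨k, hk, sub_eq_zero.1 (Skew.eq_zero h hK hn hsa ⟨fun l hl => (hs'.comm l hl).sub_left
    (Commute.mul_left (hK.comm k hk l hl) (hs.comm l hl)), fun u => ?_⟩ hx ?_)⟩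
  · rw [sub_mulVec, polar_sub_left, hs'.alt, ← mulVec_mulVec, h.adj, hsa k hk,
      h.mem_perp.1 (hs.orth h hK hsa u) _ (mem_orb.2 ⟨k, hk, rfl⟩), sub_zero]
  · rw [sub_mulVec, ← mulVec_mulVec, hkx, sub_self]

theorem OQ.isUnit_one_sub [Nonempty ι] (h : OQ S Q) (hK : IsFieldSubalgebra r K) (hr : Odd r)
    (hn : Fintype.card ι = 2 * r) {g : GL ι F} (hg : g ∈ omegaGL Q) (hc : ∀ k ∈ K, cj g k = k)
    (h1 : g ≠ 1) : IsUnit (1 - (g : Matrix ι ι F)) := by
  rw [Nat.odd_iff] at hr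
  obtain ⟨k, hk, hkg⟩ := exists_O_of_mem hg
  have hG := good_of_finrank_ne h.nd (by rw [finrank_V]; omega)
  have h2 := dk_eq_one h.nd hG hk
  have h3 : mov k = im (1 - (g : Matrix ι ι F)) := by
    ext v
    simp only [mem_mov, mem_im, hkg, sub_mulVec, one_mulVec]
  rw [dk_apply, h3, neg_one_pow_eq_one_iff_even (by decide), Nat.even_iff] at h2
  obtain ⟨c, hc⟩ := KInv.dvd hK (U := im (1 - (g : Matrix ι ι F))) (by
    rintro l hl _ ⟨w, rfl⟩
    refine mem_im.2 ⟨l *ᵥ w, ?_⟩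
    rw [toLin'_apply, mulVec_mulVec, mulVec_mulVec,
      ((Commute.one_left l).sub_left (comm_of_cj (hc l hl))).eq])
  have h4 := Submodule.finrank_le (im (1 - (g : Matrix ι ι F)))
  rw [finrank_V, hn, hc, mul_comm] at h4
  have h5 := Nat.le_of_mul_le_mul_right h4 (by omega)
  interval_cases c
  · rw [mul_zero, Submodule.finrank_eq_zero, im_eq_bot, sub_eq_zero] at hc
    exact absurd (Units.ext hc.symm) h1
  · omega
  · exact isUnit_of_im_eq_top (Submodule.eq_top_of_finrank_eq (by rw [finrank_V]; omega))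

theorem OQ.cent_comm_of_two [Finite F] (h : OQ S Q) (hK : IsFieldSubalgebra r K) (hr : Odd r)
    (hC : S.Cl (K : Set (Matrix ι ι F))) (hn : Fintype.card ι = 2 * r) {g g' : GL ι F}
    (hg : g ∈ omegaGL Q) (hg' : g' ∈ omegaGL Q) (hc : ∀ k ∈ K, cj g k = k)
    (hc' : ∀ k ∈ K, cj g' k = k) : g * g' = g' * g := by
  have : Nonempty ι := Fintype.card_pos_iff.1 (by have := hr.pos; omega)
  have hsa := S.selfAdjoint_of_odd h.hσ hr hK hC
  by_cases h1 : g = 1
  · rw [h1, one_mul, mul_one]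
  by_cases h1' : g' = 1
  · rw [h1', one_mul, mul_one]
  have key : ∀ g ∈ omegaGL Q, (∀ k ∈ K, cj g k = k) → g ≠ 1 → ∃ a : GL ι F,
      ((a⁻¹ : GL ι F) : Matrix ι ι F) = 1 - (g : Matrix ι ι F) ∧
      (∀ k ∈ K, Commute (a : Matrix ι ι F) k) ∧
      (∀ u, polar Q ((a : Matrix ι ι F) *ᵥ u) u = Q u) ∧
      ∀ u, polar Q ((g : Matrix ι ι F) *ᵥ ((a : Matrix ι ι F) *ᵥ u)) u = -Q u := by
    intro g hg hc h1
    obtain ⟨b, hb⟩ := h.isUnit_one_sub hK hr hn hg hc h1
    have e : ∀ u, ∃ x, ((b⁻¹ : GL ι F) : Matrix ι ι F) *ᵥ u = x ∧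
        u = x - (g : Matrix ι ι F) *ᵥ x := fun u =>
      ⟨_, rfl, by rw [← one_mulVec (_ *ᵥ u), mulVec_mulVec _ _ 1, mul_one, ← sub_mulVec, ← hb,
        gl_mulVec_inv]⟩
    have hq := fixQ_of_le (q := Q) le_rfl g hg
    refine ⟨b⁻¹, hb, fun k hk => Commute.units_inv_left
      (hb ▸ (Commute.one_left k).sub_left (comm_of_cj (hc k hk))), fun u => ?_, fun u => ?_⟩
    · obtain ⟨x, hx, rfl⟩ := e u
      rw [hx, polar_sub_right, Q_sub, B_self, hq]
      ring
    · obtain ⟨x, hx, rfl⟩ := e u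
      rw [hx, polar_sub_right, Q_sub, B_self, hq, polar_comm]
      ring
  obtain ⟨a, ha, ha1, ha2, ha3⟩ := key g hg hc h1
  obtain ⟨a', ha', ha1', ha2', -⟩ := key g' hg' hc' h1'
  have hga : Commute (g : Matrix ι ι F) a := by
    have : Commute (g : Matrix ι ι F) (a⁻¹ : GL ι F) :=
      ha ▸ (Commute.one_right _).sub_right (Commute.refl _)
    exact Commute.units_inv_right_iff.1 this
  apply Units.ext
  by_cases h0 : (1 + (g : Matrix ι ι F)) * a = 0
  · rw [Units.mul_left_eq_zero] at h0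
    rw [Units.val_mul, Units.val_mul, eq_neg_of_add_eq_zero_right h0, neg_mul, mul_neg, one_mul,
      mul_one]
  obtain ⟨k, hk, hks⟩ := Skew.exists_mul h hK hn hsa (s := (1 + (g : Matrix ι ι F)) * a)
    (s' := a' - a) ⟨fun k hk =>
      ((Commute.one_left k).add_left (comm_of_cj (hc k hk))).mul_left (ha1 k hk), fun u => by
      rw [← mulVec_mulVec, add_mulVec, one_mulVec, polar_add_left, ha2, ha3, add_neg_cancel]⟩ h0
    ⟨fun k hk => (ha1' k hk).sub_left (ha1 k hk), fun u => by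
      rw [sub_mulVec, polar_sub_left, ha2, ha2', sub_self]⟩
  have h2 : Commute (g : Matrix ι ι F) a' := by
    rw [eq_add_of_sub_eq hks]
    exact ((comm_of_cj (hc k hk)).mul_right (((Commute.one_right _).add_right
      (Commute.refl _)).mul_right hga)).add_right hga
  have h3 := h2.units_inv_right
  rw [ha'] at h3
  have := ((Commute.one_right _).sub_right h3).eq
  rwa [sub_sub_cancel] at this

end Fields

/-- the field extensions that are listed -/
structure Fld (S : SF ι F) (H : Subgroup (GL ι F)) (r : ℕ) (K : Subalgebra F (Matrix ι ι F)) :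
    Prop where
  prime : r.Prime
  field : IsFieldSubalgebra r K
  nrm : Nrm H (K : Set (Matrix ι ι F))
  cl : S.Cl (K : Set (Matrix ι ι F))
  odd : Odd r → Fintype.card ι ≠ r ∧ Fintype.card ι ≠ 2 * r

/-- the outcome of the commutative case -/
def CommOut (S : SF ι F) (Q : QuadraticForm F (ι → F)) (H : Subgroup (GL ι F)) : Prop :=
  (∃ (t k : ℕ) (D : Fin t → Submodule F (ι → F)), IsOrthogonalMDecomposition Q k D ∧
    H ≤ decompositionStabilizer D) ∨ (∃ k, Pair Q H k) ∨ ∃ r K, Fld S H r K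

theorem OQ.comm_cases [Finite F] (h : OQ S Q) (hH : H ≤ omegaGL Q) (hI : Irr H)
    (hn : 2 ≤ Fintype.card ι) (hP : ¬ S.Prim H) :
    CommOut S Q H := by
  have : Nonempty ι := Fintype.card_pos_iff.1 (by omega)
  have hq := fixQ_of_le hH
  have key : ∀ K : Subalgebra F (Matrix ι ι F), (∀ x ∈ K, ∀ y ∈ K, x * y = y * x) →
      Nrm H (K : Set (Matrix ι ι F)) → S.Cl (K : Set (Matrix ι ι F)) →
      ((∀ x ∈ K, x ≠ 0 → ∃ y ∈ K, x * y = 1) → CommOut S Q H) → CommOut S Q H := by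
    intro K h1 h2 h3 h4
    rcases S.comm_cases (h.le_sim hq) hI h1 h2 h3 with ⟨t, k, D, hD, hle, htr⟩ |
      ⟨e, -, he, hs, hN⟩ | h5
    · exact Or.inl ⟨t, k, D, h.dec_of_trans hq hD htr, hle⟩
    · exact Or.inr (Or.inl (h.pair_of_idem hq hI hn he hs hN))
    · exact h4 h5
  unfold SF.Prim at hP
  push Not at hP
  obtain ⟨K, h1, h2, h3, x, hx, hxs⟩ := hP
  refine key K h1 h2 h3 fun h4 => ?_
  obtain ⟨r, K', hr, hK, hN, hC⟩ := S.exists_prime_subfield h1 h4 h2 h3 fun h5 => by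
    obtain ⟨c, hc⟩ := h5 x hx
    exact hxs c hc
  by_cases hc : Odd r → Fintype.card ι ≠ r ∧ Fintype.card ι ≠ 2 * r
  · exact Or.inr (Or.inr ⟨r, K', hr, hK, hN, hC, hc⟩)
  rw [Classical.not_imp, not_and_or, not_not, not_not] at hc
  obtain ⟨A, hA, hAn, hAc, hAs⟩ := exists_abelian hI hn hK hN fun g hg g' hg' e e' => by
    rcases hc.2 with h5 | h5
    · exact cent_comm_of_eq (h5 ▸ hK) e e'
    · exact h.cent_comm_of_two hK hc.1 hC h5 (hH hg) (hH hg') e e'
  have hAq := FixQ_mono hq hA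
  have c1 : ∀ x ∈ spanA F A, ∀ y ∈ spanA F A, x * y = y * x := fun x hx y hy =>
    comm_of_mem_spanA (fun g hg => (comm_of_mem_spanA (fun g' hg' =>
      congrArg Units.val (hAc g hg g' hg')) hx).symm) hy
  have c2 := nrm_spanA (k := F) hAn
  have c3 := S.cl_spanA (h.le_sim hAq)
  refine key _ c1 c2 c3 fun h5 => ?_
  rcases Nat.even_or_odd (finrank F (spanA F A)) with h6 | h6
  · obtain ⟨K₂, -, e1, e2, e3⟩ := S.exists_subfield c1 h5 c2 c3 2 h6.two_dvd
    exact Or.inr (Or.inr ⟨2, K₂, Nat.prime_two, e1, e2, e3, fun h => absurd h (by decide)⟩)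
  · refine absurd (fun a ha => ?_) hAs
    have ha' := coe_mem_spanA (k := F) ha
    have e1 := S.selfAdjoint_of_odd h.hσ h6 ⟨c1, h5, rfl⟩ c3 _ ha'
    rw [S.st_coe (h.le_isom hAq ha)] at e1
    by_cases e2 : (a : Matrix ι ι F) - 1 = 0
    · exact mem_scalars_of_eq_smul (c := 1) (by rw [one_smul, sub_eq_zero.1 e2])
    · obtain ⟨y, -, hy⟩ := h5 _ (sub_mem ha' (one_mem _)) e2
      have e3 : ((a : Matrix ι ι F) + 1) * (a - 1) = 0 := by
        rw [add_mul, mul_sub, mul_one, one_mul]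
        nth_rewrite 1 [← e1]
        rw [Units.inv_mul, sub_add_sub_cancel, sub_self]
      refine mem_scalars_of_eq_smul (c := -1) ?_
      have e4 := congrArg (· * y) e3
      simp only [mul_assoc, hy, mul_one, zero_mul] at e4
      rw [neg_one_smul, ← add_eq_zero_iff_eq_neg, e4]

end H12.A
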