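import Mathlib
import Cfsg.Agent.Lib.Orth12.Asch5
import Cfsg.Agent.Lib.Orth12.Simple
import Cfsg.Agent.Lib.AschF.SpMain

/-!
Aschbacher classes for orthogonal groups, part 6: tensor decompositions and the main case division.
-/

set_option autoImplicit false
set_option linter.unusedSectionVars false

namespace H12.A

open Matrix Cfsg Cfsg.Geo H10.Asch H28.AF Module QuadraticMap
open scoped MatrixGroups Kronecker

variable {ι : Type} [Fintype ι] [DecidableEq ι] {F : Type*} [Field F]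
  {S : SF ι F} {Q : QuadraticForm F (ι → F)} {H : Subgroup (GL ι F)}

section Sym

theorem exists_oq_of_sym (S : SF ι F) (h2 : (2 : F) ≠ 0) (hσ : ∀ a, S.σ a = a) (hε : S.ε = 1) :
    ∃ Q : QuadraticForm F (ι → F), OQ S Q := by
  have h : S.IsQ fun v => 2⁻¹ * S.f v v :=
    ⟨fun c v => by rw [S.smul_left, S.smul_right, hσ]; ring, fun u v => by
      simp only [polar, S.add_left, S.add_right]
      rw [S.symm u v, hσ, hε]
      field_simp
      ring⟩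
  obtain ⟨Q, hQ⟩ := exists_quadraticForm (h.nondeg hσ)
  exact ⟨Q, hσ, hε, funext fun u => funext fun v => by rw [hQ, h.polar]⟩

theorem OQ.f_self (h : OQ S Q) (v : ι → F) : S.f v v = 2 * Q v := by rw [h.f_apply, B_self]

theorem det_G_ne (S : SF ι F) : (S.G : Matrix ι ι F).det ≠ 0 :=
  ((Matrix.isUnit_iff_isUnit_det _).1 S.G.isUnit).ne_zero

theorem OQ.plus_iff_det [Finite F] (h : OQ S Q) (h2 : (2 : F) ≠ 0) {m : ℕ}
    (hm : Fintype.card ι = 2 * m) {κ : Type} [Fintype κ] [DecidableEq κ] (e : ι ≃ κ) (P : GL ι F) :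
    Plus Q ⊤ ↔ IsSquare ((-1) ^ m * ((S.pull e P).G : Matrix κ κ F).det) := by
  have h1 : H66.gramDet Q (fun p => (P : Matrix ι ι F) *ᵥ (Pi.single p 1 ∘ e)) =
      ((S.pull e P).G : Matrix κ κ F).det := by
    rw [H66.gramDet]
    congr 1
    ext a b
    rw [of_apply, ← h.f_apply, ← S.pull_f]
    exact gform_single _ _ a b
  rw [← h1]
  exact h.plus_iff_family h2 hm (h1 ▸ det_G_ne _) (Fintype.card_congr e).symm

theorem pull_refl_one (S : SF ι F) : (S.pull (Equiv.refl ι) 1).G = S.G :=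
  Units.ext (by rw [SF.coe_pull_refl_G]; simp)

theorem OQ.plus_iff_det' [Finite F] (h : OQ S Q) (h2 : (2 : F) ≠ 0) {m : ℕ}
    (hm : Fintype.card ι = 2 * m) : Plus Q ⊤ ↔ IsSquare ((-1) ^ m * (S.G : Matrix ι ι F).det) := by
  rw [h.plus_iff_det h2 hm (Equiv.refl ι) 1, pull_refl_one]

theorem OQ.plus_iff_self (h : OQ S Q) (h2 : (2 : F) ≠ 0) :
    IsPlusTypeOn (fun v => S.f v v) ⊤ ↔ Plus Q ⊤ := by
  simp only [IsPlusTypeOn, IsTotallySingularQuad, h.f_self, mul_eq_zero, h2, false_or]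

/-- symmetric forms with the same discriminant are isometric -/
theorem exists_pull_eq [Finite F] (S S' : SF ι F) (h2 : (2 : F) ≠ 0) (hσ : ∀ a, S.σ a = a)
    (hε : S.ε = 1) (hσ' : ∀ a, S'.σ a = a) (hε' : S'.ε = 1)
    (hd : IsSquare ((S'.G : Matrix ι ι F).det * (S.G : Matrix ι ι F).det)) :
    ∃ g : GL ι F, (S.pull (Equiv.refl ι) g).G = S'.G := by
  obtain ⟨Q, h⟩ := exists_oq_of_sym S h2 hσ hε
  obtain ⟨Q', h'⟩ := exists_oq_of_sym S' h2 hσ' hε'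
  rw [h.det_G, h'.det_G] at hd
  obtain ⟨Φ, hΦ⟩ := H66.exists_equiv_of_isSquare_gramDet h2 h'.nd' h.nd' rfl _ _ hd
  let g : GL ι F := ⟨LinearMap.toMatrix' Φ.toLinearMap, LinearMap.toMatrix' Φ.symm.toLinearMap,
    by rw [← LinearMap.toMatrix'_comp]; simp, by rw [← LinearMap.toMatrix'_comp]; simp⟩
  have hg : ∀ v, (g : Matrix ι ι F) *ᵥ v = Φ v := fun v => LinearMap.toMatrix'_mulVec _ v
  refine ⟨g, Units.ext (gform_inj (σ := S.σ) fun u v => ?_)⟩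
  have h1 := S.f_gr g u v
  rw [hg, hg, h.f_apply, polar, ← map_add, hΦ, hΦ, hΦ] at h1
  rw [show gform S.σ (S'.G : Matrix ι ι F) u v = S'.f u v by rw [SF.f, h.hσ', h'.hσ'], h'.f_apply]
  exact h1.symm

/-- a multiple of a symmetric form -/
def scale (S : SF ι F) (hσ : ∀ a, S.σ a = a) (c : Fˣ) : SF ι F :=
  ⟨S.σ, S.σσ, sc ι F c * S.G, S.ε, S.hε, by rw [coe_sc_mul, cT_smul, S.herm, hσ, smul_comm]⟩

/-- symmetric forms of odd dimension are similar -/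
theorem exists_pull_eq_odd [Finite F] (S S' : SF ι F) (h2 : (2 : F) ≠ 0) (hσ : ∀ a, S.σ a = a)
    (hε : S.ε = 1) (hσ' : ∀ a, S'.σ a = a) (hε' : S'.ε = 1) (hn : Odd (Fintype.card ι)) :
    ∃ (g : GL ι F) (c : Fˣ), (S.pull (Equiv.refl ι) g).G = sc ι F c * S'.G := by
  let c : Fˣ := Units.mk0 _ (mul_ne_zero (det_G_ne S') (det_G_ne S))
  obtain ⟨g, hg⟩ := exists_pull_eq S (scale S' hσ' c) h2 hσ hε hσ' hε' (by
    obtain ⟨k, hk⟩ := hn
    refine ⟨c ^ (k + 1), ?_⟩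
    change ((sc ι F c * S'.G : GL ι F) : Matrix ι ι F).det * _ = _
    rw [coe_sc_mul, det_smul, hk, mul_assoc]
    change _ * (c : F) = _
    ring)
  exact ⟨g, c, hg⟩

theorem even_of_alt (S : SF ι F) (hσ : ∀ a, S.σ a = a) (hA : ∀ v, S.f v v = 0) :
    Even (Fintype.card ι) := by
  have := S.even_finrank hσ hA S.nondeg_top
  rwa [finrank_top, finrank_V] at this

theorem det_st (S : SF ι F) (hσ : ∀ a, S.σ a = a) (x : Matrix ι ι F) : (S.st x).det = x.det := by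
  have := congrArg Matrix.det (S.G_mul_st hσ x)
  rw [det_mul, det_mul, det_transpose, mul_comm] at this
  exact mul_right_cancel₀ (det_G_ne S) this

theorem det_cj (g : GL ι F) (x : Matrix ι ι F) : (cj g x).det = x.det := by
  rw [cj_apply]; exact det_units_conj g x

theorem det_tr {κ : Type} [Fintype κ] [DecidableEq κ] (e : ι ≃ κ) (P : GL ι F) (x : Matrix κ κ F) :
    (tr e P x).det = x.det := by rw [tr_apply, det_cj, det_submatrix_equiv_self]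

set_option synthInstance.maxSize 4096 in
theorem zmod_comm : ∀ a b c d a' b' c' d' : ZMod 2, a + d = 1 → a * d - b * c = 1 → a' + d' = 1 →
    a' * d' - b' * c' = 1 → (a * a' + b * c' = a' * a + b' * c ∧ a * b' + b * d' = a' * b + b' * d) ∧
      c * a' + d * c' = c' * a + d' * c ∧ c * b' + d * d' = c' * b + d' * d := by decide

/-- `GL_2(2)` normalises a field -/
theorem not_prim_GL22 [Fintype F] (hF : Fintype.card F = 2) (S : SF (Fin 2) F)
    (hσ : ∀ a, S.σ a = a) : ¬ S.Prim (similarityGroup S.f) := by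
  have h2 : (2 : F) = 0 := two_eq_zero_of_even (by rw [hF]; decide)
  refine S.not_prim_of_set {x | x.trace = 1 ∧ x.det = 1} ?_ ?_ ?_ (x := !![0, 1; -1, 1]) ?_ ?_
  · rintro x ⟨h1, h3⟩ y ⟨h4, h5⟩
    rw [trace_fin_two] at h1 h4
    rw [det_fin_two] at h3 h5
    let φ := (ZMod.ringEquivOfPrime F Nat.prime_two hF).symm
    have := zmod_comm (φ (x 0 0)) (φ (x 0 1)) (φ (x 1 0)) (φ (x 1 1)) (φ (y 0 0)) (φ (y 0 1))
      (φ (y 1 0)) (φ (y 1 1))
    simp only [← map_mul, ← map_add, ← map_sub, φ.injective.eq_iff,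
      map_eq_one_iff φ φ.injective] at this
    obtain ⟨⟨a, b⟩, c, d⟩ := this h1 h3 h4 h5
    ext i j
    fin_cases i <;> fin_cases j <;> simp only [mul_apply, Fin.sum_univ_two] <;> assumption
  · rintro h - x ⟨h1, h3⟩
    exact ⟨by rw [trace_cj, h1], by rw [det_cj, h3]⟩
  · rintro x ⟨h1, h3⟩
    exact ⟨by rw [S.trace_st, h1, hσ], by rw [det_st S hσ, h3]⟩
  · simp [trace_fin_two, det_fin_two]
  · rintro ⟨c, hc⟩
    simpa using congrFun (congrFun hc 0) 1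

end Sym

section Four

/-- the Pfaffian of a skew `4 × 4` matrix -/
def pf (M : Matrix (Fin 4) (Fin 4) F) : F := M 0 1 * M 2 3 - M 0 2 * M 1 3 + M 0 3 * M 1 2

theorem pf_conj (a b c d e f : F) (u : Matrix (Fin 4) (Fin 4) F) :
    pf (uᵀ * !![0, a, b, c; -a, 0, d, e; -b, -d, 0, f; -c, -e, -f, 0] * u) =
      u.det * (a * f - b * e + c * d) := by
  simp [pf, mul_apply, det_succ_row_zero, Fin.sum_univ_succ, Fin.succAbove]
  ring

/-- the Gram matrix of the determinant form on `2 × 2` matrices -/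
def G4 (F : Type*) [Field F] : Matrix (Fin 4) (Fin 4) F :=
  !![0, 0, 0, 1; 0, 0, -1, 0; 0, -1, 0, 0; 1, 0, 0, 0]

theorem G4_mul_G4 : G4 F * G4 F = 1 := by
  ext i j
  fin_cases i <;> fin_cases j <;> simp [G4, mul_apply, Fin.sum_univ_four]

/-- left multiplication on `2 × 2` matrices -/
def psi4 (F : Type*) [Field F] : Matrix (Fin 2) (Fin 2) F →ₐ[F] Matrix (Fin 4) (Fin 4) F where
  toFun a := !![a 0 0, a 0 1, 0, 0; a 1 0, a 1 1, 0, 0; 0, 0, a 0 0, a 0 1; 0, 0, a 1 0, a 1 1]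
  map_one' := by ext i j; fin_cases i <;> fin_cases j <;> simp
  map_mul' a b := by
    ext i j; fin_cases i <;> fin_cases j <;> simp [mul_apply, Fin.sum_univ_four, Fin.sum_univ_two]
  map_zero' := by ext i j; fin_cases i <;> fin_cases j <;> simp
  map_add' a b := by ext i j; fin_cases i <;> fin_cases j <;> simp
  commutes' c := by
    ext i j; fin_cases i <;> fin_cases j <;> simp [Matrix.algebraMap_matrix_apply]

theorem psi4_apply (a : Matrix (Fin 2) (Fin 2) F) : psi4 F a =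
    !![a 0 0, a 0 1, 0, 0; a 1 0, a 1 1, 0, 0; 0, 0, a 0 0, a 0 1; 0, 0, a 1 0, a 1 1] := rfl

theorem G4_mul (y : Matrix (Fin 4) (Fin 4) F) : G4 F * y =
    !![y 3 0, y 3 1, y 3 2, y 3 3; -y 2 0, -y 2 1, -y 2 2, -y 2 3;
      -y 1 0, -y 1 1, -y 1 2, -y 1 3; y 0 0, y 0 1, y 0 2, y 0 3] := by
  ext i j
  fin_cases i <;> fin_cases j <;> simp [G4, mul_apply, Fin.sum_univ_four]

theorem core_four (h2 : (2 : F) ≠ 0) {y : Matrix (Fin 4) (Fin 4) F} {μ : F} (hμ : μ ≠ 0)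
    (h1 : y * y = μ • (1 : Matrix (Fin 4) (Fin 4) F)) (hs : (G4 F * y)ᵀ = -(G4 F * y))
    (hp : pf (G4 F * y) = μ) : y ∈ (psi4 F).range := by
  rw [G4_mul] at hs hp
  have s := fun i j => congrFun (congrFun hs i) j
  have m := fun i j => congrFun (congrFun h1 i) j
  have c2 : ∀ {a : F}, 2 * a = 0 → a = 0 := fun h => (mul_eq_zero.1 h).resolve_left h2
  have s00 : y 3 0 = 0 := c2 (by have : y 3 0 = -y 3 0 := s 0 0; linear_combination this)
  have s01 : y 3 1 = y 2 0 := neg_injective (s 0 1).symm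
  have s02 : y 3 2 = y 1 0 := neg_injective (s 0 2).symm
  have s03 : y 3 3 = -y 0 0 := by have : y 0 0 = -y 3 3 := s 0 3; linear_combination this
  have s11 : y 2 1 = 0 := c2 (by have : -y 2 1 = - -y 2 1 := s 1 1; linear_combination -this)
  have s12 : y 2 2 = -y 1 1 := by have : -y 1 1 = - -y 2 2 := s 1 2; linear_combination -this
  have s13 : y 2 3 = y 0 1 := by have : y 0 1 = - -y 2 3 := s 1 3; linear_combination -this
  have s22 : y 1 2 = 0 := c2 (by have : -y 1 2 = - -y 1 2 := s 2 2; linear_combination -this)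
  have s23 : y 1 3 = y 0 2 := by have : y 0 2 = - -y 1 3 := s 2 3; linear_combination -this
  have s33 : y 0 3 = 0 := c2 (by have : y 0 3 = -y 0 3 := s 3 3; linear_combination this)
  have m00 := m 0 0; have m11 := m 1 1; have m01 := m 0 1; have m02 := m 0 2; have m03 := m 0 3
  have m20 := m 2 0; have m21 := m 2 1
  simp [mul_apply, Fin.sum_univ_four, -mul_eq_zero] at m00 m11 m01 m02 m03 m20 m21
  change y 3 1 * -y 1 3 - y 3 2 * -y 2 3 + y 3 3 * -y 2 2 = μ at hp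
  simp only [s00, s01, s02, s03, s11, s12, s13, s22, s23, s33] at hp m00 m11 m01 m02 m03 m20 m21
  have c4 : ∀ {a : F}, 2 * (2 * (μ * a)) = 0 → a = 0 := fun h =>
    (mul_eq_zero.1 (c2 (c2 h))).resolve_left hμ
  have k : (y 0 0 - y 1 1) ^ 2 + 4 * (y 0 1 * y 1 0) = 4 * μ := by
    linear_combination m00 + m11 + 2 * hp
  have e1 : y 0 2 = 0 := c4 (by
    linear_combination (-y 0 2) * k + (y 0 0 - y 1 1) * m02 + 2 * y 1 0 * m03)
  have e2 : y 2 0 = 0 := c4 (by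
    linear_combination (-y 2 0) * k + (y 0 0 - y 1 1) * m20 + 2 * y 1 0 * m21)
  have e3 : y 0 0 + y 1 1 = 0 := c4 (by
    linear_combination (-(y 0 0 + y 1 1)) * k + (y 0 0 - y 1 1) * (m00 - m11) + 4 * y 1 0 * m01)
  refine ⟨!![y 0 0, y 0 1; y 1 0, y 1 1], ?_⟩
  ext i j
  fin_cases i <;> fin_cases j <;>
    simp [psi4_apply, s00, s01, s02, s03, s11, s12, s13, s22, s23, s33, e1, e2] <;>
    linear_combination e3

theorem cj_psi4 (h2 : (2 : F) ≠ 0) {t : GL (Fin 4) F} {l : F}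
    (ht : (t : Matrix (Fin 4) (Fin 4) F)ᵀ * G4 F * t = l • G4 F)
    (hd : (t : Matrix (Fin 4) (Fin 4) F).det = l ^ 2) (x : Matrix (Fin 2) (Fin 2) F) :
    cj t (psi4 F x) ∈ (psi4 F).range := by
  have key : ∀ a b c : F, a ^ 2 + b * c ≠ 0 →
      cj t (psi4 F !![a, b; c, -a]) ∈ (psi4 F).range := fun a b c hμ => by
    set u := ((t⁻¹ : GL (Fin 4) F) : Matrix (Fin 4) (Fin 4) F) with hu
    have h1 : G4 F * cj t (psi4 F !![a, b; c, -a]) =
        l • (uᵀ * !![0, 0, c, -a; -0, 0, -a, -b; -c, - -a, 0, 0; - -a, - -b, -0, 0] * u) := by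
      have h3 : G4 F * psi4 F !![a, b; c, -a] =
          !![0, 0, c, -a; -0, 0, -a, -b; -c, - -a, 0, 0; - -a, - -b, -0, 0] := by
        rw [G4_mul, psi4_apply]; simp
      have h4 : G4 F * t = l • (uᵀ * G4 F) := by
        rw [← mul_smul_comm, ← ht, ← mul_assoc, ← mul_assoc, ← transpose_mul, Units.mul_inv,
          transpose_one, one_mul]
      rw [← h3, cj_apply, ← mul_assoc, ← mul_assoc, h4, smul_mul_assoc, smul_mul_assoc,
        mul_assoc uᵀ]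
    refine core_four h2 hμ ?_ ?_ ?_
    · rw [← map_mul, ← map_mul, show !![a, b; c, -a] * !![a, b; c, -a] =
        (a ^ 2 + b * c) • (1 : Matrix (Fin 2) (Fin 2) F) by
          ext i j; fin_cases i <;> fin_cases j <;> simp <;> ring, map_smul, map_smul, map_one,
        map_one]
    · rw [h1, transpose_smul, transpose_mul, transpose_mul, transpose_transpose, ← smul_neg,
        ← neg_mul, ← mul_neg, mul_assoc]
      congr 3
      ext i j; fin_cases i <;> fin_cases j <;> simp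
    · have h5 : u.det * l ^ 2 = 1 := by rw [← hd, ← det_mul, Units.inv_mul, det_one]
      have h6 := pf_conj 0 c (-a) (-a) (-b) 0 u
      rw [h1]
      simp only [pf, Matrix.smul_apply, smul_eq_mul] at h6 ⊢
      linear_combination l ^ 2 * h6 + (a ^ 2 + b * c) * h5
  have hx : x = (2⁻¹ * (x 0 0 + x 1 1)) • (1 : Matrix (Fin 2) (Fin 2) F) +
      (2⁻¹ * (x 0 0 - x 1 1)) • !![1, 0; 0, -1] + (2⁻¹ * (x 0 1 + x 1 0)) • !![0, 1; 1, -0] +
      (2⁻¹ * (x 0 1 - x 1 0)) • !![0, 1; -1, -0] := by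
    ext i j; fin_cases i <;> fin_cases j <;> simp <;> field_simp <;> ring
  rw [hx]
  simp only [map_add, map_smul, map_one]
  exact add_mem (add_mem (add_mem (Subalgebra.smul_mem _ (one_mem _) _)
    (Subalgebra.smul_mem _ (key 1 0 0 (by simp)) _)) (Subalgebra.smul_mem _ (key 0 1 1 (by simp)) _))
    (Subalgebra.smul_mem _ (key 0 1 (-1) (by simp)) _)

/-- the determinant form -/
def S4 (F : Type*) [Field F] : SF (Fin 4) F where
  σ := RingHom.id F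
  σσ _ := rfl
  G := ⟨G4 F, G4 F, G4_mul_G4, G4_mul_G4⟩
  ε := 1
  hε := Or.inl rfl
  herm := by
    rw [cT_id, one_smul]
    ext i j; fin_cases i <;> fin_cases j <;> simp [G4]

theorem det_G4 : (G4 F).det = 1 := by
  simp [G4, det_succ_row_zero, Fin.sum_univ_succ, Fin.succAbove]
  ring

theorem G4_mul_psi4 (x : Matrix (Fin 2) (Fin 2) F) :
    G4 F * psi4 F x.adjugate = (psi4 F x)ᵀ * G4 F := by
  rw [G4_mul, psi4_apply, psi4_apply, adjugate_fin_two]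
  ext i j; fin_cases i <;> fin_cases j <;> simp [G4, mul_apply, Fin.sum_univ_four]

/-- The proper similarities of a `4`-dimensional form of plus type normalise a matrix algebra. -/
theorem exists_psi_four [Finite F] (S : SF (Fin 4) F) (h2 : (2 : F) ≠ 0) (hσ : ∀ a, S.σ a = a)
    (hε : S.ε = 1) (hd : IsSquare (S.G : Matrix (Fin 4) (Fin 4) F).det) :
    ∃ ψ : Matrix (Fin 2) (Fin 2) F →ₐ[F] Matrix (Fin 4) (Fin 4) F,
      (∀ x, S.st (ψ x) ∈ ψ.range) ∧ ∀ (t : GL (Fin 4) F) (l : F),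
        S.st t * (t : Matrix (Fin 4) (Fin 4) F) = l • (1 : Matrix (Fin 4) (Fin 4) F) →
        (t : Matrix (Fin 4) (Fin 4) F).det = l ^ 2 → ∀ x, cj t (ψ x) ∈ ψ.range := by
  obtain ⟨g, hg⟩ := exists_pull_eq S (S4 F) h2 hσ hε (fun _ => rfl) rfl (by
    change IsSquare ((G4 F).det * _)
    rwa [det_G4, one_mul])
  have hG := (S.pull (Equiv.refl _) g).G_mul_st hσ
  rw [hg] at hG
  change ∀ x, G4 F * _ = _ * G4 F at hG
  refine ⟨(tr (Equiv.refl _) g).toAlgHom.comp (psi4 F), fun x => ⟨x.adjugate, ?_⟩,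
    fun t l h1 h3 x => ?_⟩
  · change tr _ g _ = S.st (tr _ g _)
    rw [S.st_tr]
    congr 1
    apply (S4 F).G.isUnit.mul_right_inj.1
    exact (G4_mul_psi4 x).trans (hG _).symm
  · obtain ⟨t, rfl⟩ := (trGL (Equiv.refl (Fin 4)) g).surjective t
    rw [coe_trGL] at h1 h3
    rw [det_tr] at h3
    rw [S.st_tr, ← map_mul, ← map_one (tr (Equiv.refl _) g), ← map_smul,
      (tr (Equiv.refl _) g).injective.eq_iff] at h1
    obtain ⟨y, hy⟩ := cj_psi4 h2 (by rw [← hG, mul_assoc, h1, mul_smul_comm, mul_one]) h3 x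
    exact ⟨y, (congrArg (tr (Equiv.refl _) g) hy).trans (cj_trGL _ _ _ _).symm⟩

end Four

section Tens

variable {n₁ n₂ : ℕ} {e : ι ≃ Fin n₁ × Fin n₂} {P : GL ι F} {S₁ : SF (Fin n₁) F}
  {S₂ : SF (Fin n₂) F}

/-- symmetric factors -/
def TSym (S₁ : SF (Fin n₁) F) (S₂ : SF (Fin n₂) F) : Prop := (2 : F) ≠ 0 ∧ S₁.ε = 1 ∧ S₂.ε = 1

/-- alternating factors -/
def TAlt (Q : QuadraticForm F (ι → F)) (e : ι ≃ Fin n₁ × Fin n₂) (P : GL ι F)
    (S₁ : SF (Fin n₁) F) (S₂ : SF (Fin n₂) F) : Prop :=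
  (∀ v, S₁.f v v = 0) ∧ (∀ v, S₂.f v v = 0) ∧ ∀ x y, Q ((P : Matrix ι ι F) *ᵥ (pt x y ∘ e)) = 0

theorem OQ.σ₁ (h : OQ S Q) (T : IsTens S H e P S₁ S₂) (a : F) : S₁.σ a = a := by
  rw [T.σ₁, h.hσ]

theorem OQ.σ₂ (h : OQ S Q) (T : IsTens S H e P S₁ S₂) (a : F) : S₂.σ a = a := by
  rw [T.σ₂, h.hσ]

theorem tens_card (T : IsTens S H e P S₁ S₂) : Fintype.card ι = n₁ * n₂ := by
  simpa using T.card_eq

theorem OQ.tens_cases [Finite F] (h : OQ S Q) (hH : FixQ H Q) (hI : Irr H)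
    (T : IsTens S H e P S₁ S₂) (h₁ : 2 ≤ n₁) (h₂ : 2 ≤ n₂) : TSym S₁ S₂ ∨ TAlt Q e P S₁ S₂ := by
  by_cases h2 : (2 : F) = 0
  · obtain ⟨a, b, Q', c, d, hz⟩ := T.exists_fixQ h2 h.hσ (h.le_isom hH) hI (by simpa) (by simpa)
    have := SF.IsQ.unique h2 hI (nrmS_self H) (exists_ne_one_of_irr' hI
      (by rw [tens_card T]; nlinarith)) (h.le_isom hH) h.isQ c hH d
    exact Or.inr ⟨a, b, by rw [this]; exact hz⟩
  have h3 : (1 : F) ≠ -1 := fun h => h2 (by linear_combination h)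
  have h4 := T.ε
  rw [h.hε] at h4
  rcases S₁.hε with a | a <;> rcases S₂.hε with b | b <;> rw [a, b] at h4
  · exact Or.inl ⟨h2, a, b⟩
  · exact absurd (by simpa using h4) h3
  · exact absurd (by simpa using h4) h3
  · have a' := S₁.ε_eq_neg_one_alt h2 (h.σ₁ T) a
    refine Or.inr ⟨a', S₂.ε_eq_neg_one_alt h2 (h.σ₂ T) b, fun x y => ?_⟩
    apply (mul_eq_zero.1 _).resolve_left h2
    rw [← h.f_self, ← S.pull_f, T.f_pt, a', zero_mul]

theorem OQ.tens_plus_iff [Finite F] (h : OQ S Q) (h2 : (2 : F) ≠ 0) {m : ℕ}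
    (hm : Fintype.card ι = 2 * m) (T : IsTens S H e P S₁ S₂) :
    Plus Q ⊤ ↔ IsSquare ((-1) ^ m * ((S₁.G : Matrix (Fin n₁) (Fin n₁) F).det ^ n₂ *
      (S₂.G : Matrix (Fin n₂) (Fin n₂) F).det ^ n₁)) := by
  rw [h.plus_iff_det h2 hm e P, T.G, coe_kronGL, det_kronecker, Fintype.card_fin, Fintype.card_fin]

theorem plus_of_pure {e : ι ≃ Fin 2 × Fin n₂}
    (hQ : ∀ x y, Q ((P : Matrix ι ι F) *ᵥ (pt x y ∘ e)) = 0) : Plus Q ⊤ := by
  let φ : (Fin n₂ → F) →ₗ[F] (ι → F) :=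
    { toFun := fun y => (P : Matrix ι ι F) *ᵥ (pt (Pi.single 0 1) y ∘ e)
      map_add' := fun y y' => by
        rw [← mulVec_add]; congr 1; ext i; simp [pt, mul_add]
      map_smul' := fun c y => by
        rw [← mulVec_smul]; congr 1; ext i; simp [pt, mul_left_comm] }
  have hφ : Function.Injective φ := fun y y' hy => by
    have := SF.coord_injective e P hy
    ext j
    simpa [pt] using congrFun this (0, j)
  refine ⟨LinearMap.range φ, le_top, ?_, ?_⟩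
  · rintro _ ⟨y, rfl⟩
    exact hQ _ _
  · rw [LinearMap.finrank_range_of_inj hφ, finrank_top, finrank_V, finrank_V,
      Fintype.card_congr e]
    simp

theorem OQ.plus_two [Finite F] (h : OQ S Q) (hH : FixQ H Q) (hI : Irr H) {e : ι ≃ Fin 2 × Fin n₂}
    {S₁ : SF (Fin 2) F} (T : IsTens S H e P S₁ S₂) (h₂ : 2 ≤ n₂) (he : Even n₂) : Plus Q ⊤ := by
  rcases h.tens_cases hH hI T le_rfl h₂ with ⟨h2, -⟩ | ⟨-, -, hz⟩
  · rw [h.tens_plus_iff h2 (tens_card T) T, he.neg_one_pow, one_mul]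
    exact (he.isSquare_pow _).mul (IsSquare.sq _)
  · exact plus_of_pure hz

theorem OQ.two_ne_of_odd [Finite F] (h : OQ S Q) (hn : Odd (Fintype.card ι)) : (2 : F) ≠ 0 :=
  two_ne_zero_of_odd_nd (Q := Q) (W := ⊤) (by rw [ND, ← h.hf]; exact S.nondeg_top)
    (by rwa [finrank_top, finrank_V])

theorem OQ.sym_of_odd [Finite F] (h : OQ S Q) (hH : FixQ H Q) (hI : Irr H)
    (T : IsTens S H e P S₁ S₂) (h₁ : 2 ≤ n₁) (h₂ : 2 ≤ n₂) (ho : Odd n₁ ∨ Odd n₂) :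
    TSym S₁ S₂ := by
  refine (h.tens_cases hH hI T h₁ h₂).resolve_right fun ⟨a, b, _⟩ => ?_
  have h1 := even_of_alt S₁ (h.σ₁ T) a
  have h3 := even_of_alt S₂ (h.σ₂ T) b
  rw [Fintype.card_fin, ← Nat.not_odd_iff_even] at h1 h3
  exact ho.elim h1 h3

theorem OQ.prim₁ (h : OQ S Q) (hH : FixQ H Q) (hP : S.Prim H) (T : IsTens S H e P S₁ S₂)
    (h₁ : 2 ≤ n₁) (h₂ : 2 ≤ n₂) : S₁.Prim (similarityGroup S₁.f) :=
  have : Nonempty (Fin n₁) := ⟨⟨0, by omega⟩⟩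
  have : Nonempty (Fin n₂) := ⟨⟨0, by omega⟩⟩
  T.prim_left (h.le_sim hH) hP

theorem OQ.alt_of_two [Fintype F] (h : OQ S Q) (hH : FixQ H Q) (hI : Irr H) (hP : S.Prim H)
    {e : ι ≃ Fin 2 × Fin n₂} {S₁ : SF (Fin 2) F} (T : IsTens S H e P S₁ S₂) (h₂ : 2 ≤ n₂) :
    3 ≤ Fintype.card F ∧ TAlt Q e P S₁ S₂ := by
  have hp := h.prim₁ hH hP T le_rfl h₂
  refine ⟨?_, (h.tens_cases hH hI T le_rfl h₂).resolve_left fun ⟨h2, a, _⟩ =>
    S₁.not_prim_two h2 (h.σ₁ T) a hp⟩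
  by_contra h3
  have : 1 < Fintype.card F := Fintype.one_lt_card
  exact not_prim_GL22 (by omega) S₁ (h.σ₁ T) hp

theorem OQ.five_le_of_three [Fintype F] (h : OQ S Q) (hH : FixQ H Q) (hP : S.Prim H)
    {e : ι ≃ Fin 3 × Fin n₂} {S₁ : SF (Fin 3) F} (T : IsTens S H e P S₁ S₂) (h₂ : 2 ≤ n₂)
    (hε : S₁.ε = 1) : Fintype.card F ≠ 3 := fun h3 =>
  S₁.not_prim_O33 h3 (h.σ₁ T) hε (h.prim₁ hH hP T (by norm_num) h₂)

theorem OQ.plus_iff_three_four [Finite F] (h : OQ S Q) {e : ι ≃ Fin 3 × Fin 4}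
    {S₁ : SF (Fin 3) F} {S₂ : SF (Fin 4) F} (T : IsTens S H e P S₁ S₂) (h2 : (2 : F) ≠ 0) :
    Plus Q ⊤ ↔ IsSquare (S₂.G : Matrix (Fin 4) (Fin 4) F).det := by
  rw [h.tens_plus_iff h2 (m := 6) (tens_card T :) T, ← H66.isSquare_sq_mul_iff
    (mul_ne_zero (pow_ne_zero 2 (det_G_ne S₁)) (det_G_ne S₂)) (a := Matrix.det _)]
  congr! 1
  ring

/-- `O_3 ⊗ O_4^+` lies in `Sp_2 ⊗ Sp_6` -/
theorem OQ.two_six_of_three_four [Finite F] (h : OQ S Q) (hH : H ≤ omegaGL Q) (hp : Plus Q ⊤)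
    {e : ι ≃ Fin 3 × Fin 4} {S₁ : SF (Fin 3) F} {S₂ : SF (Fin 4) F} (T : IsTens S H e P S₁ S₂)
    (hs : TSym S₁ S₂) : ∃ (e : ι ≃ Fin 2 × Fin 6) (P : GL ι F) (S₁ : SF (Fin 2) F)
      (S₂ : SF (Fin 6) F), IsTens S H e P S₁ S₂ := by
  obtain ⟨h2, -, hε⟩ := hs
  obtain ⟨ψ, hC, hN⟩ := exists_psi_four S₂ h2 (h.σ₂ T) hε ((h.plus_iff_three_four T h2).1 hp)
  have T' := T.swap
  obtain ⟨m, e', P', hψ⟩ := exists_tr_kron ((psiL (e.trans (Equiv.prodComm _ _)) P).comp ψ)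
  have hψ' : (psiL (e.trans (Equiv.prodComm _ _)) P).comp ψ = psiL e' P' := AlgHom.ext hψ
  obtain rfl : m = 6 := by
    have h1 := Fintype.card_congr e'
    rw [tens_card T] at h1
    simp at h1
    omega
  refine ⟨e', P', (S.exists_isTens (H := H) e' P' (hψ' ▸ ?_) (hψ' ▸ ?_)).imp fun _ h =>
    h.imp fun _ h => h.1⟩
  · rintro g hg _ ⟨x, rfl⟩
    obtain ⟨t, s, rfl⟩ := T'.mem g hg
    have hi := h.le_isom (fixQ_of_le hH) hg
    obtain ⟨⟨l, hl⟩, ⟨c, hc⟩⟩ := T'.sim_of_kron (S.isom_le_sim hi)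
    have h1 := S₂.st_mul_self_of_sim hl
    have h3 := S₁.st_mul_self_of_sim hc
    rw [h.σ₂ T] at h1
    rw [h.σ₁ T] at h3
    have h4 : (l : F) * c = 1 := by
      rw [SF.trGL_mem_isom, SF.mem_isom_iff_st, coe_kronGL, T'.st_kron, ← mul_kronecker_mul, h1, h3,
        smul_kronecker, kronecker_smul, one_kronecker_one, smul_smul] at hi
      simpa using congrFun (congrFun hi (0, 0)) (0, 0)
    have h5 := det_eq_one_of_mem (hH hg)
    rw [coe_trGL, det_tr, coe_kronGL, det_kronecker] at h5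
    have h6 := congrArg Matrix.det h1
    have h7 := congrArg Matrix.det h3
    rw [det_mul, det_st _ (h.σ₂ T), det_smul, det_one] at h6
    rw [det_mul, det_st _ (h.σ₁ T), det_smul, det_one] at h7
    simp only [Fintype.card_fin] at h5 h6 h7
    obtain ⟨y, hy⟩ := hN t l h1 (by
      set a := (t : Matrix (Fin 4) (Fin 4) F).det
      set b := (s : Matrix (Fin 3) (Fin 3) F).det
      have h8 : a * ((l : F) * c) ^ 6 = l ^ 2 * (a ^ 3 * b ^ 4) := by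
        rw [show a ^ 3 * b ^ 4 = a * (a * a) * (b * b) ^ 2 by ring, h6, h7]; ring
      rwa [h4, h5, one_pow, mul_one, mul_one] at h8) x
    refine ⟨y, ?_⟩
    change psiL _ P (ψ y) = cj _ (psiL _ P (ψ x))
    rw [psiL_apply, psiL_apply, cj_trGL, cj_kronGL, map_one, ← hy]
    rfl
  · rintro _ ⟨x, rfl⟩
    obtain ⟨y, hy⟩ := hC x
    exact ⟨y, (congrArg (psiL _ P) hy).trans (T'.st_psiL _).symm⟩

end Tens

/-- the tensor powers that are listed -/
def Wr [Fintype F] (S : SF ι F) (H : Subgroup (GL ι F)) : Prop :=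
  ∃ (k t : ℕ) (e : ι ≃ (Fin t → Fin k)) (P : GL ι F) (T : SF (Fin k) F), 3 ≤ k ∧ 2 ≤ t ∧
    ¬ (Fintype.card F = 3 ∧ k = 3) ∧ T.ε = 1 ∧ IsWr S H e P fun _ => T

theorem OQ.wr_of [Fintype F] (h : OQ S Q) (hH : FixQ H Q) (hP : S.Prim H)
    (hn : Odd (Fintype.card ι)) {t k : ℕ} (ht : 2 ≤ t) (hk : 2 ≤ k) {e : ι ≃ (Fin t → Fin k)}
    {P : GL ι F} {T : SF (Fin k) F} (W : IsWr S H e P fun _ => T) : Wr S H := by
  have : NeZero t := ⟨by omega⟩
  have : NeZero k := ⟨by omega⟩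
  have hσ : ∀ a, T.σ a = a := by rw [W.σ 0]; exact h.hσ
  have ho : Odd k := by
    rw [W.card_eq] at hn
    exact (Nat.odd_pow_iff (by omega)).1 hn
  have hε : T.ε = 1 := T.hε.resolve_right fun h1 => by
    have := even_of_alt T hσ (T.ε_eq_neg_one_alt (h.two_ne_of_odd hn) hσ h1)
    rw [Fintype.card_fin, ← Nat.not_odd_iff_even] at this
    exact this ho
  refine ⟨k, t, e, P, T, by obtain ⟨j, rfl⟩ := ho; omega, ht, ?_, hε, W⟩
  rintro ⟨h3, rfl⟩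
  exact T.not_prim_O33 h3 hσ hε (W.prim (h.le_sim hH) hP)

/-- the tensor products that are listed in odd dimension -/
def Tn (S : SF ι F) (H : Subgroup (GL ι F)) : Prop :=
  ∃ (n₁ n₂ : ℕ) (e : ι ≃ Fin n₁ × Fin n₂) (P : GL ι F) (S₁ : SF (Fin n₁) F) (S₂ : SF (Fin n₂) F),
    3 ≤ n₁ ∧ n₁ < n₂ ∧ TSym S₁ S₂ ∧ IsTens S H e P S₁ S₂

theorem OQ.tens_odd [Fintype F] (h : OQ S Q) (hH : FixQ H Q) (hI : Irr H) (hP : S.Prim H)
    (hn : Odd (Fintype.card ι)) {n₁ n₂ : ℕ} {e : ι ≃ Fin n₁ × Fin n₂} {P : GL ι F}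
    {S₁ : SF (Fin n₁) F} {S₂ : SF (Fin n₂) F} (T : IsTens S H e P S₁ S₂) (h₁ : 2 ≤ n₁)
    (h₂ : n₁ ≤ n₂) : Tn S H ∨ Wr S H := by
  have ho : Odd n₁ := by rw [tens_card T] at hn; exact (Nat.odd_mul.1 hn).1
  have hs := h.sym_of_odd hH hI T h₁ (by omega) (Or.inl ho)
  rcases h₂.lt_or_eq with h₂ | rfl
  · exact Or.inl ⟨n₁, n₂, e, P, S₁, S₂, by obtain ⟨j, rfl⟩ := ho; omega, h₂, hs, T⟩
  obtain ⟨g, c, hg⟩ := exists_pull_eq_odd S₂ S₁ hs.1 (h.σ₂ T) hs.2.2 (h.σ₁ T) hs.2.1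
    (by rwa [Fintype.card_fin])
  refine Or.inr (h.wr_of hH hP hn le_rfl h₁ ((T.isWr.change ![1, g]).of_prop (T' := fun _ => S₁)
    (fun _ => T.σ₁) fun i => ?_))
  fin_cases i
  · exact ⟨1, by rw [map_one, one_mul]; exact pull_refl_one S₁⟩
  · exact ⟨c, hg⟩

theorem OQ.plus_of_comps [Fintype F] (h : OQ S Q) (hH : FixQ H Q) (hn : Fintype.card ι = 8)
    {t k : ℕ} {L : Fin t → Subgroup (GL ι F)}
    {ψ : Fin t → (Matrix (Fin k) (Fin k) F →ₐ[F] Matrix ι ι F)} {e : ι ≃ (Fin t → Fin k)}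
    {P : GL ι F} (hC : Comps H L ψ e P) : Plus Q ⊤ := by
  have ht := hC.two_le_t
  have hk := hC.two_le_k
  have : NeZero t := ⟨by omega⟩
  obtain rfl : k = 2 := by
    have h1 : k ^ t = 8 := by rw [← hn, Fintype.card_congr e]; simp
    have : k ^ 2 ≤ k ^ t := Nat.pow_le_pow_right (by omega) ht
    nlinarith
  obtain ⟨m, e', P', hψ⟩ := exists_tr_kron (ψ 0)
  have hψ' : (psiL e' P').range = spanA F (L 0) := by
    rw [← hC.range, show ψ 0 = psiL e' P' from AlgHom.ext hψ]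
  obtain rfl : m = 4 := by
    have h1 := Fintype.card_congr e'
    simp [hn] at h1
    omega
  have hN := FixQ_mono hH hC.minN_iSup.le
  obtain ⟨S₁, S₂, T, -⟩ := S.exists_isTens (H := ⨆ j, L j) e' P'
    (hψ' ▸ nrm_spanA (comps_nrmS hC 0)) (hψ' ▸ S.cl_spanA ((hC.le 0).trans (h.le_sim hH)))
  exact h.plus_two hN (irr_of_spanA_eq_top hC.span) T (by norm_num) (by decide)

theorem OQ.ea [Fintype F] [Nontrivial ι] (h : OQ S Q) (hH : H ≤ omegaGL Q) {r : ℕ}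
    {N : Subgroup (GL ι F)} (hN : N ≤ H) (hE : IsEA r N) :
    ∃ m, 1 ≤ m ∧ Fintype.card ι = 2 ^ m ∧ (2 ≤ m → Plus Q ⊤) := by
  obtain ⟨ζ, h1, h3, h4⟩ := S.isEA_comm_isom hE (hN.trans (h.le_sim (fixQ_of_le hH)))
  rw [h.hσ] at h4
  have h5 : ζ ≠ 1 := by rintro rfl; rw [orderOf_one] at h1; exact hE.prime.one_lt.ne h1
  have h6 : (ζ : F) = -1 := (mul_self_eq_one_iff.1 h4).resolve_left fun h => h5 (Units.ext h)
  have h2 : (2 : F) ≠ 0 := fun h2 => h5 (Units.ext (by rw [h6, Units.val_one]; linear_combination -h2))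
  obtain rfl : r = 2 := by
    rw [← h1]
    exact orderOf_eq_prime (Units.ext (by rw [Units.val_pow_eq_pow_val, h6]; simp)) h5
  obtain ⟨m, hm, hc⟩ := hE.exists_card_eq
  refine ⟨m, hm, hc, fun hm2 => ?_⟩
  obtain ⟨j, rfl⟩ := Nat.exists_eq_add_of_le hm2
  obtain ⟨k, hk, hk'⟩ := exists_O_of_mem (hH (hN h3))
  have h7 : k = negO Q := O.ext fun v => by
    rw [hk', coe_sc, h6, negO_apply, neg_smul, one_smul, neg_mulVec, one_mulVec]
  rw [h7, negO_mem_Om_iff h.nd h2 (Pi.basisFun F ι) ⟨2 ^ (j + 1), by rw [hc]; ring⟩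
    (H66.gramDet_ne_zero h.nd' _)] at hk
  rw [h.plus_iff_det' h2 (m := 2 * 2 ^ j) (by rw [hc]; ring), pow_mul, neg_one_sq, one_pow,
    one_mul, h.det_G]
  exact hk

theorem OQ.core [Fintype F] (h : OQ S Q) (hH : FixQ H Q) (hn : 2 ≤ Fintype.card ι)
    {P : Subgroup (GL ι F)} (hP : PreCore H P) : Sub Q H ∨ InOrthogonalResidualClass H := by
  by_cases hs : ∀ F₀ : Subfield F, F₀ ≠ ⊤ → ¬ RealisableOver F₀ (matrixSet P)
  swap
  · push Not at hs
    obtain ⟨F₀, h0, hR⟩ := hs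
    exact Or.inl (h.sub_of_realisable hn (FixQ_mono hH hP.le) hP.nrm hP.span h0 hR)
  have : Nonempty ι := Fintype.card_pos_iff.1 (by omega)
  refine Or.inr ⟨P, hP.isResidualCore hs, ?_⟩
  rintro ⟨τ, f', hf, hfix⟩
  have h1 := isSesq_of_unitary hf
  rw [h1.eq_gform, fixesForm_gform_iff] at hfix
  refine hs _ (eqLocus_ne_top (σ := (τ : F →+* F)) fun h => hf.ne_refl
    (RingEquiv.ext fun a => RingHom.congr_fun h a))
    (realisableOver_iff.2 (realisableOver_of_trace hP.span fun g hg => ?_))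
  change (τ : F →+* F) _ = _
  rw [← fixes_trace_inv (h1.isUnit_gram hf.nondegenerate) hfix hg,
    S.trace_inv (h.le_isom hH (hP.le hg)), h.hσ]
  rfl

/-- the primitive cases -/
def PrimOut [Fintype F] (S : SF ι F) (Q : QuadraticForm F (ι → F)) (H : Subgroup (GL ι F)) : Prop :=
  (∃ (n₁ n₂ : ℕ) (e : ι ≃ Fin n₁ × Fin n₂) (P : GL ι F) (S₁ : SF (Fin n₁) F) (S₂ : SF (Fin n₂) F),
    2 ≤ n₁ ∧ n₁ ≤ n₂ ∧ IsTens S H e P S₁ S₂) ∨
  (∃ m, 1 ≤ m ∧ Fintype.card ι = 2 ^ m ∧ (2 ≤ m → Plus Q ⊤)) ∨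
  ∃ (k t : ℕ) (e : ι ≃ (Fin t → Fin k)) (P : GL ι F) (T : SF (Fin k) F), 2 ≤ k ∧ 2 ≤ t ∧
    (IsWr S H e P fun _ => T) ∧ (Fintype.card ι = 8 → Plus Q ⊤)

theorem OQ.main [Fintype F] (h : OQ S Q) (hH : H ≤ omegaGL Q) (hn : 2 ≤ Fintype.card ι)
    (hI : Irr H) : Sub Q H ∨ (∃ (t k : ℕ) (D : Fin t → Submodule F (ι → F)), Dec Q H k D) ∨
      (∃ k, Pair Q H k) ∨ (∃ r K, Fld S H r K) ∨ (S.Prim H ∧ PrimOut S Q H) ∨
      InOrthogonalResidualClass H := by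
  have : Nontrivial ι := Fintype.one_lt_card_iff_nontrivial.1 hn
  have hQ := fixQ_of_le hH
  by_cases hP : S.Prim H
  swap
  · rcases h.comm_cases hH hI hn hP with ⟨t, k, D, a, b⟩ | h1 | h1
    · exact (h.dec_cases hQ hI a b).imp_right Or.inl
    · exact Or.inr (Or.inr (Or.inl h1))
    · exact Or.inr (Or.inr (Or.inr (Or.inl h1)))
  rcases hP.tens_or_prim (h.le_sim hQ) hI with ⟨n₁, n₂, e, P, S₁, S₂, h₁, h₂, T, -⟩ | h1
  · refine Or.inr (Or.inr (Or.inr (Or.inr (Or.inl ⟨hP, Or.inl ?_⟩))))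
    rcases le_total n₁ n₂ with h3 | h3
    · exact ⟨_, _, _, _, _, _, h₁, h3, T⟩
    · exact ⟨_, _, _, _, _, _, h₂, h3, T.swap⟩
  rcases h1.cases hI with ⟨r, N, hN, hE⟩ | ⟨t, k, L, ψ, e, P, hC⟩ | ⟨P, hC⟩
  · exact Or.inr (Or.inr (Or.inr (Or.inr (Or.inl ⟨hP, Or.inr (Or.inl (h.ea hH hN.le hE))⟩))))
  · obtain ⟨T, W, -⟩ := S.isWr_of_comps (h.le_sim hQ) hC
    exact Or.inr (Or.inr (Or.inr (Or.inr (Or.inl ⟨hP, Or.inr (Or.inr
      ⟨k, t, e, P, T, hC.two_le_k, hC.two_le_t, W, fun h8 => h.plus_of_comps hQ h8 hC⟩)⟩))))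
  · exact (h.core hQ hn hC).imp_right fun h => Or.inr (Or.inr (Or.inr (Or.inr h)))

end H12.A
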