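import Mathlib
import Cfsg.Agent.Lib.Orth12.Asch6

/-!
Aschbacher classes for orthogonal groups, part 7: odd dimension and maximal subgroups.
-/

set_option autoImplicit false
set_option linter.unusedSectionVars false

namespace H12.A

open Matrix Cfsg Cfsg.Geo H10.Asch H28.AF Module QuadraticMap
open scoped MatrixGroups Kronecker

variable {ι : Type} [Fintype ι] [DecidableEq ι] {F : Type*} [Field F] [Fintype F]
  {S : SF ι F} {Q : QuadraticForm F (ι → F)} {H : Subgroup (GL ι F)}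

theorem odd_card_iff : Odd (Fintype.card F) ↔ (2 : F) ≠ 0 := by
  refine ⟨fun ⟨k, hk⟩ h2 => ?_, fun h => by_contra fun h' => h (two_eq_zero_of_even h')⟩
  have := FiniteField.cast_card_eq_zero F
  rw [hk] at this
  push_cast at this
  rw [h2, zero_mul, zero_add] at this
  exact one_ne_zero this

theorem five_le_card (h : Odd (Fintype.card F)) (h3 : Fintype.card F ≠ 3) : 5 ≤ Fintype.card F := by
  have : 1 < Fintype.card F := Fintype.one_lt_card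
  obtain ⟨k, hk⟩ := h
  omega

theorem isSquare_neg_one_five (h2 : (2 : F) ≠ 0) :
    (IsSquare ((-1 : F) ^ 5) ↔ Fintype.card F % 4 = 1) ∧
      (¬ IsSquare ((-1 : F) ^ 5) ↔ Fintype.card F % 4 = 3) := by
  have ho := odd_card_iff.2 h2
  rw [show (-1 : F) ^ 5 = (-1) ^ 1 by ring, H66.isSquare_neg_one_pow_iff rfl ho, pow_one]
  obtain ⟨k, hk⟩ := ho
  omega

theorem OQ.ts_ne_top (h : OQ S Q) {W : Submodule F (ι → F)} (h0 : W ≠ ⊥)
    (hW : IsTotallySingularQuad Q W) : W ≠ ⊤ := by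
  rintro rfl
  refine h0 ((Submodule.eq_bot_iff _).2 fun v _ => h.nd v fun x => ?_)
  rw [polar, hW _ trivial, hW _ trivial, hW _ trivial, sub_zero, sub_zero]

theorem Fld.dvd [Nonempty ι] {r : ℕ} {K : Subalgebra F (Matrix ι ι F)} (h : Fld S H r K) :
    r ∣ Fintype.card ι := by
  have := dvd_finrank_of_inv h.field (W := ⊤) fun _ _ _ _ => trivial
  rwa [finrank_top, finrank_V] at this

theorem Dec.card {t k : ℕ} {D : Fin t → Submodule F (ι → F)} (h : Dec Q H k D) :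
    t * k = Fintype.card ι ∧ 2 ≤ t := ⟨IsMDecomposition.mul_eq_card h.dec.decomp.decomp,
  h.dec.decomp.decomp.two_le⟩

theorem orth_two {k : ℕ} {D : Fin 2 → Submodule F (ι → F)}
    (hD : IsNondegenerateMDecomposition (polar Q) k D) (hi : AreIsometricFor Q (D 0) (D 1)) :
    IsOrthogonalMDecomposition Q k D := ⟨hD, fun i j => by
  obtain ⟨e, he⟩ := hi
  fin_cases i <;> fin_cases j
  · exact ⟨LinearEquiv.refl _ _, fun _ => rfl⟩
  · exact ⟨e, he⟩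
  · exact ⟨e.symm, fun w => by rw [← he (e.symm w), LinearEquiv.apply_symm_apply]⟩
  · exact ⟨LinearEquiv.refl _ _, fun _ => rfl⟩⟩

theorem pow_ne_of {k t n : ℕ} (hk : 2 ≤ k) (ht : 2 ≤ t) (hn : n < 16) (h4 : n ≠ 4) (h8 : n ≠ 8)
    (h9 : n ≠ 9) : k ^ t ≠ n := by
  rintro rfl
  have h1 : k ^ 2 ≤ k ^ t := Nat.pow_le_pow_right (by omega) ht
  have h2 : 2 ^ t ≤ k ^ t := Nat.pow_le_pow_left hk t
  have h3 : t < 4 := (Nat.pow_lt_pow_iff_right (a := 2) (by norm_num)).1 (h2.trans_lt hn)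
  have h5 : k < 4 := by nlinarith
  interval_cases k <;> interval_cases t <;> omega

theorem OQ.odd_cases (h : OQ S Q) (hH : H ≤ omegaGL Q) (hn : Odd (Fintype.card ι))
    (h5 : 5 ≤ Fintype.card ι) :
    (∃ W, W ≠ ⊥ ∧ IsTotallySingularQuad Q W ∧ Inv H W) ∨
    (∃ W : Submodule F (ι → F), W ≠ ⊥ ∧ W ≠ ⊤ ∧ Even (finrank F W) ∧ ND Q W ∧
      ¬ (Fintype.card F = 3 ∧ finrank F W = 2 ∧ Plus Q W) ∧ Inv H W) ∨
    (∃ (t k : ℕ) (D : Fin t → Submodule F (ι → F)), Dec Q H k D) ∨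
    (∃ r K, Fld S H r K ∧ Fintype.card ι ≠ r ∧ IsSelfAdjointFor (polar Q) K) ∨ Tn S H ∨ Sub Q H ∨
    Wr S H ∨ InOrthogonalResidualClass H := by
  have : Nonempty ι := Fintype.card_pos_iff.1 (by omega)
  have hQ := fixQ_of_le hH
  have h2 := h.two_ne_of_odd hn
  by_cases hI : Irr H
  swap
  · rcases h.red_cases hQ hI with h1 | ⟨h1, -⟩ | ⟨W, h0, hW, hi, hd, hx⟩
    · exact Or.inl h1
    · exact absurd h1 h2
    refine Or.inr (Or.inl ?_)
    rcases Nat.even_or_odd (finrank F W) with he | he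
    · exact ⟨W, h0, ne_top_of_finrank (by omega), he, hW, fun ⟨a, b⟩ => hx ⟨a.le, b⟩, hi⟩
    · have := S.finrank_perp_add W
      refine ⟨S.perp W, fun h3 => ?_, fun h3 => h0 (S.perp_eq_top.1 h3), ?_, h.nd_perp hW,
        fun ⟨_, b, _⟩ => by omega, S.inv_perp (h.le_sim hQ) hi⟩
      · rw [h3, finrank_bot] at this; omega
      · obtain ⟨a, ha⟩ := hn
        obtain ⟨b, hb⟩ := he
        exact ⟨a - b, by omega⟩
  refine Or.inr (Or.inr ?_)
  rcases h.main hH (by omega) hI with h1 | h1 | ⟨k, h1⟩ | ⟨r, K, h1⟩ | ⟨hP, h1⟩ | h1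
  · simp only [h1, true_or, or_true]
  · exact Or.inl h1
  · exact absurd hn (by rw [h1.card]; simp)
  · have hr : Odd r := hn.of_dvd_nat h1.dvd
    exact Or.inr (Or.inl ⟨r, K, h1, (h1.odd hr).1, h.hf ▸ S.isSelfAdjointFor_iff.2
      (S.selfAdjoint_of_odd h.hσ hr h1.field h1.cl)⟩)
  · rcases h1 with ⟨n₁, n₂, e, P, S₁, S₂, h₁, h₂, T⟩ | ⟨m, hm, hc, -⟩ |
      ⟨k, t, e, P, T, hk, ht, W, -⟩
    · rcases h.tens_odd hQ hI hP hn T h₁ h₂ with h3 | h3 <;> simp only [h3, true_or, or_true]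
    · exact absurd hn (by rw [hc, Nat.not_odd_iff_even]; exact (Nat.even_pow' (by omega)).2 even_two)
    · simp only [h.wr_of hQ hP hn ht hk W, true_or, or_true]
  · simp only [h1, or_true]

theorem OQ.tensorForm (h : OQ S Q) {n₁ n₂ : ℕ} {e : ι ≃ Fin n₁ × Fin n₂} {P : GL ι F}
    {S₁ : SF (Fin n₁) F} {S₂ : SF (Fin n₂) F} (T : IsTens S H e P S₁ S₂) :
    IsTensorFormStructure id (polar Q) S₁.f S₂.f e P := by
  have := T.isTensorFormStructure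
  rwa [h.hf, show ⇑S.σ = id from funext h.hσ] at this

theorem OQ.powerForm (h : OQ S Q) {k t : ℕ} {e : ι ≃ (Fin t → Fin k)} {P : GL ι F}
    {T : SF (Fin k) F} (W : IsWr S H e P fun _ => T) :
    IsTensorPowerFormStructure id (polar Q) T.f e P := by
  have := W.isTensorPower
  rwa [h.hf, show ⇑S.σ = id from funext h.hσ] at this

theorem exists_oq_odd (h2 : (2 : F) ≠ 0) (m : ℕ) : ∃ (Q : QuadraticForm F (Unit ⊕ (Fin m ⊕ Fin m) → F))
    (S : SF (Unit ⊕ (Fin m ⊕ Fin m)) F), ⇑Q = quadFormOdd m F ∧ OQ S Q ∧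
      ∀ F₀ : Subfield F, H66.gramDet Q (Pi.basisFun F _) ∈ F₀ := by
  obtain ⟨S, hS⟩ := exists_oq (nondeg_iff.2 (H66.qOdd_nd (m := m) h2 (one_ne_zero (α := F))))
  refine ⟨_, S, H66.coe_qOdd m, hS, fun F₀ => ?_⟩
  rw [H66.gramDet_qOdd]
  exact mul_mem (mul_mem (ofNat_mem _ 2) (one_mem _)) (pow_mem (neg_mem (one_mem _)) _)

section Max

variable (h : OQ S Q) (hM : IsMaximalIn (omegaGL Q) H) (hn : 7 ≤ Fintype.card ι)
include h hM hn

theorem OQ.eq1 {W : Submodule F (ι → F)} (h0 : W ≠ ⊥) (h1 : W ≠ ⊤) (hi : Inv H W) :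
    H = subspaceStabilizer W ⊓ omegaGL Q := eq_of_maximal hM hi.le (h.not_le_C1 hn h0 h1)

theorem OQ.eq2 {t k : ℕ} {D : Fin t → Submodule F (ι → F)} (hD : Dec Q H k D) :
    H = decompositionStabilizer D ⊓ omegaGL Q :=
  eq_of_maximal hM hD.le (h.not_le_C2 hn hD.dec.decomp.decomp)

theorem OQ.eq3 {r : ℕ} {K : Subalgebra F (Matrix ι ι F)} (hK : Fld S H r K)
    (hr : r + 5 ≤ Fintype.card ι) : H = subalgebraNormalizer K ⊓ omegaGL Q :=
  eq_of_maximal hM hK.nrm.le_subalgebraNormalizer (h.not_le_C3 hK.prime.two_le hr hK.field)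

theorem OQ.eq5 {r : ℕ} {F₀ : Subfield F} {P : GL ι F} (hr : r.Prime)
    (hc : Fintype.card F = Nat.card F₀ ^ r) (hle : H ≤ subfieldSubgroup F₀ P) :
    H = subfieldSubgroup F₀ P ⊓ omegaGL Q :=
  eq_of_maximal hM hle (h.not_le_C5 (by omega) (ne_top_of_card hr.two_le hc) P)

theorem OQ.ts_max (h1 : ∃ W, W ≠ ⊥ ∧ IsTotallySingularQuad Q W ∧ Inv H W) :
    ∃ W, W ≠ ⊥ ∧ IsTotallySingularQuad Q W ∧ H = subspaceStabilizer W ⊓ omegaGL Q := by
  obtain ⟨W, h0, hW, hi⟩ := h1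
  exact ⟨W, h0, hW, h.eq1 hM hn h0 (h.ts_ne_top h0 hW) hi⟩

theorem OQ.ts_max_plus {m : ℕ} (hm : Fintype.card ι = 2 * (m + 1)) (hp : Plus Q ⊤)
    (h1 : ∃ W, W ≠ ⊥ ∧ IsTotallySingularQuad Q W ∧ Inv H W) :
    ∃ W : Submodule F (ι → F), W ≠ ⊥ ∧ IsTotallySingularQuad Q W ∧ finrank F W ≠ m ∧
      H = subspaceStabilizer W ⊓ omegaGL Q := by
  obtain ⟨W, h0, hW, hi⟩ := h1
  obtain ⟨W, h0, hW, hd, hi⟩ := h.ts_plus hM.1.le hm (by omega) hp h0 hW hi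
  exact ⟨W, h0, hW, by omega, h.eq1 hM hn h0 (h.ts_ne_top h0 hW) hi⟩

theorem OQ.sub_max (hs : Sub Q H) : ∃ (F₀ : Subfield F) (r : ℕ) (P : GL ι F) (ζ : F), r.Prime ∧
    Fintype.card F = Nat.card F₀ ^ r ∧ ζ ≠ 0 ∧
    IsQuadFormRationalStructure (fun v => ζ * Q v) F₀ P ∧
    H = subfieldSubgroup F₀ P ⊓ omegaGL Q := by
  obtain ⟨F₀, r, P, ζ, a, b, c, d, e⟩ := hs
  exact ⟨F₀, r, P, ζ, a, b, c, d, h.eq5 hM hn a b e⟩

theorem OQ.sub_max_minus {m : ℕ} (hm : Fintype.card ι = 2 * m) (hp : ¬ Plus Q ⊤) (hs : Sub Q H) :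
    ∃ (F₀ : Subfield F) (r : ℕ) (P : GL ι F) (ζ : F), r.Prime ∧ Odd r ∧
    Fintype.card F = Nat.card F₀ ^ r ∧ ζ ≠ 0 ∧
    IsQuadFormRationalStructure (fun v => ζ * Q v) F₀ P ∧
    H = subfieldSubgroup F₀ P ⊓ omegaGL Q := by
  obtain ⟨F₀, r, P, ζ, a, a', b, c, d, e⟩ := h.sub_minus hm hp hs
  exact ⟨F₀, r, P, ζ, a, a', b, c, d, h.eq5 hM hn a b e⟩

theorem OQ.red_max (hI : ¬ Irr H) :
    (∃ W, W ≠ ⊥ ∧ IsTotallySingularQuad Q W ∧ Inv H W) ∨
    (Odd (Fintype.card F) ∧ ∃ W : Submodule F (ι → F), W ≠ ⊥ ∧ W ≠ ⊤ ∧ Odd (finrank F W) ∧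
      2 * finrank F W ≠ Fintype.card ι ∧ ND Q W ∧ H = subspaceStabilizer W ⊓ omegaGL Q) ∨
    (∃ W : Submodule F (ι → F), finrank F W = 2 ∧ ND Q W ∧ ¬ Plus Q W ∧
      H = subspaceStabilizer W ⊓ omegaGL Q) ∨
    (4 ≤ Fintype.card F ∧ ∃ W : Submodule F (ι → F), finrank F W = 2 ∧ ND Q W ∧ Plus Q W ∧
      H = subspaceStabilizer W ⊓ omegaGL Q) ∨
    (∃ W : Submodule F (ι → F), finrank F W = 4 ∧ ND Q W ∧ H = subspaceStabilizer W ⊓ omegaGL Q) ∨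
    (¬ Odd (Fintype.card F) ∧ ∃ v, Q v ≠ 0 ∧
      H = subspaceStabilizer (Submodule.span F {v}) ⊓ omegaGL Q) ∨
    (∃ W : Submodule F (ι → F), 5 ≤ finrank F W ∧ 2 * finrank F W ≤ Fintype.card ι ∧
      (Odd (finrank F W) → 2 * finrank F W = Fintype.card ι) ∧ ND Q W ∧
      H = subspaceStabilizer W ⊓ omegaGL Q ∧ (2 * finrank F W = Fintype.card ι →
        IsNondegenerateMDecomposition (polar Q) (finrank F W) ![W, S.perp W] ∧
        H = decompositionStabilizer ![W, S.perp W] ⊓ omegaGL Q)) := by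
  have hQ := fixQ_of_le hM.1.le
  rcases h.red_cases hQ hI with h1 | ⟨h2, v, hv, hi⟩ | ⟨W, h0, hW, hi, hd, hx⟩
  · exact Or.inl h1
  · refine Or.inr (Or.inr (Or.inr (Or.inr (Or.inr (Or.inl ⟨fun h => odd_card_iff.1 h h2, v, hv,
      h.eq1 hM hn ?_ (ne_top_of_finrank ((finrank_span_one_le v).trans_lt (by omega))) hi⟩)))))
    rw [Ne, Submodule.span_singleton_eq_bot]
    rintro rfl
    exact hv Q.map_zero
  have h1 : W ≠ ⊤ := ne_top_of_finrank (by omega)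
  have he := h.eq1 hM hn h0 h1 hi
  have hpos : finrank F W ≠ 0 := fun h => h0 (Submodule.finrank_eq_zero.1 h)
  by_cases ho : Odd (finrank F W) ∧ 2 * finrank F W ≠ Fintype.card ι
  · exact Or.inr (Or.inl ⟨odd_card_iff.2 (two_ne_zero_of_odd_nd hW ho.1), W, h0, h1, ho.1, ho.2,
      hW, he⟩)
  by_cases h2 : finrank F W = 2
  · by_cases hp : Plus Q W
    · exact Or.inr (Or.inr (Or.inr (Or.inl ⟨by by_contra h4; exact hx ⟨by omega, h2, hp⟩,
        W, h2, hW, hp, he⟩)))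
    · exact Or.inr (Or.inr (Or.inl ⟨W, h2, hW, hp, he⟩))
  by_cases h4 : finrank F W = 4
  · exact Or.inr (Or.inr (Or.inr (Or.inr (Or.inl ⟨W, h4, hW, he⟩))))
  refine Or.inr (Or.inr (Or.inr (Or.inr (Or.inr (Or.inr ⟨W, ?_, hd,
    fun h => by_contra fun h' => ho ⟨h, h'⟩, hW, he, fun h3 => ?_⟩)))))
  · rw [Nat.odd_iff] at ho
    omega
  · have hD := S.halves h0 (h.hf ▸ hW) h3
    refine ⟨h.hf ▸ hD, eq_of_maximal hM (le_decompositionStabilizer_of_inv fun i => ?_)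
      (h.not_le_C2 hn hD.decomp)⟩
    fin_cases i
    · exact hi
    · exact S.inv_perp (h.le_sim hQ) hi

theorem OQ.odd_max (ho : Odd (Fintype.card ι)) (h12 : Fintype.card ι < 12)
    (hd : ∀ F₀ : Subfield F, H66.gramDet Q (Pi.basisFun F ι) ∈ F₀) :
    (∃ W, W ≠ ⊥ ∧ IsTotallySingularQuad Q W ∧ H = subspaceStabilizer W ⊓ omegaGL Q) ∨
    (∃ W : Submodule F (ι → F), W ≠ ⊥ ∧ Even (finrank F W) ∧ ND Q W ∧
      ¬ (Fintype.card F = 3 ∧ finrank F W = 2 ∧ Plus Q W) ∧ H = subspaceStabilizer W ⊓ omegaGL Q) ∨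
    ((Fintype.card F).Prime ∧ ∃ (t : ℕ) (D : Fin t → Submodule F (ι → F)), t = Fintype.card ι ∧
      IsOrthogonalMDecomposition Q 1 D ∧ H = decompositionStabilizer D ⊓ omegaGL Q) ∨
    (Fintype.card ι = 9 ∧ ((5 ≤ Fintype.card F ∧ ∃ D : Fin 3 → Submodule F (ι → F),
      IsOrthogonalMDecomposition Q 3 D ∧ H = decompositionStabilizer D ⊓ omegaGL Q) ∨
      (∃ K, IsFieldSubalgebra 3 K ∧ IsSelfAdjointFor (polar Q) K ∧
        H = subalgebraNormalizer K ⊓ omegaGL Q) ∨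
      (5 ≤ Fintype.card F ∧ ∃ (e : ι ≃ (Fin 2 → Fin 3)) (P : GL ι F)
        (f₁ : (Fin 3 → F) → (Fin 3 → F) → F), IsSymmetricForm f₁ ∧
        IsTensorPowerFormStructure id (polar Q) f₁ e P ∧
        H = tensorWreathSubgroup 3 2 e P ⊓ omegaGL Q))) ∨
    (∃ (F₀ : Subfield F) (r : ℕ) (P : GL ι F), r.Prime ∧ Fintype.card F = Nat.card F₀ ^ r ∧
      IsQuadFormRationalStructure Q F₀ P ∧ H = subfieldSubgroup F₀ P ⊓ omegaGL Q) ∨
    InOrthogonalResidualClass H := by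
  have : Nonempty ι := Fintype.card_pos_iff.1 (by omega)
  have ho' := Nat.odd_iff.1 ho
  rcases h.odd_cases hM.1.le ho (by omega) with h1 | ⟨W, h0, h1, a, b, c, d⟩ | ⟨t, k, D, hD⟩ |
    ⟨r, K, hK, a, b⟩ | ⟨n₁, n₂, e, P, S₁, S₂, a, b, -, T⟩ | h1 | ⟨k, t, e, P, T, a, b, c, d, W⟩ | h1
  · exact Or.inl (h.ts_max hM hn h1)
  · exact Or.inr (Or.inl ⟨W, h0, a, b, c, h.eq1 hM hn h0 h1 d⟩)
  · obtain ⟨h1, h2⟩ := hD.card
    have : k < 6 := by nlinarith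
    by_cases hk : k = 1
    · subst hk
      exact Or.inr (Or.inr (Or.inl ⟨hD.one rfl, t, D, by omega, hD.dec, h.eq2 hM hn hD⟩))
    obtain ⟨rfl, rfl⟩ : k = 3 ∧ t = 3 := by interval_cases k <;> omega
    exact Or.inr (Or.inr (Or.inr (Or.inl ⟨h1.symm, Or.inl ⟨hD.three rfl, D, hD.dec,
      h.eq2 hM hn hD⟩⟩)))
  · obtain ⟨j, hj⟩ := hK.dvd
    have h2 := hK.prime.two_le
    have h3 : j ≠ 1 := by rintro rfl; omega
    have h4 : j ≠ 0 := by rintro rfl; omega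
    have : r < 6 := by nlinarith [show 2 ≤ j by omega]
    obtain ⟨rfl, rfl⟩ : r = 3 ∧ j = 3 := by interval_cases r <;> omega
    exact Or.inr (Or.inr (Or.inr (Or.inl ⟨hj, Or.inr (Or.inl ⟨K, hK.field, b,
      h.eq3 hM hn hK (by omega)⟩)⟩)))
  · have := tens_card T
    nlinarith
  · obtain ⟨F₀, r, P, a, b, c, d⟩ := h.sub_odd ho hd h1
    exact Or.inr (Or.inr (Or.inr (Or.inr (Or.inl ⟨F₀, r, P, a, b, c, h.eq5 hM hn a b d⟩))))
  · have h1 := W.card_eq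
    have h2 : k ^ 2 ≤ k ^ t := Nat.pow_le_pow_right (by omega) b
    obtain rfl : k = 3 := by nlinarith
    obtain rfl : t = 2 := by
      have : t < 3 := (Nat.pow_lt_pow_iff_right (a := 3) (by norm_num)).1 (by omega)
      omega
    exact Or.inr (Or.inr (Or.inr (Or.inl ⟨h1, Or.inr (Or.inr ⟨five_le_card
      (odd_card_iff.2 (h.two_ne_of_odd ho)) fun h => c ⟨h, rfl⟩, e, P, T.f,
      T.isSymmetricForm (by rw [W.σ 0]; exact h.hσ) d, h.powerForm W,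
      eq_of_maximal hM W.le (h.not_le_C7 (by omega) e P)⟩)⟩)))
  · exact Or.inr (Or.inr (Or.inr (Or.inr (Or.inr h1))))

end Max

end H12.A
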