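import Mathlib
import Cfsg.Agent.Lib.Orth12.Asch7

/-!
Non-maximal stabilisers of subspaces and of orthogonal decompositions in orthogonal groups.
-/

set_option autoImplicit false
set_option linter.unusedSectionVars false

namespace H12.A

open Matrix Cfsg Cfsg.Geo H10.Asch H28.AF Module QuadraticMap
open scoped MatrixGroups Kronecker

theorem between {G : Type*} [Group G] [Finite G] {H K : Subgroup G} (p : G → Prop) (h1 : p 1)
    (hm : ∀ a b, p a → p b → p (a * b)) (hH : H ≤ K) (hp : ∀ h ∈ H, p h) {g g' : G} (hg : g ∈ K)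
    (hgH : g ∉ H) (hgp : p g) (hg' : g' ∈ K) (hgp' : ¬ p g') : ∃ M, H < M ∧ M < K := by
  have h2 : Subgroup.closure (insert g (H : Set G)) ≤ K :=
    (Subgroup.closure_le _).2 (Set.insert_subset hg hH)
  refine ⟨Subgroup.closure (insert g H), lt_of_le_of_ne
    (fun x hx => Subgroup.subset_closure (Or.inr hx)) fun h => hgH
      (h ▸ Subgroup.subset_closure (Or.inl rfl)), lt_of_le_of_ne h2 fun h => hgp' ?_⟩
  rw [← h, ← Subgroup.mem_toSubmonoid, Subgroup.closure_toSubmonoid_of_finite] at hg'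
  refine Submonoid.closure_induction ?_ h1 (fun a b _ _ => hm a b) hg'
  rintro x (rfl | hx)
  exacts [hgp, hp x hx]

variable {ι : Type} [Fintype ι] [DecidableEq ι] {F : Type*} [Field F] [Fintype F]
  {S : SF ι F} {Q : QuadraticForm F (ι → F)} {H : Subgroup (GL ι F)}

theorem between_set {K : Subgroup (GL ι F)} (X : Set (ι → F)) (hH : H ≤ K)
    (hp : ∀ h ∈ H, ∀ v ∈ X, (h : Matrix ι ι F) *ᵥ v ∈ X) {g g' : GL ι F} (hg : g ∈ K)
    (hgH : g ∉ H) (hgp : ∀ v ∈ X, (g : Matrix ι ι F) *ᵥ v ∈ X) (hg' : g' ∈ K) {v : ι → F}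
    (hv : v ∈ X) (hv' : (g' : Matrix ι ι F) *ᵥ v ∉ X) : ∃ M, H < M ∧ M < K :=
  between (fun g => ∀ v ∈ X, (g : Matrix ι ι F) *ᵥ v ∈ X) (fun v hv => by simpa using hv)
    (fun a b ha hb v hv => by rw [Units.val_mul, ← mulVec_mulVec]; exact ha _ (hb v hv)) hH hp hg
    hgH hgp hg' fun h => hv' (h v hv)

theorem OQ.between_sub (h : OQ S Q) (hn : 7 ≤ Fintype.card ι) (hH : H ≤ omegaGL Q)
    {U : Submodule F (ι → F)} (h0 : U ≠ ⊥) (h1 : U ≠ ⊤) (hU : Inv H U) {g : GL ι F}
    (hg : g ∈ omegaGL Q) (hgH : g ∉ H) (hgp : ∀ v ∈ U, (g : Matrix ι ι F) *ᵥ v ∈ U) :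
    ∃ M, H < M ∧ M < omegaGL Q := by
  have : ¬ Inv (omegaGL Q) U := fun hi => (h.irr_omega hn U hi).elim h0 h1
  simp only [H28.AF.Inv, not_forall] at this
  obtain ⟨g', hg', v, hv, hv'⟩ := this
  exact between_set U hH hU hg hgH hgp hg' hv hv'

theorem OQ.exists_eich (h : OQ S Q) (hn : Fintype.card ι ≠ 4) {u v : ι → F} (hu : Q u = 0)
    (huv : polar Q u v = 0) : ∃ g ∈ omegaGL Q, ∀ x, (g : Matrix ι ι F) *ᵥ x =
      x + polar Q x v • u - polar Q x u • v - (Q v * polar Q x u) • u := by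
  obtain ⟨g, hg, hgv⟩ := exists_mem_of_Om
    (eich_mem_Om h.nd (good_of_finrank_ne h.nd (by rwa [finrank_V])) u v)
  exact ⟨g, hg, fun x => by rw [hgv, eich_apply hu huv]⟩

theorem OQ.plane_between (h : OQ S Q) (hn : 7 ≤ Fintype.card ι) (hq : Fintype.card F ≤ 3)
    {W : Submodule F (ι → F)} (hd : finrank F W = 2) (hW : ND Q W) (hp : Plus Q W) :
    ∃ M, subspaceStabilizer W ⊓ omegaGL Q < M ∧ M < omegaGL Q := by
  have hF := fixQ_of_le (inf_le_right : subspaceStabilizer W ⊓ omegaGL Q ≤ _)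
  have hI : Inv (subspaceStabilizer W ⊓ omegaGL Q) W := inv_of_le inf_le_left
  obtain ⟨u, hu, hu1⟩ := plane_exists hW hd hp
  have hu0 : u ≠ 0 := ne_zero_of_Q_ne (by rw [hu1]; exact one_ne_zero)
  have hl : Inv (subspaceStabilizer W ⊓ omegaGL Q) (Submodule.span F {u}) := inv_line fun g hg => by
    rcases plane_small hq hW hd hp hu (hI g hg u hu) hu1 (by rw [hF g hg, hu1]) with h3 | h3
    exacts [⟨1, by rw [h3, one_smul]⟩, ⟨-1, by rw [h3, neg_one_smul]⟩]
  obtain ⟨y, hy, hyu⟩ : ∃ y ∈ W, y ∉ Submodule.span F {u} := by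
    by_contra hc
    push Not at hc
    have := (Submodule.finrank_mono (show W ≤ _ from hc)).trans (finrank_span_one_le u)
    omega
  have := S.finrank_perp_add W
  obtain ⟨a, ha, ha0, haQ, -⟩ := h.exists_sing_orth (S.perp W) ⊥ (by rw [finrank_bot]; omega)
  have hdis := Submodule.disjoint_def.1 (h.isCompl_perp hW).disjoint
  obtain ⟨g, hg, hgu, hgy⟩ := h.shift (by omega) haQ (h.mem_perp.1 ha u hu) (h.mem_perp.1 ha y hy)
    (by
      rw [Submodule.mem_span_pair]
      rintro ⟨b, c, hbc⟩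
      have h3 : c • a = 0 := hdis _ (by
        rw [eq_sub_of_add_eq' hbc]; exact sub_mem hy (W.smul_mem _ hu)) (Submodule.smul_mem _ _ ha)
      rw [h3, add_zero] at hbc
      exact hyu (Submodule.mem_span_singleton.2 ⟨b, hbc⟩))
  refine h.between_sub hn inf_le_right (by rwa [Ne, Submodule.span_singleton_eq_bot])
    (ne_top_of_finrank ((finrank_span_one_le u).trans_lt (by omega))) hl hg (fun hgH => ?_) ?_
  · have := hI g hgH y hy
    rw [hgy] at this
    exact ha0 (hdis a ((W.add_mem_iff_right hy).1 this) ha)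
  · intro v hv
    obtain ⟨c, rfl⟩ := Submodule.mem_span_singleton.1 hv
    rwa [mulVec_smul, hgu]

theorem OQ.submax_between (h : OQ S Q) (hn : 7 ≤ Fintype.card ι) (hp : Plus Q ⊤)
    {W : Submodule F (ι → F)} (hW : IsTotallySingularQuad Q W)
    (hd : 2 * (finrank F W + 1) = Fintype.card ι) :
    ∃ M, subspaceStabilizer W ⊓ omegaGL Q < M ∧ M < omegaGL Q := by
  have hI : Inv (subspaceStabilizer W ⊓ omegaGL Q) W := inv_of_le inf_le_left
  obtain ⟨U, hWU, hU⟩ := h.exists_max_ts hd.symm hp hW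
  have hUI : Inv (subspaceStabilizer W ⊓ omegaGL Q) U := fun g hg v hv => by
    have h1 := h.even_inf hd.symm (by omega) hg.2 hU
    have h2 := Submodule.finrank_mono (show W ≤ U ⊓ U.map (Matrix.toLin' (g : Matrix ι ι F)) from
      le_inf hWU (by rw [← hI.map_eq hg]; exact Submodule.map_mono hWU))
    have h3 := Submodule.finrank_mono
      (show U ⊓ U.map (Matrix.toLin' (g : Matrix ι ι F)) ≤ _ from inf_le_right)
    rw [Nat.even_iff] at h1
    rw [finrank_map_gl, hU.1] at h3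
    have h4 := Submodule.eq_of_le_of_finrank_eq
      (show U ⊓ U.map (Matrix.toLin' (g : Matrix ι ι F)) ≤ _ from inf_le_right)
      (by rw [finrank_map_gl, hU.1]; omega)
    exact (h4.ge (Submodule.mem_map_of_mem hv)).1
  obtain ⟨u, hu, huW⟩ : ∃ u ∈ U, u ∉ W := by
    by_contra hc
    push Not at hc
    have := Submodule.finrank_mono (show U ≤ W from hc)
    rw [hU.1] at this
    omega
  obtain ⟨w, hw, hw0⟩ := W.exists_mem_ne_zero_of_ne_bot fun h0 => by
    rw [h0, finrank_bot] at hd; omega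
  obtain ⟨v, hv, hv1⟩ := S.exists_orth_of_notMem (Submodule.span F {u}) (u := w) fun hm => by
    obtain ⟨c, rfl⟩ := Submodule.mem_span_singleton.1 hm
    exact huW ((W.smul_mem_iff fun h0 => hw0 (by rw [h0, zero_smul])).1 hw)
  rw [h.hf] at hv hv1
  obtain ⟨g, hg, hgv⟩ := h.exists_eich (by omega) (hU.2 u hu)
    (hv u (Submodule.mem_span_singleton_self u))
  have h5 : ∀ x ∈ U, (g : Matrix ι ι F) *ᵥ x = x + polar Q x v • u := fun x hx => by
    rw [hgv, show polar Q x u = 0 by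
      rw [polar, hU.2 _ (add_mem hx hu), hU.2 x hx, hU.2 u hu, sub_zero, sub_zero]]
    simp
  have h0 : U ≠ ⊥ := fun h0 => hw0 (by simpa [h0] using hWU hw)
  refine h.between_sub hn inf_le_right h0 (h.ts_ne_top h0 hU.2) hUI hg (fun hgH => ?_)
    fun x hx => by rw [h5 x hx]; exact add_mem hx (U.smul_mem _ hu)
  have := hI g hgH w hw
  rw [h5 w (hWU hw), hv1, one_smul] at this
  exact huW ((W.add_mem_iff_right hw).1 this)

section Dec

variable {t k : ℕ} {D : Fin t → Submodule F (ι → F)}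

theorem nd_eq_zero (hD : IsOrthogonalMDecomposition Q k D) {i j : Fin t} (hij : i ≠ j)
    {v : ι → F} (hi : v ∈ D i) (hj : v ∈ D j) : v = 0 :=
  ND.eq_zero (hD.decomp.nondegenerate i) hi fun x hx => by
    rw [polar_comm]; exact hD.decomp.orthogonal i j hij x hx v hj

theorem not_mem_stab (hD : IsOrthogonalMDecomposition Q k D) {g : GL ι F} {i j : Fin t}
    {x y : ι → F} (hx : x ∈ D i) (hy : y ∈ D i) (hx0 : x ≠ 0) (hgx : (g : Matrix ι ι F) *ᵥ x ∈ D j)
    (hgy : (g : Matrix ι ι F) *ᵥ y ∉ D j) : g ∉ decompositionStabilizer D ⊓ omegaGL Q := fun hg => by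
  obtain ⟨j', hj⟩ := mem_of_stab (H := decompositionStabilizer D) le_rfl hg.1 i
  by_cases h : j' = j
  · exact hgy (h ▸ hj y hy)
  · refine hx0 ?_
    rw [← gl_inv_mulVec g x, nd_eq_zero hD h (hj x hx) hgx, mulVec_zero]

theorem OQ.vecs_between (h : OQ S Q) (hD : IsOrthogonalMDecomposition Q k D)
    (hk : k + 4 ≤ Fintype.card ι) {c : F} (hc : c ≠ 0) {s : ι → F} (hs : s ∈ vecs Q D c)
    {g : GL ι F} (hg : g ∈ omegaGL Q) (hgH : g ∉ decompositionStabilizer D ⊓ omegaGL Q)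
    (hgp : ∀ v ∈ vecs Q D c, (g : Matrix ι ι F) *ᵥ v ∈ vecs Q D c) :
    ∃ M, decompositionStabilizer D ⊓ omegaGL Q < M ∧ M < omegaGL Q := by
  obtain ⟨⟨i, hi⟩, hsc⟩ := hs
  have hs0 : s ≠ 0 := ne_zero_of_Q_ne (by rwa [hsc])
  have hpos := hD.decomp.decomp.pos
  have h1 := S.finrank_perp_add (D i)
  rw [hD.decomp.decomp.finrank_eq] at h1
  have hdis := Submodule.disjoint_def.1 (h.isCompl_perp (hD.decomp.nondegenerate i)).disjoint
  obtain ⟨u, hu, hu0, hu'⟩ := h.shift_one (by omega) (S.perp (D i)) (by omega)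
    fun hm => hs0 (hdis s hi hm)
  obtain ⟨g', hg', hgs⟩ := hu' 1
  refine between_set _ inf_le_right (vecs_inv (fixQ_of_le inf_le_right) inf_le_left c) hg hgH hgp
    hg' ⟨⟨i, hi⟩, hsc⟩ ?_
  rw [hgs, one_smul]
  rintro ⟨⟨j, hj⟩, -⟩
  by_cases hij : j = i
  · exact hu0 (hdis u (((D i).add_mem_iff_right hi).1 (hij ▸ hj)) hu)
  · refine hs0 (hdis s hi ((Submodule.add_mem_iff_left _ hu).1 (h.mem_perp.2 fun w hw => ?_)))
    exact hD.decomp.orthogonal j i hij _ hj w hw

theorem exists_three (hD : IsOrthogonalMDecomposition Q k D) (hk : 2 * k < Fintype.card ι) :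
    ∃ i j l : Fin t, i ≠ j ∧ i ≠ l ∧ j ≠ l := by
  have h1 := IsMDecomposition.mul_eq_card hD.decomp.decomp
  have h3 : 2 < t := by by_contra h; nlinarith
  exact ⟨⟨0, by omega⟩, ⟨1, by omega⟩, ⟨2, h3⟩, by simp, by simp, by simp⟩

theorem exists_norm (hD : IsOrthogonalMDecomposition Q k D) (hk : 2 ≤ k) (i : Fin t) (c : F) :
    ∃ s ∈ D i, Q s = c := by
  obtain ⟨s, hs⟩ := (ND.nondeg (hD.decomp.nondegenerate i)).universal
    (by rw [hD.decomp.decomp.finrank_eq]; exact hk) c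
  exact ⟨s, s.2, hs⟩

theorem exists_orth (hD : IsOrthogonalMDecomposition Q k D) {i : Fin t} (h : OQ S Q)
    (Y : Submodule F (ι → F)) (hY : finrank F Y < k) :
    ∃ y ∈ D i, y ≠ 0 ∧ ∀ x ∈ Y, polar Q y x = 0 := by
  have h1 := S.finrank_perp_add Y
  have h2 := Submodule.finrank_sup_add_finrank_inf_eq (D i) (S.perp Y)
  have h3 : finrank F ↥(D i ⊔ S.perp Y) ≤ Fintype.card ι := by
    rw [← finrank_V (F := F)]; exact Submodule.finrank_le _
  rw [hD.decomp.decomp.finrank_eq] at h2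
  obtain ⟨y, hy, hy0⟩ := (D i ⊓ S.perp Y).exists_mem_ne_zero_of_ne_bot fun h0 => by
    rw [h0, finrank_bot] at h2; omega
  exact ⟨y, hy.1, hy0, h.mem_perp.1 hy.2⟩

theorem OQ.frame_between (h : OQ S Q) (hD : IsOrthogonalMDecomposition Q k D) (hk : 2 ≤ k)
    (hn : 2 * k + 2 ≤ Fintype.card ι) (h2 : (2 : F) ≠ 0) {c : F} (hc : c ≠ 0)
    (h1 : ∀ i, ∀ u ∈ D i, ∀ v ∈ D i, Q u = c → Q v = c → v = u ∨ v = -u ∨ polar Q u v = 0) :
    ∃ M, decompositionStabilizer D ⊓ omegaGL Q < M ∧ M < omegaGL Q := by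
  have hp := vecs_pair hD (c := c) (p := fun u v => v = u ∨ v = -u ∨ polar Q u v = 0)
    (fun _ _ h => Or.inr (Or.inr h)) h1
  have hneg : ∀ v ∈ vecs Q D c, -v ∈ vecs Q D c := fun v ⟨⟨i, hi⟩, hv⟩ =>
    ⟨⟨i, neg_mem hi⟩, by rwa [QuadraticMap.map_neg]⟩
  have hQ : ∀ a ∈ vecs Q D c, ∀ b ∈ vecs Q D c, polar Q a b = 0 → Q (a - b) = 2 * c :=
    fun a ha b hb hab => by rw [Q_sub, ha.2, hb.2, hab]; ring
  have hr : ∀ a ∈ vecs Q D c, ∀ b ∈ vecs Q D c, polar Q a b = 0 → ∀ v ∈ vecs Q D c,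
      (refl Q (a - b)).1 v ∈ vecs Q D c := fun a ha b hb hab v hv => by
    have h3 : Q (a - b) ≠ 0 := by rw [hQ a ha b hb hab]; exact mul_ne_zero h2 hc
    have h4 := refl_sub_apply (ha.2.trans hb.2.symm) h3
    have h5 := refl_sub_apply' (ha.2.trans hb.2.symm) h3
    rcases hp a ha v hv with rfl | rfl | h6
    · rwa [h4]
    · rw [map_neg, h4]; exact hneg b hb
    rcases hp b hb v hv with rfl | rfl | h7
    · rwa [h5]
    · rw [map_neg, h5]; exact hneg a ha
    · rwa [refl_apply_of_orth (by rw [polar_comm, polar_sub_left, h6, h7, sub_zero])]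
  obtain ⟨i, j, l, hij, hil, hjl⟩ := exists_three hD (by omega)
  obtain ⟨a, ha, ha'⟩ := exists_norm hD hk i c
  obtain ⟨b, hb, hb'⟩ := exists_norm hD hk j c
  obtain ⟨d, hd, hd'⟩ := exists_norm hD hk l c
  have ho := hD.decomp.orthogonal
  have hab := ho i j hij a ha b hb
  have hbd := ho j l hjl b hb d hd
  have va : a ∈ vecs Q D c := ⟨⟨i, ha⟩, ha'⟩
  have vb : b ∈ vecs Q D c := ⟨⟨j, hb⟩, hb'⟩
  have vd : d ∈ vecs Q D c := ⟨⟨l, hd⟩, hd'⟩
  have q1 : Q (a - b) ≠ 0 := by rw [hQ a va b vb hab]; exact mul_ne_zero h2 hc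
  have q2 : Q (b - d) ≠ 0 := by rw [hQ b vb d vd hbd]; exact mul_ne_zero h2 hc
  obtain ⟨g, hg, hgv⟩ := exists_mem_of_Om (refl_mul_refl_mem_Om h.nd (w := b - d) q1 one_ne_zero
    (by rw [hQ a va b vb hab, hQ b vb d vd hbd]; ring))
  obtain ⟨y, hy, hy0, hya⟩ := exists_orth hD (i := i) h (Submodule.span F {a})
    ((finrank_span_one_le a).trans_lt (by omega))
  refine h.vecs_between hD (by omega) hc va hg (not_mem_stab hD (j := l) ha hy
    (ne_zero_of_Q_ne (by rwa [ha'])) ?_ ?_) fun v hv => ?_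
  · rwa [hgv, O.mul_apply, refl_sub_apply (ha'.trans hb'.symm) q1,
      refl_sub_apply (hb'.trans hd'.symm) q2]
  · rw [hgv, O.mul_apply, refl_apply_of_orth (x := y) (by
      rw [polar_sub_right, hya a (Submodule.mem_span_singleton_self a), ho i j hij y hy b hb,
        sub_zero]), refl_apply_of_orth (by
      rw [polar_sub_right, ho i j hij y hy b hb, ho i l hil y hy d hd, sub_zero])]
    exact fun hl => hy0 (nd_eq_zero hD hil hy hl)
  · rw [hgv, O.mul_apply]
    exact hr b vb d vd hbd _ (hr a va b vb hab v hv)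

theorem OQ.three_between (h : OQ S Q) (hD : IsOrthogonalMDecomposition Q k D)
    (hn : 8 ≤ Fintype.card ι) (hF : Fintype.card F = 3) (hk : k = 2 ∨ k = 3) :
    ∃ M, decompositionStabilizer D ⊓ omegaGL Q < M ∧ M < omegaGL Q := by
  let i₀ : Fin t := ⟨0, by have := hD.decomp.decomp.two_le; omega⟩
  have hn := ND.nondeg (hD.decomp.nondegenerate i₀)
  have hd := hD.decomp.decomp.finrank_eq i₀
  obtain ⟨c, hc, hcc⟩ : ∃ c : F, c ≠ 0 ∧ ∀ u v : D i₀, Q.restrict _ u = c → Q.restrict _ v = c →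
      v = u ∨ v = -u ∨ polar (Q.restrict _) u v = 0 := by
    rcases hk with rfl | rfl
    · exact ⟨1, one_ne_zero, fun u v => fr_two hF hn hd one_ne_zero⟩
    · exact fr_three hF hn hd
  refine h.frame_between hD (by omega) (by omega) (two_ne_zero_of_three hF) hc
    fun i u hu v hv h1 h2 => ?_
  obtain ⟨e, he⟩ := hD.isometric i i₀
  rcases hcc (e ⟨u, hu⟩) (e ⟨v, hv⟩) ((he _).trans h1) ((he _).trans h2) with h3 | h3 | h3
  · exact Or.inl (congrArg Subtype.val (e.injective h3))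
  · rw [← map_neg] at h3
    exact Or.inr (Or.inl (congrArg Subtype.val (e.injective h3)))
  · exact Or.inr (Or.inr ((polar_congr (Q := Q.restrict _) (Q' := Q.restrict _) e.toLinearMap he
      ⟨u, hu⟩ ⟨v, hv⟩).symm.trans h3))

theorem OQ.five_between (h : OQ S Q) (hD : IsOrthogonalMDecomposition Q 2 D)
    (hn : 6 ≤ Fintype.card ι) (hF : Fintype.card F = 5) (hp : ∀ i, Plus Q (D i)) :
    ∃ M, decompositionStabilizer D ⊓ omegaGL Q < M ∧ M < omegaGL Q := by
  refine h.frame_between hD le_rfl hn (odd_card_iff.1 (by rw [hF]; decide)) one_ne_zero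
    fun i u hu v hv h1 h1' => ?_
  obtain ⟨x, hx, hb, h3, h4⟩ := plane_pair (hD.decomp.nondegenerate i)
    (hD.decomp.decomp.finrank_eq i) (hp i) hu hv h1 h1'
  have h6 := pow_card_sub_one (q := 4) hF hx
  rcases sq_eq_one_iff.1 (show (x ^ 2) ^ 2 = 1 by rw [← pow_mul]; exact h6) with h7 | h7
  · rcases sq_eq_one_iff.1 h7 with h8 | h8
    exacts [Or.inl (h3 h8), Or.inr (Or.inl (h4 h8))]
  · refine Or.inr (Or.inr ?_)
    rw [hb]
    field_simp
    linear_combination h7

/-- a long root element built from vectors of norm one in three members -/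
theorem OQ.exists_root (h : OQ S Q) (hD : IsOrthogonalMDecomposition Q 2 D)
    (hn : 5 ≤ Fintype.card ι) (h2 : (2 : F) = 0) :
    ∃ a ∈ vecs Q D 1, ∃ b ∈ vecs Q D 1, ∃ d ∈ vecs Q D 1, ∃ g ∈ omegaGL Q,
      g ∉ decompositionStabilizer D ⊓ omegaGL Q ∧ ∀ x, (g : Matrix ι ι F) *ᵥ x =
        x + (polar Q x a + polar Q x d) • (a + b) - (polar Q x a + polar Q x b) • (a + d) := by
  obtain ⟨i, j, l, hij, hil, hjl⟩ := exists_three hD (by omega)
  obtain ⟨a, ha, ha'⟩ := exists_norm hD le_rfl i 1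
  obtain ⟨b, hb, hb'⟩ := exists_norm hD le_rfl j 1
  obtain ⟨d, hd, hd'⟩ := exists_norm hD le_rfl l 1
  have ho := hD.decomp.orthogonal
  have hab := ho i j hij a ha b hb
  have had := ho i l hil a ha d hd
  have haa : polar Q a a = 0 := by rw [B_self, h2, zero_mul]
  obtain ⟨g, hg, hgv⟩ := h.exists_eich (u := a + b) (v := a + d) (by omega)
    (by rw [Q_add, ha', hb', hab]; linear_combination h2)
    (by rw [polar_add_left, polar_add_right, polar_add_right, haa, had, polar_comm _ b, hab,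
      ho j l hjl b hb d hd]; ring)
  have hgv' : ∀ x, (g : Matrix ι ι F) *ᵥ x =
      x + (polar Q x a + polar Q x d) • (a + b) - (polar Q x a + polar Q x b) • (a + d) := fun x => by
    rw [hgv, polar_add_right, polar_add_right, Q_add, ha', hd', had,
      show (1 : F) + 1 + 0 = 0 by linear_combination h2, zero_mul, zero_smul, sub_zero]
  have ha0 : a ≠ 0 := ne_zero_of_Q_ne (by rw [ha']; exact one_ne_zero)
  obtain ⟨y, hy, hya⟩ : ∃ y ∈ D i, polar Q y a ≠ 0 := by
    by_contra hc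
    push Not at hc
    exact ha0 (ND.eq_zero (hD.decomp.nondegenerate i) ha fun x hx => by rw [polar_comm, hc x hx])
  refine ⟨a, ⟨⟨i, ha⟩, ha'⟩, b, ⟨⟨j, hb⟩, hb'⟩, d, ⟨⟨l, hd⟩, hd'⟩, g, hg,
    not_mem_stab hD (j := i) ha hy ha0 (by rw [hgv', haa, hab, had]; simpa using ha) fun hm => ?_,
    hgv'⟩
  refine ne_zero_of_Q_ne (v := b) (Q := Q) (by rw [hb']; exact one_ne_zero)
    (ND.eq_zero (hD.decomp.nondegenerate j) hb fun w hw => ?_)
  have h3 := ho i j hij _ hm w hw
  rw [hgv', ho i j hij y hy b hb, ho i l hil y hy d hd, polar_sub_left, polar_add_left, B_smul_left,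
    B_smul_left, polar_add_left, polar_add_left, ho i j hij y hy w hw, ho i j hij a ha w hw,
    ho l j hjl.symm d hd w hw] at h3
  exact (mul_eq_zero.1 (show polar Q y a * _ = 0 by linear_combination h3)).resolve_left hya

theorem OQ.two_between (h : OQ S Q) (hD : IsOrthogonalMDecomposition Q 2 D)
    (hn : 6 ≤ Fintype.card ι) (hF : Fintype.card F = 2) (hp : ∀ i, Plus Q (D i)) :
    ∃ M, decompositionStabilizer D ⊓ omegaGL Q < M ∧ M < omegaGL Q := by
  have h2 : (2 : F) = 0 := two_eq_zero_of_even (by rw [hF]; decide)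
  have h3 := vecs_pair hD (c := 1) (p := fun u v => polar Q u v = 0) (fun _ _ h0 => h0)
    fun i u hu v hv h1 h1' => by
      rcases plane_small (by omega) (hD.decomp.nondegenerate i) (hD.decomp.decomp.finrank_eq i)
        (hp i) hu hv h1 h1' with rfl | rfl
      · rw [B_self, h2, zero_mul]
      · rw [polar_neg_right, B_self, h2, zero_mul, neg_zero]
  obtain ⟨a, ha, b, hb, d, hd, g, hg, hgH, hgv⟩ := h.exists_root hD (by omega) h2
  refine h.vecs_between hD hn one_ne_zero ha hg hgH fun v hv => ?_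
  rw [hgv, h3 v hv a ha, h3 v hv b hb, h3 v hv d hd]
  simpa using hv

theorem OQ.four_between (h : OQ S Q) (hD : IsOrthogonalMDecomposition Q 2 D)
    (hn : 7 ≤ Fintype.card ι) (hF : Fintype.card F = 4) (hp : ∀ i, Plus Q (D i)) :
    ∃ M, decompositionStabilizer D ⊓ omegaGL Q < M ∧ M < omegaGL Q := by
  have h2 : (2 : F) = 0 := two_eq_zero_of_even (by rw [hF]; decide)
  have h3 := vecs_pair hD (c := 1) (p := fun u v => polar Q u v ∈ (⊥ : Subfield F))
    (fun _ _ h0 => by rw [h0]; exact zero_mem _) fun i u hu v hv h1 h1' => by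
      obtain ⟨x, hx, hb, -⟩ := plane_pair (hD.decomp.nondegenerate i)
        (hD.decomp.decomp.finrank_eq i) (hp i) hu hv h1 h1'
      have h3 := pow_card_sub_one (q := 3) hF hx
      rw [hb]
      by_cases hx1 : x = 1
      · rw [hx1, inv_one]; exact add_mem (one_mem _) (one_mem _)
      · rw [show x + x⁻¹ = -1 by
          field_simp
          apply mul_left_cancel₀ (sub_ne_zero.2 hx1)
          linear_combination h3]
        exact neg_mem (one_mem _)
  obtain ⟨a, ha, b, hb, d, hd, g, hg, hgH, hgv⟩ := h.exists_root hD (by omega) h2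
  have hF' := fixQ_of_le (inf_le_right : decompositionStabilizer D ⊓ omegaGL Q ≤ _)
  obtain ⟨ω, hω⟩ : ∃ ω, ω ∉ (⊥ : Subfield F) := by
    by_contra hc
    push Not at hc
    exact bot_ne_top (by rw [hF]; decide) (eq_top_iff.2 fun x _ => hc x)
  obtain ⟨⟨i, hi⟩, ha'⟩ := id ha
  have h4 := S.finrank_perp_add (D i)
  rw [hD.decomp.decomp.finrank_eq] at h4
  have hdis := Submodule.disjoint_def.1 (h.isCompl_perp (hD.decomp.nondegenerate i)).disjoint
  have ha0 : a ≠ 0 := ne_zero_of_Q_ne (by rw [ha']; exact one_ne_zero)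
  obtain ⟨u, hu, hu0, hu'⟩ := h.shift_one (by omega) (S.perp (D i)) (by omega)
    fun hm => ha0 (hdis a hi hm)
  obtain ⟨s, hs, hus⟩ : ∃ s ∈ vecs Q D 1, polar Q u s ≠ 0 := by
    by_contra hc
    push Not at hc
    refine hu0 (h.nd u fun w => ?_)
    have : Orth Q (Submodule.span F {u}) (Finset.univ.sup D) := by
      refine (Orth.finsup fun j _ => ?_).symm
      obtain ⟨e, f, hef, hj⟩ := exists_hyp_plane (hD.decomp.nondegenerate j)
        (hD.decomp.decomp.finrank_eq j) (hp j)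
      have hω0 : ω ≠ 0 := fun h0 => hω (h0 ▸ zero_mem _)
      have h5 : ∀ x : F, x ≠ 0 → x * polar Q u e + x⁻¹ * polar Q u f = 0 := fun x hx => by
        rw [← B_smul_right, ← B_smul_right, ← polar_add_right]
        refine hc _ ⟨⟨j, hj ▸ Submodule.mem_span_pair.2 ⟨_, _, rfl⟩⟩, ?_⟩
        rw [Q_add, Q_smul, Q_smul, B_smul_left, B_smul_right, hef.1, hef.2, hef.3]
        field_simp
        ring
      have h6 := h5 1 one_ne_zero
      have h7 := h5 ω hω0
      have h8 : ω - ω⁻¹ ≠ 0 := fun h0 => hω (by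
        have : (ω - 1) ^ 2 = 0 := by field_simp at h0; linear_combination h0 + (1 - ω) * h2
        rw [sub_eq_zero.1 (pow_eq_zero_iff two_ne_zero |>.1 this)]
        exact one_mem _)
      have h9 : polar Q u e = 0 := (mul_eq_zero.1
        (show (ω - ω⁻¹) * _ = 0 by linear_combination h7 - ω⁻¹ * h6)).resolve_left h8
      rw [hj]
      refine orth_span ?_
      rintro _ (rfl | rfl) _ rfl
      · rwa [polar_comm]
      · rw [polar_comm]; linear_combination h6 - h9
    rw [univ_sup_eq_top hD.decomp.decomp] at this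
    exact this u (Submodule.mem_span_singleton_self u) w trivial
  obtain ⟨g', hg', hga⟩ := hu' (ω / polar Q u s)
  refine between_set {x | ∀ s ∈ vecs Q D 1, polar Q x s ∈ (⊥ : Subfield F)} inf_le_right
    (fun k hk x hx s hs => ?_) hg hgH (fun x hx s hs => ?_) hg' (h3 a ha) fun hm => hω ?_
  · rw [← B_mulVec hF' (inv_mem hk), gl_inv_mulVec]
    exact hx _ (vecs_inv hF' inf_le_left 1 _ (inv_mem hk) s hs)
  · rw [hgv, polar_sub_left, polar_add_left, B_smul_left, B_smul_left, polar_add_left,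
      polar_add_left]
    exact sub_mem (add_mem (hx s hs) (mul_mem (add_mem (hx a ha) (hx d hd))
      (add_mem (h3 a ha s hs) (h3 b hb s hs)))) (mul_mem (add_mem (hx a ha) (hx b hb))
      (add_mem (h3 a ha s hs) (h3 d hd s hs)))
  · have := hm s hs
    rw [hga, polar_add_left, B_smul_left, div_mul_cancel₀ _ hus] at this
    exact (add_mem_cancel_left (h3 a ha s hs)).1 this

theorem OQ.two_four_between (h : OQ S Q) (hD : IsOrthogonalMDecomposition Q 4 D)
    (hn : 8 ≤ Fintype.card ι) (hF : Fintype.card F = 2) (hp : ∀ i, Plus Q (D i)) :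
    ∃ M, decompositionStabilizer D ⊓ omegaGL Q < M ∧ M < omegaGL Q := by
  have h2 : (2 : F) = 0 := two_eq_zero_of_even (by rw [hF]; decide)
  have ht := hD.decomp.decomp.two_le
  obtain ⟨i, j, hij⟩ : ∃ i j : Fin t, i ≠ j := ⟨⟨0, by omega⟩, ⟨1, by omega⟩, by simp⟩
  have h4 := fun i => four_plus hF (hD.decomp.nondegenerate i) (hD.decomp.decomp.finrank_eq i) (hp i)
  obtain ⟨a, ha, a', ha', qa, qa', ba⟩ := (h4 i).1
  obtain ⟨b, hb, b', hb', qb, qb', bb⟩ := (h4 j).1
  have ho := hD.decomp.orthogonal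
  have hs : ∀ x, polar Q x x = 0 := fun x => by rw [B_self, h2, zero_mul]
  have hneg : ∀ x : ι → F, x + x = 0 := fun x => by rw [← two_smul F, h2, zero_smul]
  have o1 := ho i j hij a ha b hb
  have o2 := ho i j hij a ha b' hb'
  have o3 := ho i j hij a' ha' b hb
  have o4 := ho i j hij a' ha' b' hb'
  obtain ⟨g, hg, hgv⟩ := h.exists_eich (u := a + b) (v := a' + b') (by omega)
    (by rw [Q_add, qa, qb, o1]; linear_combination h2)
    (by rw [polar_add_left, polar_add_right, polar_add_right, ba, bb, o2, polar_comm _ b, o3]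
        linear_combination h2)
  have hgv' : ∀ x, (g : Matrix ι ι F) *ᵥ x = x + (polar Q x a' + polar Q x b') • (a + b) -
      (polar Q x a + polar Q x b) • (a' + b') := fun x => by
    rw [hgv, polar_add_right, polar_add_right, Q_add, qa', qb', o4,
      show (1 : F) + 1 + 0 = 0 by linear_combination h2, zero_mul, zero_smul, sub_zero]
  have ga : (g : Matrix ι ι F) *ᵥ a = b := by
    rw [hgv', ba, o1, o2, hs]; simp [← add_assoc, hneg]
  have ga' : (g : Matrix ι ι F) *ᵥ a' = -b' := by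
    rw [hgv', polar_comm _ a' a, ba, o3, o4, hs]; simp
  have gb : (g : Matrix ι ι F) *ᵥ b = a := by
    rw [hgv', bb, polar_comm _ b a, polar_comm _ b a', o1, o3, hs]
    simp [add_comm a, ← add_assoc, hneg]
  have gb' : (g : Matrix ι ι F) *ᵥ b' = -a' := by
    rw [hgv', polar_comm _ b' b, bb, polar_comm _ b' a, polar_comm _ b' a', o2, o4, hs]; simp
  have gfix : ∀ x, polar Q a x = 0 ∧ polar Q a' x = 0 → polar Q b x = 0 ∧ polar Q b' x = 0 →
      (g : Matrix ι ι F) *ᵥ x = x := fun x h1 h3 => by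
    rw [hgv', polar_comm _ x, polar_comm _ x, polar_comm _ x, polar_comm _ x b, h1.1, h1.2, h3.1,
      h3.2]
    simp
  obtain ⟨y, hy, hy0, hya⟩ := exists_orth hD (i := i) h (Submodule.span F {a, a'})
    ((finrank_span_two_le a a').trans_lt (by omega))
  refine h.vecs_between hD hn one_ne_zero ⟨⟨i, ha⟩, qa⟩ hg (not_mem_stab hD (j := j) ha hy
    (ne_zero_of_Q_ne (by rw [qa]; exact one_ne_zero)) (by rwa [ga]) ?_) ?_
  · rw [gfix y ⟨by rw [polar_comm]; exact hya _ (Submodule.subset_span (by simp)),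
      by rw [polar_comm]; exact hya _ (Submodule.subset_span (by simp))⟩
      ⟨ho j i hij.symm b hb y hy, ho j i hij.symm b' hb' y hy⟩]
    exact fun hl => hy0 (nd_eq_zero hD hij hy hl)
  · rintro v ⟨⟨l, hl⟩, hv⟩
    refine ⟨?_, by rw [fixQ_of_le le_rfl g hg, hv]⟩
    by_cases hli : l = i
    · subst hli
      rcases (h4 l).2 a ha a' ha' v hl qa qa' hv ba with h5 | h5
      · obtain ⟨c, c', rfl⟩ := Submodule.mem_span_pair.1 h5
        exact ⟨j, by
          rw [mulVec_add, mulVec_smul, mulVec_smul, ga, ga']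
          exact add_mem ((D j).smul_mem _ hb) ((D j).smul_mem _ (neg_mem hb'))⟩
      · exact ⟨l, by rwa [gfix v h5 ⟨ho j l hij.symm b hb v hl, ho j l hij.symm b' hb' v hl⟩]⟩
    have h6 : polar Q a v = 0 ∧ polar Q a' v = 0 :=
      ⟨ho i l (Ne.symm hli) a ha v hl, ho i l (Ne.symm hli) a' ha' v hl⟩
    by_cases hlj : l = j
    · subst hlj
      rcases (h4 l).2 b hb b' hb' v hl qb qb' hv bb with h5 | h5
      · obtain ⟨c, c', rfl⟩ := Submodule.mem_span_pair.1 h5
        exact ⟨i, by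
          rw [mulVec_add, mulVec_smul, mulVec_smul, gb, gb']
          exact add_mem ((D i).smul_mem _ ha) ((D i).smul_mem _ (neg_mem ha'))⟩
      · exact ⟨l, by rwa [gfix v h6 h5]⟩
    · exact ⟨l, by
        rwa [gfix v h6 ⟨ho j l (Ne.symm hlj) b hb v hl, ho j l (Ne.symm hlj) b' hb' v hl⟩]⟩

end Dec

end H12.A
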