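import Mathlib
import Cfsg.Agent.Lib.Orth12.NonMax1
import Cfsg.Agent.Lib.AschF.UMain

/-!
Non-maximal stabilisers of tensor decompositions.
-/

set_option autoImplicit false
set_option linter.unusedSectionVars false

namespace H12.A

open Matrix Cfsg Cfsg.Geo H10.Asch H28.AF Module QuadraticMap
open scoped MatrixGroups Kronecker

variable {ι κ μ : Type} [Fintype ι] [DecidableEq ι] [Fintype κ] [DecidableEq κ] [Fintype μ]
  [DecidableEq μ] {F : Type*} [Field F] [Fintype F]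

theorem exists_sf {σ : F →+* F} (hσ : ∀ a, σ (σ a) = a) {f : (ι → F) → (ι → F) → F}
    (hf : IsSesq σ f) (hn : IsNondegenerateForm f) {ε : F} (hε : ε = 1 ∨ ε = -1)
    (hs : ∀ u v, f v u = ε * σ (f u v)) : ∃ S : SF ι F, S.σ = σ ∧ S.ε = ε ∧ S.f = f := by
  have hu := hf.isUnit_gram hn
  refine ⟨⟨σ, hσ, hu.unit, ε, hε, ?_⟩, rfl, rfl, hf.eq_gform.symm⟩
  ext i j
  rw [cT_apply, IsUnit.unit_spec, Matrix.smul_apply, smul_eq_mul]
  change σ (f _ _) = ε * f _ _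
  rw [hs (Pi.single j 1), ← mul_assoc]
  rcases hε with rfl | rfl <;> simp

theorem exists_sf_sym {f : (ι → F) → (ι → F) → F} (hf : IsSymmetricForm f) :
    ∃ S : SF ι F, S.σ = RingHom.id F ∧ S.ε = 1 ∧ S.f = f :=
  exists_sf (fun _ => rfl) (isSesq_of_bilinear hf.bilinear) hf.nondegenerate (Or.inl rfl)
    fun u v => by rw [hf.symm, one_mul]; rfl

theorem exists_sf_alt {f : (ι → F) → (ι → F) → F} (hf : IsSymplecticForm f) :
    ∃ S : SF ι F, S.σ = RingHom.id F ∧ S.ε = -1 ∧ S.f = f :=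
  exists_sf (fun _ => rfl) (isSesq_of_bilinear hf.bilinear) hf.nondegenerate (Or.inr rfl)
    fun u v => by rw [hf.skew, neg_one_mul]; rfl

theorem exists_sf_herm {q : ℕ} {σ : F →+* F} (hσ : ∀ a, σ (σ a) = a) (hq : ∀ a, σ a = a ^ q)
    {f : (ι → F) → (ι → F) → F} (hf : IsUnitaryFormPow q f) :
    ∃ S : SF ι F, S.σ = σ ∧ S.ε = 1 ∧ S.f = f :=
  exists_sf hσ ⟨hf.add_left, hf.smul_left,
    fun v x y => by rw [hf.herm v, hf.add_left, ← hq, map_add, hq, hq, ← hf.herm, ← hf.herm],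
    fun c v x => by rw [hf.herm v, hf.smul_left, mul_pow, ← hf.herm, hq]⟩ hf.nondegenerate
    (Or.inl rfl) fun u v => by rw [hf.herm, hq, one_mul]

theorem exists_tv (S : SF ι F) {z : ι → F} {c : F} (hz : S.f z z = 0) (hc : c + S.σ c * S.ε = 0) :
    ∃ g ∈ S.Isom, (g : Matrix ι ι F).det = 1 ∧
      ∀ v, (g : Matrix ι ι F) *ᵥ v = v + (c * S.f v z) • z := by
  have h1 : S.rk1 z z * S.rk1 z z = 0 := by rw [S.rk1_mul, hz, zero_smul]
  refine ⟨⟨1 + c • S.rk1 z z, 1 - c • S.rk1 z z, by simp [mul_sub, add_mul, h1],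
    by simp [sub_mul, mul_add, h1]⟩, S.mem_isom_iff_st.2 ?_, ?_, fun v => ?_⟩
  · simp only [SF.st_add, SF.st_one, SF.st_smul, SF.st_rk1, mul_add, add_mul, one_mul, mul_one,
      smul_mul_assoc, mul_smul_comm, h1, smul_zero, add_zero, smul_smul]
    rw [add_assoc, ← add_smul, add_comm _ c, hc, zero_smul, add_zero]
  · change det (1 + c • S.rk1 z z) = 1
    rw [SF.rk1, ← smul_vecMulVec, vecMulVec_eq Unit, det_one_add_replicateCol_mul_replicateRow,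
      dotProduct_comm, smul_dotProduct]
    change 1 + c • S.f z z = 1
    rw [hz, smul_zero, add_zero]
  · simp [add_mulVec, smul_mulVec, SF.rk1_mulVec, smul_smul]

/-- pure tensors in the coordinates `(e, P)` -/
def phi (e : ι ≃ κ × μ) (P : GL ι F) : (κ → F) →ₗ[F] (μ → F) →ₗ[F] ι → F :=
  LinearMap.mk₂ F (fun x y => (P : Matrix ι ι F) *ᵥ (pt x y ∘ e))
    (fun x x' y => by rw [← mulVec_add]; congr 1; ext i; simp [pt, add_mul])
    (fun c x y => by rw [← mulVec_smul]; congr 1; ext i; simp [pt, mul_assoc])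
    (fun x y y' => by rw [← mulVec_add]; congr 1; ext i; simp [pt, mul_add])
    (fun c x y => by rw [← mulVec_smul]; congr 1; ext i; simp [pt, mul_left_comm])

theorem phi_apply (e : ι ≃ κ × μ) (P : GL ι F) (x : κ → F) (y : μ → F) :
    phi e P x y = (P : Matrix ι ι F) *ᵥ (pt x y ∘ e) := rfl

theorem tr_kron_phi (e : ι ≃ κ × μ) (P : GL ι F) (a : Matrix κ κ F) (b : Matrix μ μ F) (x : κ → F)
    (y : μ → F) : tr e P (a ⊗ₖ b) *ᵥ phi e P x y = phi e P (a *ᵥ x) (b *ᵥ y) := by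
  rw [phi_apply, tr_mulVec, kron_mulVec_pt, phi_apply]

/-- a tensor structure on the level of vectors -/
structure TF (S : SF ι F) (S₁ : SF κ F) (S₂ : SF μ F) (φ : (κ → F) →ₗ[F] (μ → F) →ₗ[F] ι → F)
    (c : F) (M : Subgroup (GL ι F)) : Prop where
  ne : c ≠ 0
  f : ∀ x y x' y', S.f (φ x y) (φ x' y') = c * (S₁.f x x' * S₂.f y y')
  mem : ∀ g ∈ M, ∃ (s : GL κ F) (t : GL μ F), ∀ x y,
    (g : Matrix ι ι F) *ᵥ φ x y = φ ((s : Matrix κ κ F) *ᵥ x) ((t : Matrix μ μ F) *ᵥ y)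

theorem exists_tf {n₁ n₂ : ℕ} {e : ι ≃ Fin n₁ × Fin n₂} {P : GL ι F} {S : SF ι F}
    {S₁ : SF (Fin n₁) F} {S₂ : SF (Fin n₂) F} (h₁ : S₁.σ = S.σ) (h₂ : S₂.σ = S.σ)
    (h : IsTensorFormStructure S.σ S.f S₁.f S₂.f e P) :
    ∃ c, TF S S₁ S₂ (phi e P) c (tensorProductSubgroup n₁ n₂ e P) := by
  obtain ⟨c, hc, h⟩ := h
  refine ⟨c, hc, fun x y x' y' => ?_, fun g hg => ?_⟩
  · rw [phi_apply, phi_apply, h, formOfGram_eq, SF.gram, SF.gram, gform_kron_pt, SF.f, SF.f, h₁, h₂]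
  · obtain ⟨s, t, hst⟩ := (mem_tensorProductSubgroup e P g).1 hg
    refine ⟨s, t, fun x y => ?_⟩
    rw [← tr_kron_phi, ← hst, ← coe_trGL, MulEquiv.apply_symm_apply]

namespace TF

variable {S : SF ι F} {S₁ : SF κ F} {S₂ : SF μ F} {φ : (κ → F) →ₗ[F] (μ → F) →ₗ[F] ι → F} {c : F}
  {M : Subgroup (GL ι F)}

theorem flip (h : TF S S₁ S₂ φ c M) : TF S S₂ S₁ φ.flip c M :=
  ⟨h.ne, fun x y x' y' => by rw [LinearMap.flip_apply, LinearMap.flip_apply, h.f, mul_comm (S₁.f _ _)],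
    fun g hg => by
      obtain ⟨s, t, hst⟩ := h.mem g hg
      exact ⟨t, s, fun x y => hst y x⟩⟩

theorem prop (h : TF S S₁ S₂ φ c M) {x x' : κ → F} {y y' : μ → F} (he : φ x y = φ x' y')
    (hx : x ≠ 0) : ∃ a : F, y = a • y' := by
  obtain ⟨w, hw⟩ := S₁.exists_ne_right hx
  refine ⟨S₁.f x' w / S₁.f x w, S₂.ext_left fun u => ?_⟩
  have := congrArg (S.f · (φ w u)) he
  simp only [h.f] at this
  rw [S₂.smul_left, div_mul_eq_mul_div, eq_div_iff hw, mul_comm]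
  exact mul_left_cancel₀ h.ne this

theorem sim [Nonempty μ] (h : TF S S₁ S₂ φ c M) {g : GL ι F} (hg : g ∈ S.Isom) {s : GL κ F}
    {t : GL μ F} (hst : ∀ x y, (g : Matrix ι ι F) *ᵥ φ x y =
      φ ((s : Matrix κ κ F) *ᵥ x) ((t : Matrix μ μ F) *ᵥ y)) : s ∈ similarityGroup S₁.f := by
  have hy : (t : Matrix μ μ F) *ᵥ (fun _ => 1) ≠ 0 := fun h0 => by
    have := gl_inv_mulVec t fun _ => 1
    rw [h0, mulVec_zero] at this
    exact zero_ne_one (congrFun this (Classical.arbitrary μ))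
  obtain ⟨w, hw⟩ := S₂.exists_ne_right hy
  obtain ⟨w, rfl⟩ : ∃ w', w = (t : Matrix μ μ F) *ᵥ w' := ⟨_, (gl_mulVec_inv t w).symm⟩
  have key : ∀ u v, S₁.f ((s : Matrix κ κ F) *ᵥ u) ((s : Matrix κ κ F) *ᵥ v) =
      S₂.f (fun _ => 1) w / S₂.f ((t : Matrix μ μ F) *ᵥ fun _ => 1) ((t : Matrix μ μ F) *ᵥ w) *
        S₁.f u v := fun u v => by
    have := S.mem_isom.1 hg (φ u fun _ => 1) (φ v w)
    rw [hst, hst, h.f, h.f] at this
    field_simp
    rw [mul_comm _ (S₁.f u v)]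
    exact mul_left_cancel₀ h.ne this
  by_cases h0 : S₂.f (fun _ => 1) w = 0
  · refine ⟨1, fun u v => ?_⟩
    have h1 : ∀ u v, S₁.f u v = 0 := fun u v => by
      rw [← gl_mulVec_inv s u, ← gl_mulVec_inv s v, key, h0, zero_div, zero_mul]
    rw [h1, h1, mul_zero]
  · exact ⟨Units.mk0 _ (div_ne_zero h0 hw), key⟩

end TF

/-- an invariant set of vectors which are pairwise orthogonal or proportional -/
structure Fr (S : SF κ F) (T : Set (κ → F)) (x₁ x₂ : κ → F) : Prop where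
  inv : ∀ s ∈ similarityGroup S.f, ∀ x ∈ T, (s : Matrix κ κ F) *ᵥ x ∈ T
  pair : ∀ x ∈ T, ∀ x' ∈ T, S.f x x' = 0 ∨ ∃ a : F, x = a • x'
  mem₁ : x₁ ∈ T
  mem₂ : x₂ ∈ T
  ne₁ : S.f x₁ x₁ ≠ 0
  ne₂ : S.f x₂ x₂ ≠ 0
  orth : S.f x₁ x₂ = 0

theorem TF.between {S : SF ι F} {S₁ : SF κ F} {S₂ : SF μ F}
    {φ : (κ → F) →ₗ[F] (μ → F) →ₗ[F] ι → F} {c : F} {M G : Subgroup (GL ι F)}
    (h : TF S S₁ S₂ φ c M) (hG : G ≤ S.Isom) {T : Set (κ → F)} {x₁ x₂ : κ → F} (hT : Fr S₁ T x₁ x₂)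
    {g g' : GL ι F} (hg : g ∈ G) (h1 : ∀ y, ∃ y', (g : Matrix ι ι F) *ᵥ φ x₁ y = φ x₁ y')
    (h2 : ∀ v, (∀ y, S.f v (φ x₁ y) = 0) → (g : Matrix ι ι F) *ᵥ v = v) {y₀ y₁ : μ → F}
    (h3 : (g : Matrix ι ι F) *ᵥ φ x₁ y₀ = φ x₁ y₁) (h4 : ∀ a : F, y₁ ≠ a • y₀) (hg' : g' ∈ G)
    {y₂ y₃ y₄ : μ → F} (h5 : (g' : Matrix ι ι F) *ᵥ φ x₁ y₂ = φ x₁ y₃ + φ x₂ y₄) (h6 : y₃ ≠ 0)
    (h7 : y₄ ≠ 0) : ∃ K, M ⊓ G < K ∧ K < G := by
  have : Nonempty μ := by
    obtain ⟨i, -⟩ := Function.ne_iff.1 h6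
    exact ⟨i⟩
  have o' := S₁.eq_zero_symm hT.orth
  have n₁ : x₁ ≠ 0 := fun h0 => hT.ne₁ (by rw [h0, S₁.zero_left])
  have n₂ : x₂ ≠ 0 := fun h0 => hT.ne₂ (by rw [h0, S₁.zero_left])
  refine between_set {v | ∃ x ∈ T, ∃ y, v = φ x y} inf_le_right ?_ hg (fun hm => ?_) ?_ hg'
    ⟨x₁, hT.mem₁, y₂, rfl⟩ ?_
  · rintro k hk _ ⟨x, hx, y, rfl⟩
    obtain ⟨s, t, hst⟩ := h.mem k hk.1
    exact ⟨_, hT.inv s (h.sim (hG hk.2) hst) x hx, _, hst x y⟩
  · obtain ⟨s, t, hst⟩ := h.mem g hm.1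
    obtain ⟨a, ha⟩ := h.prop ((hst x₂ y₀).symm.trans (h2 _ fun y => by
      rw [h.f, o', zero_mul, mul_zero])) fun h0 => n₂ (by rw [← gl_inv_mulVec s x₂, h0, mulVec_zero])
    obtain ⟨b, hb⟩ := h.prop (h3.symm.trans (hst x₁ y₀)) n₁
    exact h4 (b * a) (by rw [hb, ha, smul_smul])
  · rintro _ ⟨x, hx, y, rfl⟩
    rcases hT.pair x hx x₁ hT.mem₁ with h0 | ⟨a, rfl⟩
    · exact ⟨x, hx, y, h2 _ fun y' => by rw [h.f, h0, zero_mul, mul_zero]⟩
    · obtain ⟨y', hy'⟩ := h1 (a • y)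
      exact ⟨x₁, hT.mem₁, y', by rw [← hy', LinearMap.map_smul₂, map_smul]⟩
  · rintro ⟨x, hx, y, hxy⟩
    rw [h5] at hxy
    obtain ⟨w, hw⟩ := S₂.exists_ne_right h6
    obtain ⟨w', hw'⟩ := S₂.exists_ne_right h7
    have e1 := congrArg (S.f · (φ x₁ w)) hxy
    have e2 := congrArg (S.f · (φ x₂ w')) hxy
    simp only [S.add_left, h.f, o', hT.orth, zero_mul, mul_zero, add_zero, zero_add] at e1 e2
    rcases hT.pair x hx x₁ hT.mem₁ with h0 | ⟨a, rfl⟩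
    · rw [h0, zero_mul, mul_zero] at e1
      exact mul_ne_zero h.ne (mul_ne_zero hT.ne₁ hw) e1
    · rw [S₁.smul_left, hT.orth, mul_zero, zero_mul, mul_zero] at e2
      exact mul_ne_zero h.ne (mul_ne_zero hT.ne₂ hw') e2

/-- the case of groups containing transvections -/
theorem TF.between_tv {S : SF ι F} {S₁ : SF κ F} {S₂ : SF μ F}
    {φ : (κ → F) →ₗ[F] (μ → F) →ₗ[F] ι → F} {c : F} {M G : Subgroup (GL ι F)}
    (h : TF S S₁ S₂ φ c M) (hG : G ≤ S.Isom) {T : Set (κ → F)} {x₁ x₂ : κ → F} (hT : Fr S₁ T x₁ x₂)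
    (htv : ∀ z, S.f z z = 0 → ∃ g ∈ G, ∀ v, (g : Matrix ι ι F) *ᵥ v = v + S.f v z • z) {a : μ → F}
    (ha0 : a ≠ 0) (ha : S₂.f a a = 0) : ∃ K, M ⊓ G < K ∧ K < G := by
  obtain ⟨y, hy⟩ := S₂.exists_ne_left ha0
  have hl := mul_ne_zero h.ne (mul_ne_zero hT.ne₁ hy)
  have hne : ∀ b : F, y + (c * (S₁.f x₁ x₁ * S₂.f y a)) • a ≠ b • y := fun b hb => by
    have h1 := congrArg (S₂.f · a) hb
    simp only [S₂.add_left, S₂.smul_left, ha, mul_zero, add_zero] at h1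
    rw [← mul_right_cancel₀ hy ((one_mul _).trans h1), one_smul, add_eq_left] at hb
    exact smul_ne_zero hl ha0 hb
  obtain ⟨g, hg, hgv⟩ := htv (φ x₁ a) (by rw [h.f, ha, mul_zero, mul_zero])
  obtain ⟨g', hg', hgv'⟩ := htv (φ x₁ a + φ x₂ a) (by
    simp only [S.add_left, S.add_right, h.f, ha, mul_zero, add_zero])
  refine h.between hG hT hg (fun y => ⟨_, by rw [hgv, ← map_smul, ← map_add]⟩)
    (fun v hv => by rw [hgv, hv, zero_smul, add_zero])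
    (by rw [hgv, ← map_smul, ← map_add, h.f]) hne hg' (y₂ := y) ?_
    (fun h0 => hne 0 (h0.trans (zero_smul _ _).symm)) (smul_ne_zero hl ha0)
  rw [hgv', S.add_right, h.f, h.f, hT.orth, zero_mul, mul_zero, add_zero, smul_add, map_add,
    map_smul, map_smul, add_assoc]

theorem exists_fr_three (hF : Fintype.card F = 3) (S : SF (Fin 3) F) (hσ : ∀ a, S.σ a = a)
    (hε : S.ε = 1) : ∃ T x₁ x₂, Fr S T x₁ x₂ := by
  have h2 := two_ne_zero_of_three hF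
  obtain ⟨Q, h⟩ := exists_oq_of_sym S h2 hσ hε
  obtain ⟨c, hc, hcc⟩ := fr_three hF h.nd (by simp)
  obtain ⟨x₁, h₁⟩ := h.nd.universal (by simp) c
  have n₁ : polar Q x₁ x₁ ≠ 0 := by rw [B_self, h₁]; exact mul_ne_zero h2 hc
  have h3 := S.finrank_perp_add (Submodule.span F {x₁})
  rw [finrank_span_singleton (ne_zero_of_Q_ne (by rwa [h₁])), Fintype.card_fin] at h3
  obtain ⟨x₂, h₂⟩ := (ND.nondeg (h.nd_perp (nd_line n₁))).universal (by omega) c
  refine ⟨{x | Q x = c}, x₁, x₂, fun s ⟨l, hl⟩ x hx => ?_, fun x hx x' hx' => ?_, h₁, h₂,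
    by rwa [h.hf], ?_, S.mem_perp'.1 x₂.2 _ (Submodule.mem_span_singleton_self _)⟩
  · have h4 := congrArg Matrix.det (S.st_mul_self_of_sim hl)
    rw [det_mul, det_st _ hσ, det_smul, det_one, hσ, sq_eq_one_of_card_three hF s.det_ne_zero,
      Fintype.card_fin, pow_succ, pow_two, sq_eq_one_of_card_three hF l.ne_zero, one_mul, mul_one] at h4
    apply mul_left_cancel₀ h2
    rw [← h.f_self, hl, ← h4, one_mul, h.f_self, hx]
  · rcases hcc x' x hx' hx with h4 | h4 | h4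
    · exact Or.inr ⟨1, by rw [h4, one_smul]⟩
    · exact Or.inr ⟨-1, by rw [h4, neg_one_smul]⟩
    · exact Or.inl (by rw [h.hf, polar_comm, h4])
  · rw [h.f_self, show Q x₂ = c from h₂]; exact mul_ne_zero h2 hc

theorem exists_orthonormal_pair (S : SF κ F) (hne : S.σ ≠ RingHom.id F) (hε : S.ε = 1)
    (hn : 2 ≤ Fintype.card κ) : ∃ u v, S.f u u = 1 ∧ S.f v v = 1 ∧ S.f u v = 0 := by
  have : Nonempty κ := Fintype.card_pos_iff.1 (by omega)
  obtain ⟨u, -, hu⟩ := S.exists_norm_one hne hε S.nondeg_top top_ne_bot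
  have h1 : IsNondegenerateOn S.f (Submodule.span F {u}) := by
    rw [S.isNondegenerateOn_iff, Submodule.eq_bot_iff]
    rintro v ⟨hv, hv'⟩
    obtain ⟨a, rfl⟩ := Submodule.mem_span_singleton.1 hv
    have := hv' u (Submodule.mem_span_singleton_self u)
    rw [S.smul_left, hu, mul_one] at this
    rw [this, zero_smul]
  have h2 := S.finrank_perp_add (Submodule.span F {u})
  have h3 := finrank_span_one_le u
  obtain ⟨v, hv, hv'⟩ := S.exists_norm_one hne hε (S.nondeg_perp h1) fun h0 => by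
    rw [h0, finrank_bot] at h2; omega
  exact ⟨u, v, hu, hv', S.mem_perp'.1 hv _ (Submodule.mem_span_singleton_self _)⟩

theorem exists_fr_two (hF : Fintype.card F = 2 ^ 2) (S : SF (Fin 2) F) (hσ : ∀ a, S.σ a = a ^ 2)
    (hε : S.ε = 1) : ∃ T x₁ x₂, Fr S T x₁ x₂ := by
  obtain ⟨u, v, hu, hv, huv⟩ := exists_orthonormal_pair S (pow_ne_id hF hσ) hε (by simp)
  exact ⟨{x | S.f x x = 1}, u, v, fun s hs x hx => (S.sim_le_isom_two hσ hs x x).trans hx,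
    fun x hx x' hx' => S.pair_two hF hσ hε S.nondeg_top (by simp) trivial trivial hx' hx, hu, hv,
    by rw [hu]; exact one_ne_zero, by rw [hv]; exact one_ne_zero, huv⟩

theorem OQ.three_tensor {S : SF ι F} {Q : QuadraticForm F (ι → F)} (h : OQ S Q)
    (hF : Fintype.card F = 3) {n₂ : ℕ} (hn : 4 ≤ n₂) {e : ι ≃ Fin 3 × Fin n₂} {P : GL ι F}
    {f₁ : (Fin 3 → F) → (Fin 3 → F) → F} {f₂ : (Fin n₂ → F) → (Fin n₂ → F) → F}
    (hf₁ : IsSymmetricForm f₁) (hf₂ : IsSymmetricForm f₂)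
    (hT : IsTensorFormStructure id (polar Q) f₁ f₂ e P) :
    ∃ K, tensorProductSubgroup 3 n₂ e P ⊓ omegaGL Q < K ∧ K < omegaGL Q := by
  have h2 := two_ne_zero_of_three hF
  obtain ⟨S₁, a₁, b₁, rfl⟩ := exists_sf_sym hf₁
  obtain ⟨S₂, a₂, b₂, rfl⟩ := exists_sf_sym hf₂
  obtain ⟨c, T⟩ := exists_tf (S := S) (a₁.trans h.hσ'.symm) (a₂.trans h.hσ'.symm)
    (by rw [h.hf, h.hσ']; exact hT)
  obtain ⟨X, x₁, x₂, hX⟩ := exists_fr_three hF S₁ (by simp [a₁]) b₁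
  obtain ⟨Q₂, h₂⟩ := exists_oq_of_sym S₂ h2 (by simp [a₂]) b₂
  obtain ⟨y, hy⟩ := h₂.nd.universal (by simp; omega) 1
  obtain ⟨a, -, ha0, ha, hay⟩ := h₂.exists_sing_orth ⊤ (Submodule.span F {y}) (by
    have := finrank_span_one_le y
    rw [finrank_top, finrank_V, Fintype.card_fin]; omega)
  have hay : S₂.f a y = 0 := by rw [h₂.hf]; exact hay y (Submodule.mem_span_singleton_self y)
  have hya := S₂.eq_zero_symm hay
  have haa : S₂.f a a = 0 := by rw [h₂.f_self, ha, mul_zero]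
  have hyy : S₂.f y y ≠ 0 := by rw [h₂.f_self, hy, mul_one]; exact h2
  have hn4 : Fintype.card ι ≠ 4 := by rw [Fintype.card_congr e]; simp; omega
  have hQ : ∀ x, Q (phi e P x a) = 0 := fun x => (mul_eq_zero.1 (by
    rw [← h.f_self, T.f, haa, mul_zero, mul_zero])).resolve_left h2
  have hB : ∀ x y x' y', polar Q (phi e P x y) (phi e P x' y') = c * (S₁.f x x' * S₂.f y y') := by
    rw [← h.hf]; exact T.f
  obtain ⟨g, hg, hgv⟩ := h.exists_eich hn4 (hQ x₁) (v := phi e P x₁ y)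
    (by rw [hB, hay, mul_zero, mul_zero])
  have hl := mul_ne_zero T.ne (mul_ne_zero hX.ne₁ hyy)
  obtain ⟨g', hg', -, hgv'⟩ := h.shift hn4 (x := 0) (y := phi e P x₁ y) (hQ x₂)
    (polar_zero_right _ _) (by rw [hB, hay, mul_zero, mul_zero]) fun hm => by
      obtain ⟨b, d, hbd⟩ := Submodule.mem_span_pair.1 hm
      apply hl
      rw [← hB, ← hbd, smul_zero, zero_add, B_smul_left, B_smul_right, hB, haa]
      ring
  refine T.between (h.le_isom (fixQ_of_le le_rfl)) hX hg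
    (fun y => ⟨_, by rw [hgv, ← map_smul, ← map_smul, ← map_smul, ← map_add, ← map_sub, ← map_sub]⟩)
    (fun v hv => by rw [h.hf] at hv; rw [hgv, hv, hv]; simp) (y₀ := y)
    (y₁ := y + (c * (S₁.f x₁ x₁ * S₂.f y y)) • a) (by rw [hgv, hB, hB, hya]; simp) (fun b hb => ?_)
    hg' hgv' (fun h0 => hyy (by rw [h0, S₂.zero_left])) ha0
  have h1 := congrArg (S₂.f · y) hb
  simp only [S₂.add_left, S₂.smul_left, hay, mul_zero, add_zero] at h1
  rw [← mul_right_cancel₀ hyy ((one_mul _).trans h1), one_smul, add_eq_left] at hb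
  exact smul_ne_zero hl ha0 hb

theorem sp_tensor (hF : Fintype.card F = 3) {m n₁ : ℕ} (hm : 1 ≤ m)
    {e : (Fin m ⊕ Fin m) ≃ Fin n₁ × Fin 3} {P : GL (Fin m ⊕ Fin m) F}
    {f₁ : (Fin n₁ → F) → (Fin n₁ → F) → F} {f₂ : (Fin 3 → F) → (Fin 3 → F) → F}
    (hf₁ : IsSymplecticForm f₁) (hf₂ : IsSymmetricForm f₂)
    (hT : IsTensorFormStructure id (sympForm m F) f₁ f₂ e P) :
    ∃ K, tensorProductSubgroup n₁ 3 e P ⊓ spGL m F < K ∧ K < spGL m F := by
  obtain ⟨S₁, a₁, b₁, rfl⟩ := exists_sf_alt hf₁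
  obtain ⟨S₂, a₂, b₂, rfl⟩ := exists_sf_sym hf₂
  obtain ⟨c, T⟩ := exists_tf (S := spSF m F) a₁ a₂ hT
  obtain ⟨X, x₁, x₂, hX⟩ := exists_fr_three hF S₂ (by simp [a₂]) b₂
  refine T.flip.between_tv (spSF_isom m).ge hX (fun z hz => ?_) (a := fun _ => 1)
    (fun h0 => one_ne_zero (congrFun h0 (e (.inl ⟨0, hm⟩)).1)) (hf₁.alternating _)
  obtain ⟨g, hg, -, hgv⟩ := exists_tv (spSF m F) hz (c := 1) (by simp [spSF])
  exact ⟨g, hg, by simpa using hgv⟩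

theorem su_tensor (hF : Fintype.card F = 4) {n n₂ : ℕ} (hn : 3 ≤ n) {e : Fin n ≃ Fin 2 × Fin n₂}
    {P : GL (Fin n) F} {f₁ : (Fin 2 → F) → (Fin 2 → F) → F} {f₂ : (Fin n₂ → F) → (Fin n₂ → F) → F}
    (hf₁ : IsUnitaryFormPow 2 f₁) (hf₂ : IsUnitaryFormPow 2 f₂)
    (hT : IsTensorFormStructure (fun x : F => x ^ 2) (hermForm n F 2) f₁ f₂ e P) :
    ∃ K, tensorProductSubgroup 2 n₂ e P ⊓ (GU n F 2 ⊓ specialLinear (Fin n) F) < K ∧
      K < GU n F 2 ⊓ specialLinear (Fin n) F := by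
  have h2 : (2 : F) = 0 := two_eq_zero_of_even (by rw [hF]; decide)
  obtain ⟨S, hσ, hε, -, hf, hI⟩ := exists_uSF (F := F) n (q := 2) hF
  obtain ⟨S₁, a₁, b₁, rfl⟩ := exists_sf_herm S.σσ hσ hf₁
  obtain ⟨S₂, a₂, b₂, rfl⟩ := exists_sf_herm S.σσ hσ hf₂
  obtain ⟨c, T⟩ := exists_tf a₁ a₂ (by rw [hf, funext hσ]; exact hT)
  obtain ⟨X, x₁, x₂, hX⟩ := exists_fr_two hF S₁ (by rw [a₁]; exact hσ) b₁
  obtain ⟨u, v, hu, hv, huv⟩ := exists_orthonormal_pair S₂ (pow_ne_id hF (by rw [a₂]; exact hσ)) b₂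
    (by have := Fintype.card_congr e; simp at this ⊢; omega)
  refine T.between_tv (hI ▸ inf_le_left) hX (fun z hz => ?_) (a := u + v) (fun h0 => ?_) ?_
  · obtain ⟨g, hg, hd, hgv⟩ := exists_tv S hz (c := 1) (by rw [hε, map_one]; linear_combination h2)
    exact ⟨g, ⟨hI ▸ hg, mem_specialLinear.2 hd⟩, by simpa using hgv⟩
  · have := congrArg (S₂.f u ·) h0
    simp only [S₂.add_right, hu, huv, S₂.zero_right, add_zero] at this
    exact one_ne_zero this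
  · rw [S₂.add_left, S₂.add_right, S₂.add_right, hu, hv, huv, S₂.eq_zero_symm huv]
    linear_combination h2

theorem zmod_omega : ∀ a b c d : ZMod 2, a + d = 1 → a * d - b * c = 1 →
    (b = 1 ∧ c = 1) ∧ (a = 0 ∧ d = 1 ∨ a = 1 ∧ d = 0) := by decide

theorem eq_omega (hF : Fintype.card F = 2) {x : Matrix (Fin 2) (Fin 2) F} (h1 : x.trace = 1)
    (h2 : x.det = 1) : x = !![0, 1; 1, 1] ∨ x = !![0, 1; 1, 1] + 1 := by
  have h3 : (1 : F) + 1 = 0 := by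
    linear_combination two_eq_zero_of_even (F := F) (by rw [hF]; decide)
  rw [trace_fin_two] at h1
  rw [det_fin_two] at h2
  let φ := (ZMod.ringEquivOfPrime F Nat.prime_two hF).symm
  have := zmod_omega (φ (x 0 0)) (φ (x 0 1)) (φ (x 1 0)) (φ (x 1 1))
  simp only [← map_mul, ← map_add, ← map_sub, map_eq_one_iff φ φ.injective, map_eq_zero] at this
  obtain ⟨⟨b, c⟩, ⟨a, d⟩ | ⟨a, d⟩⟩ := this h1 h2
  · left; ext i j; fin_cases i <;> fin_cases j <;> simp [a, b, c, d]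
  · right; ext i j; fin_cases i <;> fin_cases j <;> simp [a, b, c, d, h3]

theorem OQ.sp_two_tensor {S : SF ι F} {Q : QuadraticForm F (ι → F)} (h : OQ S Q)
    (hF : Fintype.card F = 2) {n₂ : ℕ} (hn : 3 ≤ n₂) {e : ι ≃ Fin 2 × Fin n₂} {P : GL ι F}
    {f₁ : (Fin 2 → F) → (Fin 2 → F) → F} {f₂ : (Fin n₂ → F) → (Fin n₂ → F) → F}
    (hf₁ : IsSymplecticForm f₁) (hf₂ : IsSymplecticForm f₂)
    (hT : IsTensorFormStructure id (polar Q) f₁ f₂ e P) (hQ : ∀ x y, Q (phi e P x y) = 0) :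
    ∃ K, tensorProductSubgroup 2 n₂ e P ⊓ omegaGL Q < K ∧ K < omegaGL Q := by
  have h2 : (2 : F) = 0 := two_eq_zero_of_even (by rw [hF]; decide)
  have hneg : ∀ a : F, -a = a := fun a => by linear_combination (-a) * h2
  obtain ⟨S₁, a₁, b₁, rfl⟩ := exists_sf_alt hf₁
  obtain ⟨S₂, a₂, b₂, rfl⟩ := exists_sf_alt hf₂
  obtain ⟨c, T⟩ := exists_tf (S := S) (a₁.trans h.hσ'.symm) (a₂.trans h.hσ'.symm)
    (by rw [h.hf, h.hσ']; exact hT)
  have hB : ∀ x y x' y', polar Q (phi e P x y) (phi e P x' y') = c * (S₁.f x x' * S₂.f y y') := by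
    rw [← h.hf]; exact T.f
  have hn4 : Fintype.card ι ≠ 4 := by rw [Fintype.card_congr e]; simp; omega
  set e₀ : Fin 2 → F := Pi.single 0 1
  set e₁ : Fin 2 → F := Pi.single 1 1
  set ω : Matrix (Fin 2) (Fin 2) F := !![0, 1; 1, 1]
  have ω0 : ω *ᵥ e₀ = e₁ := by ext i; fin_cases i <;> simp [ω, e₀, e₁]
  have ω1 : ω *ᵥ e₁ = e₀ + e₁ := by ext i; fin_cases i <;> simp [ω, e₀, e₁]
  have hA₁ := hf₁.alternating
  have hA₂ := hf₂.alternating
  have h10 : S₁.f e₁ e₀ = S₁.f e₀ e₁ := by rw [hf₁.skew, hneg]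
  have hγ : S₁.f e₀ e₁ ≠ 0 := fun h0 => by
    refine one_ne_zero (congrFun (S₁.eq_zero_of_left (v := e₀) fun u => ?_) 0)
    rw [show u = u 0 • e₀ + u 1 • e₁ by ext i; fin_cases i <;> simp [e₀, e₁], S₁.add_right,
      S₁.smul_right, S₁.smul_right, h0, hA₁]
    simp
  have hω : ∀ x y, psiL e P ω *ᵥ phi e P x y = phi e P (ω *ᵥ x) y := fun x y => by
    rw [psiL_apply, tr_kron_phi, one_mulVec]
  have hadj : ∀ u v, polar Q (psiL e P ω *ᵥ u) v = polar Q u (psiL e P ω *ᵥ v) + polar Q u v := by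
    have h3 : ∀ u, ∃ y y', u = phi e P e₀ y + phi e P e₁ y' := fun u => by
      obtain ⟨x, rfl⟩ := SF.exists_coord e P u
      refine ⟨fun j => x (0, j), fun j => x (1, j), ?_⟩
      rw [phi_apply, phi_apply, ← mulVec_add]
      congr 1
      ext i
      rcases hi : e i with ⟨a, b⟩
      fin_cases a <;> simp [pt, e₀, e₁, hi]
    intro u v
    obtain ⟨y, y', rfl⟩ := h3 u
    obtain ⟨z, z', rfl⟩ := h3 v
    simp only [mulVec_add, hω, ω0, ω1, polar_add_left, polar_add_right, hB, S₁.add_left,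
      S₁.add_right, hA₁, h10]
    linear_combination (-c * S₁.f e₀ e₁ * S₂.f y z') * h2
  have hωω : ∀ v, psiL e P ω *ᵥ (psiL e P ω *ᵥ v) = psiL e P ω *ᵥ v + v := fun v => by
    rw [mulVec_mulVec, ← map_mul, show ω * ω = ω + 1 by
      ext i j; fin_cases i <;> fin_cases j <;> simp [ω], map_add, map_one, add_mulVec, one_mulVec]
  obtain ⟨y₂, hy₂⟩ : ∃ y : Fin n₂ → F, y ≠ 0 :=
    ⟨fun _ => 1, fun h0 => one_ne_zero (congrFun h0 ⟨0, by omega⟩)⟩
  obtain ⟨y₁, hy₁, hy₁'⟩ : ∃ y ∈ S₂.perp (Submodule.span F {y₂}), y ∉ Submodule.span F {y₂} := by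
    by_contra hc
    push Not at hc
    have h3 := Submodule.finrank_mono (show S₂.perp _ ≤ _ from hc)
    have h4 := S₂.finrank_perp_add (Submodule.span F {y₂})
    have h5 := finrank_span_one_le y₂
    rw [Fintype.card_fin] at h4
    omega
  have h12 : S₂.f y₁ y₂ = 0 := hy₁ y₂ (Submodule.mem_span_singleton_self _)
  have h21 := S₂.eq_zero_symm h12
  obtain ⟨y, hy, hy'⟩ := S₂.exists_orth_of_notMem _ hy₁'
  have hy := S₂.eq_zero_symm (hy y₂ (Submodule.mem_span_singleton_self _))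
  rw [hf₂.skew, hneg] at hy'
  set a := phi e P e₀ y₁ + phi e P e₁ y₂ with ha
  have hωa : psiL e P ω *ᵥ a = phi e P e₁ y₁ + phi e P (e₀ + e₁) y₂ := by
    rw [mulVec_add, hω, hω, ω0, ω1]
  obtain ⟨g, hg, hgv⟩ := h.exists_eich hn4 (u := a) (v := psiL e P ω *ᵥ a)
    (by rw [Q_add, hQ, hQ, hB, h12]; ring)
    (by rw [hωa]; simp only [ha, polar_add_left, polar_add_right, hB, hA₂, h12, h21]; ring)
  have hQa : Q (psiL e P ω *ᵥ a) = 0 := by rw [hωa, Q_add, hQ, hQ, hB, h12]; ring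
  obtain ⟨w, hw⟩ := S₂.exists_ne_right hy₂
  obtain ⟨g', hg', hgx, hgy⟩ := h.shift hn4 (x := phi e P e₀ y₂) (y := phi e P e₁ y₂) (hQ e₀ y₁)
    (by rw [hB, h12]; ring) (by rw [hB, h12]; ring) fun hm => by
      obtain ⟨b, d, hbd⟩ := Submodule.mem_span_pair.1 hm
      have := congrArg (polar Q · (phi e P e₀ w)) hbd
      simp only [polar_add_left, B_smul_left, hB, hA₁, h10, zero_mul, mul_zero, add_zero] at this
      exact mul_ne_zero T.ne (mul_ne_zero hγ hw) this.symm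
  have n₀ : e₀ ≠ 0 := fun h0 => one_ne_zero (congrFun h0 0)
  refine between (fun g => cj g (psiL e P ω) = psiL e P ω ∨ cj g (psiL e P ω) = psiL e P ω + 1)
    (Or.inl (by simp [cj_apply])) ?_ inf_le_right ?_ hg (fun hm => ?_) (Or.inl ?_) hg' ?_
  · rintro k k' hk (hk' | hk') <;> rw [cj_mul, hk']
    · exact hk
    · rw [map_add, map_one]
      rcases hk with hk | hk <;> rw [hk]
      · exact Or.inr rfl
      · left; rw [add_assoc, ← two_smul F, h2, zero_smul, add_zero]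
  · rintro k ⟨hk, -⟩
    obtain ⟨s, t, hst⟩ := (mem_tensorProductSubgroup e P k).1 hk
    have : k = trGL e P (kronGL s t) := by
      rw [← MulEquiv.symm_apply_eq]; exact Units.ext hst
    rw [this, psiL_apply, cj_trGL, cj_kronGL, map_one, ← psiL_apply]
    rcases eq_omega hF (x := cj s ω) (by rw [trace_cj]; simp [ω, trace_fin_two])
      (by rw [det_cj]; simp [ω, det_fin_two, hneg]) with h3 | h3
    · exact Or.inl (by rw [h3, ← psiL_apply])
    · exact Or.inr (by rw [h3, map_add, map_one, ← psiL_apply])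
  · obtain ⟨s, t, hst⟩ := T.mem g hm.1
    have h3 := hst e₀ y
    rw [hgv, hQa, hωa, ha] at h3
    simp only [polar_add_right, hB, hA₁, hy, hy', mul_zero, add_zero, zero_smul, sub_zero,
      mul_one] at h3
    have h4 := congrArg (polar Q · (phi e P e₀ w)) h3
    have h5 := congrArg (polar Q · (phi e P e₀ y₁)) h3
    have h6 := congrArg (polar Q · (phi e P e₁ y₁)) h3
    simp only [polar_add_left, B_smul_left, hB, hA₁, hA₂, h10, h21, hy', zero_mul, mul_zero,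
      add_zero, zero_add, mul_one] at h4 h5 h6
    rcases mul_eq_zero.1 ((mul_eq_zero.1 h5.symm).resolve_left T.ne) with h7 | h7
    · rw [h7, zero_mul, mul_zero] at h4
      exact mul_ne_zero (mul_ne_zero T.ne hγ) (mul_ne_zero T.ne (mul_ne_zero hγ hw)) h4
    · rw [h7, mul_zero, mul_zero] at h6
      exact mul_ne_zero T.ne hγ h6
  · rw [cj_eq_iff]
    refine Matrix.ext_of_mulVec_single fun i => ?_
    generalize (Pi.single i 1 : ι → F) = v
    rw [← mulVec_mulVec, ← mulVec_mulVec, hgv, hgv, hQa, hadj, hadj, hωω, polar_add_right]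
    simp only [mulVec_add, mulVec_sub, mulVec_smul, hωω]
    match_scalars
    · rfl
    · linear_combination (polar Q v (psiL e P ω *ᵥ a) + polar Q v a) * h2
    · linear_combination (polar Q v (psiL e P ω *ᵥ a) + polar Q v a) * h2
    · linear_combination (-polar Q v (psiL e P ω *ᵥ a)) * h2
  · have h3 := cj_mulVec g' (psiL e P ω) (phi e P e₀ y₂)
    rw [hgx, hω, ω0, hgy] at h3
    rintro (h4 | h4) <;> rw [h4] at h3
    · rw [hω, ω0, left_eq_add, ← map_zero (phi e P e₀)] at h3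
      obtain ⟨b, hb⟩ := T.prop h3 n₀
      exact hy₁' (by rw [hb, smul_zero]; exact zero_mem _)
    · rw [add_mulVec, one_mulVec, hω, ω0, add_right_inj] at h3
      obtain ⟨b, hb⟩ := T.prop h3.symm n₀
      exact hy₁' (Submodule.mem_span_singleton.2 ⟨b, hb.symm⟩)

end H12.A
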